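import Cfsg.Prelude.Def_MonsterType
import Cfsg.Agent.Lib.H91.LargePair
import Cfsg.Agent.Lib.H91.MonsterForm
import Cfsg.Agent.Lib.H26.Components

/-!
The extraspecial-centralizer setting, elementwise.
-/

set_option autoImplicit false

namespace H91.Setting

open Cfsg H91.MonsterForm H91.LargePair

/-- The elementwise package attached to the extraspecial-centralizer setting. -/
theorem pack_of_setting {G : Type*} [Group G] [Finite G] {z : G}
    {Q : Subgroup (Subgroup.centralizer ({z} : Set G))} {w : ℕ}
    (h : IsExtraspecialCentralizerSetting z Q w) :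
    Pack (Q.map (Subgroup.centralizer ({z} : Set G)).subtype) z ∧
      (∀ x : Q, x ∈ Subgroup.center Q ↔ ((x : Subgroup.centralizer ({z} : Set G)) : G) = 1 ∨
        ((x : Subgroup.centralizer ({z} : Set G)) : G) = z) := by
  obtain ⟨hz2, hF, hQ, hcard, -⟩ := h
  obtain ⟨ζ, X⟩ := exists_XS hQ
  have hz1 : z ≠ 1 := by
    intro h; rw [h, orderOf_one] at hz2; norm_num at hz2
  have hzz : z * z = 1 := by
    have := pow_orderOf_eq_one z
    rw [hz2, pow_two] at this
    exact this
  let zC : Subgroup.centralizer ({z} : Set G) := ⟨z, Subgroup.mem_centralizer_singleton_iff.2 rfl⟩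
  have hcommC : ∀ c : Subgroup.centralizer ({z} : Set G), (c : G) * z = z * c := fun c =>
    Subgroup.mem_centralizer_singleton_iff.1 c.2
  have hcen : Subgroup.centralizer (Q : Set (Subgroup.centralizer ({z} : Set G))) ≤ Q := by
    have := H26.Components.centralizer_gFitting_le (G := Subgroup.centralizer ({z} : Set G))
    rw [hF] at this
    exact this
  have hzQ : zC ∈ Q := by
    apply hcen
    rw [Subgroup.mem_centralizer_iff]
    intro q _
    apply Subtype.ext
    exact hcommC q
  have hn : Q.Normal := by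
    rw [← hF]; exact H26.Components.gFitting_normal
  -- `ζ = z`
  have hζ : ((ζ : Subgroup.centralizer ({z} : Set G)) : G) = z := by
    have h1 : (⟨zC, hzQ⟩ : Q) ∈ Subgroup.center Q := by
      rw [Subgroup.mem_center_iff]
      intro g
      apply Subtype.ext
      apply Subtype.ext
      exact hcommC g
    rcases (X.center _).1 h1 with h2 | h2
    · exfalso
      apply hz1
      have := congrArg (fun x : Q => ((x : Subgroup.centralizer ({z} : Set G)) : G)) h2
      exact this
    · have := congrArg (fun x : Q => ((x : Subgroup.centralizer ({z} : Set G)) : G)) h2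
      exact this.symm
  have hcase : ∀ x : Q, (x = 1 ∨ x = ζ) → ((x : Subgroup.centralizer ({z} : Set G)) : G) = 1 ∨
      ((x : Subgroup.centralizer ({z} : Set G)) : G) = z := by
    rintro x (rfl | rfl)
    · left; rfl
    · right; exact hζ
  have hcenter : ∀ x : Q, x ∈ Subgroup.center Q ↔ ((x : Subgroup.centralizer ({z} : Set G)) : G) = 1 ∨
      ((x : Subgroup.centralizer ({z} : Set G)) : G) = z := by
    intro x
    rw [X.center]
    constructor
    · exact hcase x
    · rintro (h1 | h1)
      · left; apply Subtype.ext; apply Subtype.ext; exact h1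
      · right; apply Subtype.ext; apply Subtype.ext; rw [hζ]; exact h1
  refine ⟨⟨⟨zC, hzQ, rfl⟩, hz1, hzz, ?_, ?_, ?_, ?_, ?_, ?_⟩, hcenter⟩
  · rintro _ ⟨q, -, rfl⟩
    exact hcommC q
  · rintro _ ⟨x, hx, rfl⟩ hc
    apply (hcenter ⟨x, hx⟩).1
    rw [Subgroup.mem_center_iff]
    intro g
    apply Subtype.ext
    apply Subtype.ext
    exact hc _ ⟨g, g.2, rfl⟩
  · rintro _ ⟨x, hx, rfl⟩ _ ⟨y, hy, rfl⟩
    have h1 := X.cm ⟨y, hy⟩ ⟨x, hx⟩
    rcases h1 with h1 | h1
    · left
      have h2 := congrArg (fun x : Q => ((x : Subgroup.centralizer ({z} : Set G)) : G)) h1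
      have h3 : (x : G) * y = y * x := h2
      show (x : G) * y * (x : G)⁻¹ * (y : G)⁻¹ = 1
      rw [h3]; group
    · right
      have h2 := congrArg (fun x : Q => ((x : Subgroup.centralizer ({z} : Set G)) : G)) h1
      have h3 : (x : G) * y = z * (y * x) := by
        have : (x : G) * y = ((ζ : Subgroup.centralizer ({z} : Set G)) : G) * (y * x) := h2
        rw [this, hζ]
      show (x : G) * y * (x : G)⁻¹ * (y : G)⁻¹ = z
      rw [h3]; group
  · rintro _ ⟨x, hx, rfl⟩
    rcases hcase _ (X.sq ⟨x, hx⟩) with h1 | h1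
    · left; exact h1
    · right; exact h1
  · intro x hx
    have hxC : x ∈ Subgroup.centralizer ({z} : Set G) := by
      rw [Subgroup.mem_centralizer_singleton_iff]
      exact (hx z ⟨zC, hzQ, rfl⟩).symm
    have hxQ : (⟨x, hxC⟩ : Subgroup.centralizer ({z} : Set G)) ∈ Q := by
      apply hcen
      rw [Subgroup.mem_centralizer_iff]
      intro q hq
      apply Subtype.ext
      exact hx q ⟨q, hq, rfl⟩
    apply (hcenter ⟨⟨x, hxC⟩, hxQ⟩).1
    rw [Subgroup.mem_center_iff]
    intro g
    apply Subtype.ext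
    apply Subtype.ext
    exact hx _ ⟨g, g.2, rfl⟩
  · rintro c hc _ ⟨q, hq, rfl⟩
    have hcC : c ∈ Subgroup.centralizer ({z} : Set G) := Subgroup.mem_centralizer_singleton_iff.2 hc
    exact ⟨⟨c, hcC⟩ * q * ⟨c, hcC⟩⁻¹, hn.conj_mem q hq _, rfl⟩

theorem card_map {G : Type*} [Group G] {z : G} (Q : Subgroup (Subgroup.centralizer ({z} : Set G))) :
    Nat.card (Q.map (Subgroup.centralizer ({z} : Set G)).subtype) = Nat.card Q :=
  (Nat.card_congr (Q.equivMapOfInjective _ (Subgroup.subtype_injective _)).toEquiv).symm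

end H91.Setting
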