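import Cfsg.Agent.Lib.H91.M24Cent
import Cfsg.Agent.Lib.H93.GolayDual
import Cfsg.Agent.Lib.H8.M24Trans
import Cfsg.Agent.Lib.H9.Steiner
import Cfsg.Agent.Lib.H32.M24Kit

/-!
The two classes of involutions of `M24`.
-/

set_option autoImplicit false

namespace H91.M24Inv

open Cfsg Matrix H8.GolayCode H8.GolayCount H8.GolayBasic H8.M24Mem H8.M24Chain H57.OctTab H57.OctStab H57.M24Fus
  H91.M24Cent H91.Holomorph H91.TransvCent

/-! ### fixed-point-free involutions -/

/-- tables of the elements swapping `5,3`, `2,1`, `0,23` and moving `4` to a given point -/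
def sL : List (ℕ × ℕ × ℕ) := [(6, 0x1ecb23dd564669522548346628457, 0x56086a5c7944cfa2d8ab107328457),
  (7, 0x188cb51d35c6aa4c90f6c06728457, 0x4db2829c6444f47b1692587528457),
  (8, 0x49f3a59ccac570698e44a86828457, 0x49f3a59ccac570698e44a86828457),
  (9, 0x297664dd4245e63c1b54486928457, 0x5110919ca6c533ad8875b06f28457),
  (10, 0x25845d5cfb4687336139206a28457, 0x3e4d41dc984555992c662c7428457),
  (11, 0x3126541d23c51624ead7d06b28457, 0x3126541d23c51624ead7d06b28457),
  (12, 0x2d474b5c834644b5670a3c6c28457, 0x2d474b5c834644b5670a3c6c28457),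
  (13, 0x42b49b1d67c4924292b3986d28457, 0x42b49b1d67c4924292b3986d28457),
  (15, 0x5110919ca6c533ad8875b06f28457, 0x297664dd4245e63c1b54486928457),
  (16, 0x366faadc4a46c89254c31c7028457, 0x366faadc4a46c89254c31c7028457),
  (18, 0x2295791cb9c58d81cd65247228457, 0x2295791cb9c58d81cd65247228457),
  (19, 0x56086a5c7944cfa2d8ab107328457, 0x1ecb23dd564669522548346628457),
  (20, 0x3e4d41dc984555992c662c7428457, 0x25845d5cfb4687336139206a28457),
  (21, 0x4db2829c6444f47b1692587528457, 0x188cb51d35c6aa4c90f6c06728457),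
  (22, 0x10c93a1cd5460b63e929d47628457, 0x10c93a1cd5460b63e929d47628457)]

/-- conjugating elements -/
def cL : List (ℕ × ℕ × ℕ) := [(8, 0xbdab49ca307b9ac5a928398a418820, 0xbdab49ca307b9ac5a928398a418820),
  (11, 0xb9e086be3593a6952d94b10a618820, 0xb9e086be3593a6952d94b10a618820),
  (12, 0xd8ef32e30a39a89254cacca4182e2, 0xd8ef32e30a39a89254cacca4182e2),
  (16, 0x8d20d6542a58a6779109b48a6182ee, 0x9e5669af5582937c109610aa1ba22),
  (18, 0x9ed222a3543a747b169834a6182e2, 0xd60c6d2275b8ca4c90fb10b3182e2),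
  (22, 0x8a2b34c02b509b691a8c3bca4182ee, 0xb2a9a2ef2301a883e763a8a41ba22)]

/-- the base table -/
def s8 : ℕ := 0x49f3a59ccac570698e44a86828457

theorem sL_chk : (sL.all fun e => chkM e.2.1 e.2.2 && (Nat.beq (tab e.2.1 5) 3 && Nat.beq (tab e.2.1 3) 5 &&
    Nat.beq (tab e.2.1 2) 1 && Nat.beq (tab e.2.1 1) 2 && Nat.beq (tab e.2.1 0) 23 && Nat.beq (tab e.2.1 23) 0 &&
    Nat.beq (tab e.2.1 4) e.1)) = true := by decide +kernel

/-- each table is either not a fixed-point-free involution or conjugate to the base one -/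
def chkC (s : ℕ) (e : ℕ × ℕ × ℕ) : Bool :=
  chkM e.2.1 e.2.2 && (List.range 24).all fun i => Nat.beq (tab e.2.1 (tab s i)) (tab s8 (tab e.2.1 i))

theorem sL_cls : (sL.all fun e => ((List.range 24).any fun i => !Nat.beq (tab e.2.1 (tab e.2.1 i)) i || Nat.beq (tab e.2.1 i) i) ||
    cL.any fun f => Nat.beq f.1 e.1 && chkC e.2.1 f) = true := by decide +kernel

theorem out_cover : ∀ r : Fin 24, OM.testBit r.1 = false → r.1 ≠ 4 → (sL.any fun e => Nat.beq e.1 r.1) = true := by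
  decide +kernel

/-- the base involution -/
theorem exists_s8 : ∃ g ∈ M24, ∀ p, idx (g p) = tab s8 (idx p) :=
  exists_of_chk (c := s8) (c' := s8) (by decide +kernel)

theorem s8_sq : ∀ i : Fin 24, tab s8 (tab s8 i.1) = i.1 ∧ tab s8 i.1 ≠ i.1 := by decide +kernel

/-- normal form for a fixed-point-free involution swapping the given points -/
theorem normal_form {t : Equiv.Perm GolayPt} (ht : t ∈ M24) (h2 : ∀ x, t (t x) = x) (hfp : ∀ x, t x ≠ x)
    (h5 : t (pt 5) = pt 3) (h21 : t (pt 2) = pt 1) (h0 : t (pt 0) = pt 23) (h4 : t (pt 4) ∉ O)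
    {g8 : Equiv.Perm GolayPt} (hg8 : ∀ p, idx (g8 p) = tab s8 (idx p)) :
    ∃ k ∈ M24, k * t * k⁻¹ = g8 := by
  have h3 : t (pt 3) = pt 5 := by rw [← h5, h2]
  have h1 : t (pt 1) = pt 2 := by rw [← h21, h2]
  have h23 : t (pt 23) = pt 0 := by rw [← h0, h2]
  set r := idx (t (pt 4)) with hr
  have hr24 : r < 24 := idx_lt _
  have hrO : OM.testBit r = false := by
    rw [mem_O] at h4; simpa using h4
  have hr4 : r ≠ 4 := by
    intro h
    apply hfp (pt 4)
    rw [← pt_idx (t (pt 4)), ← hr, h]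
  have hcov := out_cover ⟨r, hr24⟩ hrO hr4
  rw [List.any_eq_true] at hcov
  obtain ⟨e, he, her⟩ := hcov
  have her' : e.1 = r := Nat.beq_eq.mp her
  have hchk := List.all_eq_true.1 sL_chk e he
  simp only [Bool.and_eq_true] at hchk
  obtain ⟨hm, ⟨⟨⟨⟨⟨⟨q5, q3⟩, q2⟩, q1⟩, q0⟩, q23⟩, q4⟩⟩ := hchk
  obtain ⟨s, hs, hsT⟩ := exists_of_chk hm
  have ap : ∀ {i j : ℕ}, i < 24 → Nat.beq (tab e.2.1 i) j = true → s (pt i) = pt j := fun hi hj =>
    apply_eq hsT hi (Nat.beq_eq.mp hj)
  have hst : s⁻¹ * t = 1 := by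
    apply eq_one_of_fix (M24.mul_mem (M24.inv_mem hs) ht)
    intro i hi
    show s⁻¹ (t (pt i)) = pt i
    rw [Equiv.Perm.inv_eq_iff_eq]
    simp only [List.mem_cons, List.not_mem_nil, or_false] at hi
    rcases hi with rfl | rfl | rfl | rfl | rfl | rfl | rfl
    · rw [ap (by norm_num) q4, her', hr, pt_idx]
    · rw [ap (by norm_num) q5, h5]
    · rw [ap (by norm_num) q3, h3]
    · rw [ap (by norm_num) q2, h21]
    · rw [ap (by norm_num) q1, h1]
    · rw [ap (by norm_num) q0, h0]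
    · rw [ap (by norm_num) q23, h23]
  have hts : t = s := by rw [inv_mul_eq_one] at hst; exact hst.symm
  have hcls := List.all_eq_true.1 sL_cls e he
  rw [Bool.or_eq_true] at hcls
  rcases hcls with hc | hc
  · exfalso
    rw [List.any_eq_true] at hc
    obtain ⟨i, hi, hc⟩ := hc
    rw [List.mem_range] at hi
    have e1 : idx (t (pt i)) = tab e.2.1 i := by rw [hts, hsT, idx_pt i hi]
    have e2 : idx (t (t (pt i))) = tab e.2.1 (tab e.2.1 i) := by
      rw [hts, hsT, ← hts, e1]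
    rw [Bool.or_eq_true] at hc
    rcases hc with hc | hc
    · rw [h2, idx_pt i hi] at e2
      rw [← e2] at hc
      simp at hc
    · have e3 : tab e.2.1 i = i := Nat.beq_eq.mp hc
      apply hfp (pt i)
      rw [← pt_idx (t (pt i)), e1, e3]
  · rw [List.any_eq_true] at hc
    obtain ⟨f, hf, hc⟩ := hc
    rw [Bool.and_eq_true, chkC, Bool.and_eq_true] at hc
    obtain ⟨-, hcm, hca⟩ := hc
    obtain ⟨c, hcM, hcT⟩ := exists_of_chk hcm
    refine ⟨c, hcM, ?_⟩
    rw [mul_inv_eq_iff_eq_mul]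
    apply Equiv.ext
    intro p
    apply idx_injective
    show idx (c (t p)) = idx (g8 (c p))
    rw [hcT, hts, hsT, hg8, hcT]
    exact Nat.beq_eq.mp (List.all_eq_true.1 hca (idx p) (List.mem_range.2 (idx_lt p)))

/-- the octads containing a tetrad -/
theorem card_five {T : Finset GolayPt} (hT : T.card = 4) : ((H9.Steiner.blk octads).filter fun b => T ⊆ b).card = 5 := by
  have h := H9.Steiner.card_blk_containing octads_steiner (S := T) (by rw [hT]; norm_num)
  rw [hT, ← Nat.card_eq_fintype_card, Nat.card_eq_fintype_card, card_pt] at h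
  norm_num [Nat.choose] at h
  omega

/-- an involution normalises an octad containing a given invariant tetrad -/
theorem exists_octad {t : Equiv.Perm GolayPt} (ht : t ∈ M24) (h2 : ∀ x, t (t x) = x) {T : Finset GolayPt}
    (hT : T.card = 4) (hTt : ∀ x ∈ T, t x ∈ T) : ∃ o ∈ octads, T ⊆ o ∧ ∀ x ∈ o, t x ∈ o := by
  classical
  have hTi : ∀ b : Finset GolayPt, T ⊆ b → T ⊆ b.image t := by
    intro b hb x hx
    rw [Finset.mem_image]
    exact ⟨t x, hb (hTt x hx), h2 x⟩
  have himg : ∀ b : Finset GolayPt, (b.image t).image t = b := by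
    intro b
    rw [Finset.image_image]
    have : (t ∘ t : GolayPt → GolayPt) = id := funext h2
    rw [this, Finset.image_id]
  by_contra hcon
  push Not at hcon
  let g : Equiv.Perm (Finset GolayPt) := ⟨fun b => b.image t, fun b => b.image t, himg, himg⟩
  have hev := H93.GolayDual.even_card_of_invol g himg ((H9.Steiner.blk octads).filter fun b => T ⊆ b) (by
    intro b hb
    rw [Finset.mem_filter, H9.Steiner.mem_blk] at hb ⊢
    exact ⟨image_octad ht hb.1, hTi b hb.2⟩) (by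
    intro b hb hfix
    rw [Finset.mem_filter, H9.Steiner.mem_blk] at hb
    obtain ⟨x, hx, hxn⟩ := hcon b hb.1 hb.2
    apply hxn
    have h3 : b.image t = b := hfix
    rw [← h3]
    exact Finset.mem_image_of_mem _ hx)
  rw [card_five hT] at hev
  exact absurd hev (by decide)

theorem conj_s8 {t : Equiv.Perm GolayPt} (ht : t ∈ M24) (h2 : ∀ x, t (t x) = x) (hfp : ∀ x, t x ≠ x)
    {g8 : Equiv.Perm GolayPt} (hg8 : ∀ p, idx (g8 p) = tab s8 (idx p)) :
    ∃ k ∈ M24, k * t * k⁻¹ = g8 := by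
  classical
  obtain ⟨x⟩ : Nonempty GolayPt := ⟨none⟩
  have hx : x ≠ t x := (hfp x).symm
  obtain ⟨y, hy⟩ : ∃ y, y ∉ ({x, t x} : Finset GolayPt) := by
    by_contra hcon
    push Not at hcon
    have h3 : (Finset.univ : Finset GolayPt) ⊆ {x, t x} := fun y _ => hcon y
    have h4 := Finset.card_le_card h3
    rw [Finset.card_univ, card_pt] at h4
    have := Finset.card_le_two (a := x) (b := t x)
    omega
  simp only [Finset.mem_insert, Finset.mem_singleton, not_or] at hy
  obtain ⟨hyx, hytx⟩ := hy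
  have hyy : y ≠ t y := (hfp y).symm
  have htyx : t y ≠ x := fun h => hytx (by rw [← h, h2])
  have htytx : t y ≠ t x := fun h => hyx (t.injective h)
  set T : Finset GolayPt := {x, t x, y, t y} with hTdef
  have hT : T.card = 4 := by
    rw [hTdef, Finset.card_insert_of_notMem, Finset.card_insert_of_notMem, Finset.card_insert_of_notMem,
      Finset.card_singleton]
    · rw [Finset.mem_singleton]; exact hyy
    · simp only [Finset.mem_insert, Finset.mem_singleton, not_or]; exact ⟨fun h => hytx h.symm, fun h => htytx h.symm⟩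
    · simp only [Finset.mem_insert, Finset.mem_singleton, not_or]; exact ⟨hx, fun h => hyx h.symm, fun h => htyx h.symm⟩
  have hTt : ∀ w ∈ T, t w ∈ T := by
    intro w hw
    simp only [hTdef, Finset.mem_insert, Finset.mem_singleton] at hw ⊢
    rcases hw with rfl | rfl | rfl | rfl
    · tauto
    · rw [h2]; tauto
    · tauto
    · rw [h2]; tauto
  obtain ⟨o, ho, hTo, hot⟩ := exists_octad ht h2 hT hTt
  obtain ⟨z, hzo, hzT⟩ : ∃ z ∈ o, z ∉ T := by
    by_contra hcon
    push Not at hcon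
    have h4 := Finset.card_le_card (show o ⊆ T from hcon)
    rw [ho.2, hT] at h4; omega
  obtain ⟨w, hw⟩ : ∃ w, w ∉ o := by
    by_contra hcon
    push Not at hcon
    have h4 := Finset.card_le_card (show (Finset.univ : Finset GolayPt) ⊆ o from fun w _ => hcon w)
    rw [Finset.card_univ, card_pt, ho.2] at h4; omega
  have hz : z ≠ x ∧ z ≠ t x ∧ z ≠ y ∧ z ≠ t y := by
    simp only [hTdef, Finset.mem_insert, Finset.mem_singleton, not_or] at hzT
    exact hzT
  have htz : t z ≠ x ∧ t z ≠ t x ∧ t z ≠ y ∧ t z ≠ t y :=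
    ⟨fun h => hz.2.1 (by rw [← h, h2]), fun h => hz.1 (t.injective h), fun h => hz.2.2.2 (by rw [← h, h2]),
      fun h => hz.2.2.1 (t.injective h)⟩
  have hzz : z ≠ t z := (hfp z).symm
  have hxo : x ∈ o := hTo (by simp [hTdef])
  have hyo : y ∈ o := hTo (by simp [hTdef])
  let X : Fin 6 → GolayPt := ![x, t x, y, t y, z, t z]
  let Y : Fin 6 → GolayPt := ![pt 5, pt 3, pt 2, pt 1, pt 0, pt 23]
  have hX : Function.Injective X := by
    have e01 : X 0 ≠ X 1 := hx
    have e02 : X 0 ≠ X 2 := fun h => hyx h.symm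
    have e03 : X 0 ≠ X 3 := fun h => htyx h.symm
    have e04 : X 0 ≠ X 4 := fun h => hz.1 h.symm
    have e05 : X 0 ≠ X 5 := fun h => htz.1 h.symm
    have e12 : X 1 ≠ X 2 := fun h => hytx h.symm
    have e13 : X 1 ≠ X 3 := fun h => htytx h.symm
    have e14 : X 1 ≠ X 4 := fun h => hz.2.1 h.symm
    have e15 : X 1 ≠ X 5 := fun h => htz.2.1 h.symm
    have e23 : X 2 ≠ X 3 := hyy
    have e24 : X 2 ≠ X 4 := fun h => hz.2.2.1 h.symm
    have e25 : X 2 ≠ X 5 := fun h => htz.2.2.1 h.symm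
    have e34 : X 3 ≠ X 4 := fun h => hz.2.2.2 h.symm
    have e35 : X 3 ≠ X 5 := fun h => htz.2.2.2 h.symm
    have e45 : X 4 ≠ X 5 := hzz
    have key : ∀ i j : Fin 6, i < j → X i ≠ X j := by
      intro i j hij
      fin_cases i <;> fin_cases j <;> first
        | exact absurd hij (by decide)
        | assumption
    intro i j h
    by_contra hne
    rcases lt_or_gt_of_ne hne with h1 | h1
    · exact key i j h1 h
    · exact key j i h1 h.symm
  have hY : Function.Injective Y := by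
    have key : ∀ i j : Fin 6, Y i = Y j → i = j := by decide
    exact fun i j => key i j
  have hXo : ∀ i, X i ∈ o := by
    intro i
    fin_cases i
    · exact hxo
    · exact hot x hxo
    · exact hyo
    · exact hot y hyo
    · exact hzo
    · exact hot z hzo
  have hYO : ∀ i, Y i ∈ O := by
    intro i
    fin_cases i
    · exact pt_mem_O (i := 5) (by norm_num) (by decide)
    · exact pt_mem_O (i := 3) (by norm_num) (by decide)
    · exact pt_mem_O (i := 2) (by norm_num) (by decide)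
    · exact pt_mem_O (i := 1) (by norm_num) (by decide)
    · exact pt_mem_O (i := 0) (by norm_num) (by decide)
    · exact pt_mem_O (i := 23) (by norm_num) (by decide)
  obtain ⟨k, ⟨hk, hkX, hkw⟩, -⟩ := H32.M24Kit.existsUnique7 hX hY ho O_octad hXo hYO hw pt4
  have k0 : k x = pt 5 := hkX 0
  have k1 : k (t x) = pt 3 := hkX 1
  have k2 : k y = pt 2 := hkX 2
  have k3 : k (t y) = pt 1 := hkX 3
  have k4 : k z = pt 0 := hkX 4
  have k5 : k (t z) = pt 23 := hkX 5
  have hko : o.image k = O := by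
    apply octad_unique (image_octad hk ho) O_octad (u := Finset.univ.image Y)
    · rw [Finset.card_image_of_injective _ hY]; simp
    · intro p hp
      rw [Finset.mem_image] at hp
      obtain ⟨i, -, rfl⟩ := hp
      rw [Finset.mem_image]
      exact ⟨X i, hXo i, hkX i⟩
    · intro p hp
      rw [Finset.mem_image] at hp
      obtain ⟨i, -, rfl⟩ := hp
      exact hYO i
  have hinv : ∀ p q, k p = q → k⁻¹ q = p := by
    intro p q h; rw [← h]; simp
  have happ : ∀ p, (k * t * k⁻¹) (k p) = k (t p) := by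
    intro p; simp
  obtain ⟨c, hc, hcc⟩ := normal_form (t := k * t * k⁻¹) (M24.mul_mem (M24.mul_mem hk ht) (M24.inv_mem hk)) (by
      intro p
      show k (t (k⁻¹ (k (t (k⁻¹ p))))) = p
      simp [h2]) (by
      intro p hp
      apply hfp (k⁻¹ p)
      have h5 : k (t (k⁻¹ p)) = p := hp
      rw [← hinv _ _ h5]) (by rw [← k0, happ, k1]) (by rw [← k2, happ, k3]) (by rw [← k4, happ, k5]) (by
      rw [← hkw, happ, ← hko, Finset.mem_image]
      rintro ⟨q, hq, hqe⟩
      have h6 := k.injective hqe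
      apply hw
      rw [← h2 w, ← h6]
      exact hot q hq) hg8
  refine ⟨c * k, M24.mul_mem hc hk, ?_⟩
  rw [← hcc]; group

/-! ### involutions fixing an octad -/

theorem trans_U0 {u u' : G0} (hu : u ∈ U0) (hu1 : u ≠ 1) (hu' : u' ∈ U0) (hu1' : u' ≠ 1) :
    ∃ x : G0, x * u * x⁻¹ = u' := by
  have hc : ∀ a ∈ U0, ∀ b ∈ U0, a * b = b * a := fun a ha b hb =>
    congrArg Subtype.val (U0_elem.1.1.1 ⟨a, ha⟩ ⟨b, hb⟩)
  obtain ⟨D⟩ := exists_dat (m := 2 + 1) U0_normal hc U0_elem.2 (by rw [card_U0]; norm_num) inf_bot sup_top hu hu1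
  have hfull := hfull_of_card D U0_normal (fun x hx h => faith hx h) (by
    rw [card_M0]; exact H47.A8GL4.card_GL4.symm)
  have h0 : D.ε ⟨u, hu⟩ ≠ 0 := by
    intro h
    apply hu1
    have := D.ε.injective (h.trans (ε_one D).symm)
    exact congrArg Subtype.val this
  have h1 : D.ε ⟨u', hu'⟩ ≠ 0 := by
    intro h
    apply hu1'
    have := D.ε.injective (h.trans (ε_one D).symm)
    exact congrArg Subtype.val this
  obtain ⟨g, hg⟩ := H50.Tv.exists_GL_mulVec_eq (F := ZMod 2) h0 h1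
  have hgg : (g : Mt (2 + 1 + 1)) * ((g⁻¹ : GL (Fin (2 + 1 + 1)) (ZMod 2)) : Mt (2 + 1 + 1)) = 1 := by
    rw [← Units.val_mul, mul_inv_cancel]; rfl
  have hgg' : ((g⁻¹ : GL (Fin (2 + 1 + 1)) (ZMod 2)) : Mt (2 + 1 + 1)) * (g : Mt (2 + 1 + 1)) = 1 := by
    rw [← Units.val_mul, inv_mul_cancel]; rfl
  let φ : ↥U0 ≃* ↥U0 :=
    { toFun := fun v => D.ε.symm ((g : Mt (2 + 1 + 1)) *ᵥ D.ε v)
      invFun := fun v => D.ε.symm (((g⁻¹ : GL (Fin (2 + 1 + 1)) (ZMod 2)) : Mt (2 + 1 + 1)) *ᵥ D.ε v)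
      left_inv := fun v => by
        show D.ε.symm (((g⁻¹ : GL (Fin (2 + 1 + 1)) (ZMod 2)) : Mt (2 + 1 + 1)) *ᵥ
          D.ε (D.ε.symm ((g : Mt (2 + 1 + 1)) *ᵥ D.ε v))) = v
        rw [Equiv.apply_symm_apply, Matrix.mulVec_mulVec, hgg', Matrix.one_mulVec, Equiv.symm_apply_apply]
      right_inv := fun v => by
        show D.ε.symm ((g : Mt (2 + 1 + 1)) *ᵥ D.ε (D.ε.symm
          (((g⁻¹ : GL (Fin (2 + 1 + 1)) (ZMod 2)) : Mt (2 + 1 + 1)) *ᵥ D.ε v))) = v
        rw [Equiv.apply_symm_apply, Matrix.mulVec_mulVec, hgg, Matrix.one_mulVec, Equiv.symm_apply_apply]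
      map_mul' := fun a b => by
        show D.ε.symm ((g : Mt (2 + 1 + 1)) *ᵥ D.ε (a * b)) =
          D.ε.symm ((g : Mt (2 + 1 + 1)) *ᵥ D.ε a) * D.ε.symm ((g : Mt (2 + 1 + 1)) *ᵥ D.ε b)
        rw [Equiv.symm_apply_eq, D.ε_mul, D.ε_mul, Equiv.apply_symm_apply, Equiv.apply_symm_apply, Matrix.mulVec_add] }
  obtain ⟨x, -, hx⟩ := hfull φ
  refine ⟨x, ?_⟩
  have h2 := hx ⟨u, hu⟩
  rw [← h2]
  have h3 : φ ⟨u, hu⟩ = ⟨u', hu'⟩ := by
    show D.ε.symm ((g : Mt (2 + 1 + 1)) *ᵥ D.ε ⟨u, hu⟩) = ⟨u', hu'⟩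
    rw [hg, Equiv.symm_apply_apply]
  rw [h3]

/-- conjugation into `VO` -/
theorem conj_VO_of_fix {z : Equiv.Perm GolayPt} (hz : z ∈ M24)
    (hfix : (Finset.univ.filter fun p => z p = p) ∈ octads) : ∃ g ∈ M24, g * z * g⁻¹ ∈ VO := by
  obtain ⟨g0, hg0, hgO⟩ := H8.M24Trans.octad_trans hfix O_octad
  refine ⟨g0, hg0, M24.mul_mem (M24.mul_mem hg0 hz) (M24.inv_mem hg0), fun x hx => ?_⟩
  rw [← hgO, Finset.mem_image] at hx
  obtain ⟨y, hy, rfl⟩ := hx
  rw [Finset.mem_filter] at hy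
  show g0 (z (g0⁻¹ (g0 y))) = g0 y
  have e : g0⁻¹ (g0 y) = y := by simp
  rw [e, hy.2]

theorem conj_octad {z w : Equiv.Perm GolayPt} (hz : z ∈ M24) (hz1 : z ≠ 1) (hw : w ∈ M24) (hw1 : w ≠ 1)
    (hfz : (Finset.univ.filter fun p => z p = p) ∈ octads) (hfw : (Finset.univ.filter fun p => w p = p) ∈ octads) :
    ∃ k ∈ M24, k * z * k⁻¹ = w := by
  obtain ⟨g, hg, hgV⟩ := conj_VO_of_fix hz hfz
  obtain ⟨h, hh, hhV⟩ := conj_VO_of_fix hw hfw
  obtain ⟨u, hu, huv⟩ := VO_G0 hgV
  obtain ⟨v, hv, hvv⟩ := VO_G0 hhV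
  have hu1 : u ≠ 1 := by
    rintro rfl
    apply hz1
    have h1 : g * z * g⁻¹ = 1 := huv.symm
    rw [mul_inv_eq_one] at h1
    exact mul_left_cancel (h1.trans (mul_one g).symm)
  have hv1 : v ≠ 1 := by
    rintro rfl
    apply hw1
    have h1 : h * w * h⁻¹ = 1 := hvv.symm
    rw [mul_inv_eq_one] at h1
    exact mul_left_cancel (h1.trans (mul_one h).symm)
  obtain ⟨x, hx⟩ := trans_U0 hu hu1 hv hv1
  refine ⟨h⁻¹ * ((x : M24) : Equiv.Perm GolayPt) * g, M24.mul_mem (M24.mul_mem (M24.inv_mem hh) (x : M24).2) hg, ?_⟩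
  have h3 : ((x : M24) : Equiv.Perm GolayPt) * ((u : M24) : Equiv.Perm GolayPt) * ((x : M24) : Equiv.Perm GolayPt)⁻¹ =
    ((v : M24) : Equiv.Perm GolayPt) := congrArg (fun y : G0 => ((y : M24) : Equiv.Perm GolayPt)) hx
  rw [huv, hvv] at h3
  calc h⁻¹ * ((x : M24) : Equiv.Perm GolayPt) * g * z * (h⁻¹ * ((x : M24) : Equiv.Perm GolayPt) * g)⁻¹
      = h⁻¹ * (((x : M24) : Equiv.Perm GolayPt) * (g * z * g⁻¹) * ((x : M24) : Equiv.Perm GolayPt)⁻¹) * h := by group
    _ = w := by rw [h3]; group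

/-! ### fixed points -/

theorem fix_cases {g : Equiv.Perm GolayPt} (hg : g ∈ M24) (h2 : ∀ x, g (g x) = x) (h1 : g ≠ 1) :
    (Finset.univ.filter fun p => g p = p) ∈ octads ∨ ∀ p, g p ≠ p := by
  have hF := H93.GolayDual.fixed_mem_GS hg h2
  have hconj : ∀ k ∈ M24, k * g * k⁻¹ ≠ 1 := by
    intro k _ h
    apply h1
    rw [mul_inv_eq_one] at h
    exact mul_left_cancel (h.trans (mul_one k).symm)
  rcases weight_cases hF with h | h | h | h | h
  · right
    rw [Finset.card_eq_zero] at h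
    intro p hp
    have : p ∈ (Finset.univ.filter fun p => g p = p) := by simp [hp]
    rw [h] at this
    exact absurd this (Finset.notMem_empty _)
  · exact Or.inl ⟨hF, h⟩
  · exfalso
    obtain ⟨k, hk, hkF⟩ := H8.M24Trans.dodecad_trans (d := Finset.univ.filter fun p => g p = p) ⟨hF, h⟩
      H93.GolayDual.squareDodecad_mem
    apply hconj k hk
    apply H93.GolayDual.fix_squareDodecad (M24.mul_mem (M24.mul_mem hk hg) (M24.inv_mem hk))
    intro i hmem
    rw [← hkF, Finset.mem_image] at hmem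
    obtain ⟨y, hy, hye⟩ := hmem
    rw [Finset.mem_filter] at hy
    rw [← hye]
    show k (g (k⁻¹ (k y))) = k y
    have e : k⁻¹ (k y) = y := by simp
    rw [e, hy.2]
  · exfalso
    have hc : (Finset.univ.filter fun p => g p = p)ᶜ ∈ octads := ⟨compl_mem hF, by
      rw [Finset.card_compl, h, card_pt]⟩
    obtain ⟨k, hk, hkF⟩ := H8.M24Trans.octad_trans hc O_octad
    apply hconj k hk
    apply comp_fix (M24.mul_mem (M24.mul_mem hk hg) (M24.inv_mem hk))
    intro x hx
    have h3 : g (k⁻¹ x) = k⁻¹ x := by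
      by_contra hne
      apply hx
      rw [← hkF, Finset.mem_image]
      refine ⟨k⁻¹ x, ?_, by simp⟩
      rw [Finset.mem_compl, Finset.mem_filter]
      exact fun h => hne h.2
    show k (g (k⁻¹ x)) = x
    rw [h3]; simp
  · exfalso
    apply h1
    have h3 : (Finset.univ.filter fun p => g p = p) = Finset.univ := by
      rw [← Finset.card_eq_iff_eq_univ, h, card_pt]
    ext x
    have : x ∈ (Finset.univ.filter fun p => g p = p) := by rw [h3]; simp
    rw [Finset.mem_filter] at this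
    rw [this.2]; rfl

end H91.M24Inv
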