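import Cfsg.Agent.Lib.H91.MonType
import Cfsg.Agent.Lib.H9.Trans
import Cfsg.Agent.Lib.H9.ModTwo

/-!
The facts on the Leech lattice, from the library of helper 9.
-/

set_option autoImplicit false

namespace H91.LeechFacts

open Cfsg H91.MonType

theorem lf : LF where
  h32 := fun _ _ hv hw => H9.Trans.trans32 hv hw
  h48 := fun _ _ hv hw => H9.Trans.trans48 hv hw
  h64 := fun v w hv hw => by
    obtain ⟨g, hg⟩ := H9.LeechGood.trans64 hv hw
    exact ⟨g, 0, by rw [hg, add_zero, add_zero]⟩
  short := fun v => by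
    obtain ⟨y, hy, u, hu⟩ := H9.ModTwo.exists_short H9.LeechGood.good v
    refine ⟨y, u, ?_, ?_⟩
    · rw [← two_nsmul, ← hu]; abel
    · have := H9.LeechGood.eight_form_self y
      omega

end H91.LeechFacts
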