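import Cfsg.Agent.Lib.H91.MonPair

/-!
Groups of Monster type: fusion of `z` in `Q`.
-/

set_option autoImplicit false

namespace H91.MonConj

open Cfsg H8.GolayCode H91.MonsterForm H91.LargePair H91.Setting H91.InvForm H91.LeechTools H91.MonData H91.Co2Core
  H91.MonType H91.MonPair

variable {G : Type*} [Group G] {z : G} {Q : Subgroup G} {Lab : leechLattice → G → Prop}
    {R : G → Co0 → Prop} {q : leechLattice → ZMod 2} {b : leechLattice → leechLattice → ZMod 2}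

theorem card_conj (Q : Subgroup G) (g : G) : Nat.card (Q.map (MulAut.conj g).toMonoidHom) = Nat.card Q :=
  (Nat.card_congr (Q.equivMapOfInjective _ (MulAut.conj g).injective).toEquiv).symm

theorem isPGroup_of_card [Finite G] {H : Subgroup G} {n : ℕ} (h : Nat.card H = 2 ^ n) : IsPGroup 2 H :=
  IsPGroup.of_card h

theorem hconj_of (P : Pack Q z) (g : G) : ∀ k, k * z * k⁻¹ = g * z * g⁻¹ → ∀ q ∈ Q, k * q * k⁻¹ ∈
    Q.map (MulAut.conj g).toMonoidHom := by
  intro k hk q hq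
  rw [mem_map_conj]
  have h1 : (g⁻¹ * k) * z = z * (g⁻¹ * k) := by
    have : k * z = g * z * g⁻¹ * k := by rw [← hk]; group
    calc (g⁻¹ * k) * z = g⁻¹ * (k * z) := by group
      _ = g⁻¹ * (g * z * g⁻¹ * k) := by rw [this]
      _ = z * (g⁻¹ * k) := by group
  have h2 := P.N _ h1 q hq
  have e : g⁻¹ * (k * q * k⁻¹) * g = g⁻¹ * k * q * (g⁻¹ * k)⁻¹ := by group
  rw [e]; exact h2

/-- the basic facts on `s = z^g ∈ Q` -/
theorem basic [Finite G] (M : MonData z Q Lab R q b) {g : G} (hsQ : g * z * g⁻¹ ∈ Q) (hsz : g * z * g⁻¹ ≠ z) :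
    Pack (Q.map (MulAut.conj g).toMonoidHom) (g * z * g⁻¹) ∧ IsPGroup 2 (Q.map (MulAut.conj g).toMonoidHom) ∧
      8 < Nat.card (Q.map (MulAut.conj g).toMonoidHom) ∧ z ∈ Q.map (MulAut.conj g).toMonoidHom := by
  have h1 := M.pack.conj g
  have hcard : 8 < Nat.card Q := by rw [M.card]; norm_num
  refine ⟨h1, isPGroup_of_card (n := 25) (by rw [card_conj, M.card]), by rw [card_conj]; exact hcard,
    key M.pack h1 (hconj_of M.pack g) hsQ hsz hcard⟩

theorem conj_label [Finite G] (L : LF) (M : MonData z Q Lab R q b) {s : G} (hs : IsConj z s) (hsQ : s ∈ Q)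
    (hsz : s ≠ z) : ∃ v, Lab v s ∧ sqNorm (v : GolayPt → ℤ) = 64 := by
  obtain ⟨g, rfl⟩ := isConj_iff.1 hs
  obtain ⟨h1, h2, h3, h4⟩ := basic M hsQ hsz
  exact norm_label L M h1 h2 h3 h4 hsz hsQ

/-- everything about conjugates: given one conjugate of `z` in `Q` other than `z` -/
theorem conj_iff [Finite G] (L : LF) (M : MonData z Q Lab R q b) {s₀ : G} (h₀ : IsConj z s₀) (h₀Q : s₀ ∈ Q)
    (h₀z : s₀ ≠ z) {x : G} (hx : x ∈ Q) :
    (IsConj z x ∧ x ≠ z) ↔ ∃ v : leechLattice, sqNorm (v : GolayPt → ℤ) = 64 ∧ Lab v x := by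
  constructor
  · rintro ⟨h1, h2⟩
    obtain ⟨v, hv, hn⟩ := conj_label L M h1 hx h2
    exact ⟨v, hn, hv⟩
  · rintro ⟨v, hn, hv⟩
    obtain ⟨w, hw, hn'⟩ := conj_label L M h₀ h₀Q h₀z
    obtain ⟨c, hc, hcx⟩ := trans64 L M hw hv hn' hn
    refine ⟨h₀.trans (isConj_iff.2 ⟨c, hcx⟩), (ne_of_short M hv (ne_zero_of_norm (by norm_num) hn) (by rw [hn])).2⟩

end H91.MonConj
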