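import Cfsg.Agent.Lib.H91.Co2Core
import Cfsg.Agent.Lib.H9.Trans
import Cfsg.Agent.Lib.H8.M24Simple
import Cfsg.Agent.S5548

/-!
The stabiliser in `Co0` of the class of `8 e_∞` modulo twice the lattice: monomial elements.
-/

set_option autoImplicit false

namespace H91.Cross

open Cfsg H8.GolayCode H8.GolayBasic H8.M24Mem H91.Leech H91.InvForm H91.LeechTools H91.Co2Core

/-- `g` permutes the standard frame as `σ`, up to signs -/
def P (g : Co0) (σ : Equiv.Perm GolayPt) : Prop := ∀ i, g • fr i = fr (σ i) ∨ g • fr i = -fr (σ i)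

theorem P_one : P 1 1 := fun _ => Or.inl (one_smul _ _)

theorem P_mul {g h : Co0} {σ τ : Equiv.Perm GolayPt} (h1 : P g σ) (h2 : P h τ) : P (g * h) (σ * τ) := by
  intro i
  rw [mul_smul, Equiv.Perm.mul_apply]
  rcases h2 i with h | h <;> rcases h1 (τ i) with h' | h' <;> rw [h]
  · exact Or.inl h'
  · exact Or.inr h'
  · right; rw [smul_neg, h']
  · left; rw [smul_neg, h', neg_neg]

theorem P_inv {g : Co0} {σ : Equiv.Perm GolayPt} (h1 : P g σ) : P g⁻¹ σ⁻¹ := by
  intro i
  rcases h1 (σ⁻¹ i) with h | h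
  · left
    rw [inv_smul_eq_iff, h]; simp
  · right
    rw [inv_smul_eq_iff, smul_neg, h, neg_neg]; simp

theorem fr_inj {i j : GolayPt} (h : fr i = fr j) : i = j := by
  by_contra hij
  have := dot_fr_fr i j
  rw [← h, dot_fr_fr, if_pos rfl, if_neg hij] at this
  norm_num at this

theorem fr_ne_neg {i j : GolayPt} (h : fr i = -fr j) : False := by
  have h1 := congrArg (fun v => dot v (fr i)) h
  simp only [dot_neg_left, dot_fr_fr, if_true] at h1
  by_cases hij : j = i
  · rw [if_pos hij] at h1; norm_num at h1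
  · rw [if_neg hij] at h1; norm_num at h1

theorem P_unique {g : Co0} {σ τ : Equiv.Perm GolayPt} (h1 : P g σ) (h2 : P g τ) : σ = τ := by
  apply Equiv.ext
  intro i
  rcases h1 i with h | h <;> rcases h2 i with h' | h' <;> rw [h] at h'
  · exact fr_inj h'
  · exact (fr_ne_neg h').elim
  · exact (fr_ne_neg h'.symm).elim
  · exact fr_inj (neg_injective h')

/-- coordinates of the image of a vector -/
theorem P_coord {g : Co0} {σ : Equiv.Perm GolayPt} (h1 : P g σ) (v : leechLattice) (i : GolayPt) :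
    ((g • v : leechLattice) : GolayPt → ℤ) (σ i) =
      if g • fr i = -fr (σ i) then -(v : GolayPt → ℤ) i else (v : GolayPt → ℤ) i := by
  have h2 := dot_smul g v (fr i)
  rcases h1 i with h | h
  · rw [if_neg (fun h' => fr_ne_neg (h.symm.trans h'))]
    rw [h, dot_fr, dot_fr] at h2
    omega
  · rw [if_pos h]
    rw [h, dot_neg_right, dot_fr, dot_fr] at h2
    omega

theorem P_mem_M24 {g : Co0} {σ : Equiv.Perm GolayPt} (h1 : P g σ) : σ ∈ M24 := by
  rw [mem_M24_iff]
  intro s hs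
  have h2 := H9.Trans.filter_mem (g • tw hs).2 2
  convert h2 using 1
  ext j
  rw [Finset.mem_image, Finset.mem_filter]
  have hj : j = σ (σ⁻¹ j) := by simp
  constructor
  · rintro ⟨i, hi, rfl⟩
    refine ⟨Finset.mem_univ _, ?_⟩
    rw [P_coord h1, coe_tw, if_pos hi]
    split_ifs <;> norm_num
  · rintro ⟨-, h3⟩
    refine ⟨σ⁻¹ j, ?_, hj.symm⟩
    by_contra hn
    rw [hj, P_coord h1, coe_tw, if_neg hn] at h3
    revert h3
    split_ifs <;> norm_num

/-- the sign set -/
theorem sign_mem {g : Co0} {σ : Equiv.Perm GolayPt} (h1 : P g σ) :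
    ∃ c ∈ GS, ∀ i, (g • fr i = -fr (σ i) ↔ σ i ∈ c) := by
  refine ⟨_, H9.Trans.filter_mem (g • oddv none).2 3, fun i => ?_⟩
  rw [Finset.mem_filter, P_coord h1, coe_oddv]
  constructor
  · intro h
    refine ⟨Finset.mem_univ _, ?_⟩
    rw [if_pos h]
    split_ifs <;> norm_num
  · rintro ⟨-, h⟩
    by_contra hn
    rw [if_neg hn] at h
    revert h
    split_ifs <;> norm_num

/-- monomial elements -/
theorem P_iff {g : Co0} (h : ∃ u : leechLattice, g • fr none = fr none + (u + u)) : ∃ σ, P g σ := by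
  obtain ⟨u, hu⟩ := h
  have h1 : ∀ i, ∃ j, g • fr i = fr j ∨ g • fr i = -fr j := by
    intro i
    obtain ⟨w, hw⟩ := fr_congr (i := i) (j := none)
    apply eq_fr_of_congr (i := none) (by rw [H91.LeechTools.norm_smul, norm_fr])
    refine ⟨u + g • w, ?_⟩
    rw [hw, smul_add, smul_add, hu]; abel
  choose f hf using h1
  have hinj : Function.Injective f := by
    intro i j hij
    by_contra hne
    have h2 := dot_smul g (fr i) (fr j)
    rw [dot_fr_fr, if_neg hne] at h2
    rcases hf i with h | h <;> rcases hf j with h' | h' <;> rw [h, h', hij] at h2 <;>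
      simp only [dot_neg_left, dot_neg_right, dot_fr_fr, if_true] at h2 <;> norm_num at h2
  exact ⟨Equiv.ofBijective f ((Finite.injective_iff_bijective).1 hinj), hf⟩

theorem P_congr {g : Co0} {σ : Equiv.Perm GolayPt} (h : P g σ) : ∃ u : leechLattice, g • fr none = fr none + (u + u) := by
  obtain ⟨w, hw⟩ := fr_congr (i := σ none) (j := none)
  rcases h none with h1 | h1
  · exact ⟨w, by rw [h1, hw]⟩
  · exact ⟨-fr none - w, by rw [h1, hw]; abel⟩

/-- a perm element -/
theorem exists_P {σ : Equiv.Perm GolayPt} (hσ : σ ∈ M24) : ∃ g : Co0, ∀ i, g • fr i = fr (σ i) := by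
  obtain ⟨p, hp⟩ := exists_perm (M24.inv_mem hσ)
  refine ⟨p, fun i => ?_⟩
  have := perm_fr hp (σ i)
  simpa using this

/-- A normal 2-subgroup of the monomial group consists of sign changes. -/
theorem sign_of_normal {E : Subgroup Co0} (hE2 : IsPGroup 2 E)
    (hEN : ∀ g ∈ E, ∃ σ, P g σ) (hnorm : ∀ h : Co0, (∃ σ, P h σ) → ∀ g ∈ E, h * g * h⁻¹ ∈ E) :
    ∀ g ∈ E, P g 1 := by
  let F : Subgroup M24 :=
    { carrier := {σ | ∃ g ∈ E, P g σ}
      one_mem' := ⟨1, E.one_mem, P_one⟩
      mul_mem' := by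
        rintro σ τ ⟨g, hg, h1⟩ ⟨h, hh, h2⟩
        exact ⟨g * h, E.mul_mem hg hh, P_mul h1 h2⟩
      inv_mem' := by
        rintro σ ⟨g, hg, h1⟩
        exact ⟨g⁻¹, E.inv_mem hg, P_inv h1⟩ }
  have hF : F.Normal := by
    constructor
    rintro σ ⟨g, hg, h1⟩ τ
    obtain ⟨t, ht⟩ := exists_P τ.2
    have ht' : P t (τ : Equiv.Perm GolayPt) := fun i => Or.inl (ht i)
    exact ⟨t * g * t⁻¹, hnorm t ⟨_, ht'⟩ g hg, P_mul (P_mul ht' h1) (P_inv ht')⟩
  have hsimple : IsSimpleGroup M24 := H8.M24Simple.simple_M24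
  rcases hF.eq_bot_or_eq_top with h | h
  · intro g hg
    obtain ⟨σ, hσ⟩ := hEN g hg
    have h1 : (⟨σ, P_mem_M24 hσ⟩ : M24) ∈ F := ⟨g, hg, hσ⟩
    rw [h, Subgroup.mem_bot] at h1
    have h2 : σ = 1 := congrArg Subtype.val h1
    rw [← h2]; exact hσ
  · exfalso
    have h2 : IsPGroup 2 M24 := by
      intro σ
      have h1 : σ ∈ F := by rw [h]; trivial
      obtain ⟨g, hg, hgσ⟩ := h1
      obtain ⟨k, hk⟩ := hE2 ⟨g, hg⟩
      have hk' : g ^ 2 ^ k = 1 := by
        have := congrArg Subtype.val hk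
        simpa using this
      have hpow : ∀ n : ℕ, P (g ^ n) ((σ : Equiv.Perm GolayPt) ^ n) := by
        intro n
        induction n with
        | zero => rw [pow_zero, pow_zero]; exact P_one
        | succ n ih => rw [pow_succ, pow_succ]; exact P_mul ih hgσ
      have h3 := hpow (2 ^ k)
      rw [hk'] at h3
      exact ⟨k, Subtype.ext (P_unique P_one h3).symm⟩
    have hfact : Fact (Nat.Prime 2) := ⟨Nat.prime_two⟩
    obtain ⟨n, hn⟩ := (IsPGroup.iff_card).1 h2
    rw [H8.M24Chain.card_M24] at hn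
    have h3 : 3 ∣ 2 ^ n := by rw [← hn]; norm_num
    have := Nat.prime_three.dvd_of_dvd_pow h3
    norm_num at this

/-- the sign change group -/
def S : Subgroup Co0 where
  carrier := {g | P g 1}
  one_mem' := P_one
  mul_mem' := by
    intro g h h1 h2
    have := P_mul h1 h2
    rwa [mul_one] at this
  inv_mem' := by
    intro g h1
    have := P_inv h1
    rwa [inv_one] at this

theorem mem_S {g : Co0} : g ∈ S ↔ P g 1 := Iff.rfl

/-- `g` changes the signs of the coordinates in the support of `w` -/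
def Sg (g : Co0) (w : GolayPt → ZMod 2) : Prop := ∀ i, g • fr i = if w i = 0 then fr i else -fr i

theorem Sg_unique {g h : Co0} {w : GolayPt → ZMod 2} (h1 : Sg g w) (h2 : Sg h w) : g = h :=
  ext_fr fun i => by rw [h1, h2]

theorem Sg_unique' {g : Co0} {w w' : GolayPt → ZMod 2} (h1 : Sg g w) (h2 : Sg g w') : w = w' := by
  have key : ∀ a : ZMod 2, a = 0 ∨ a = 1 := by decide
  funext i
  have h3 := h1 i
  rw [h2 i] at h3
  rcases key (w i) with h | h <;> rcases key (w' i) with h' | h' <;> rw [h, h'] <;> rw [h, h'] at h3 <;>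
    simp only [if_true, if_false, one_ne_zero] at h3
  · exact (fr_ne_neg h3.symm).elim
  · exact (fr_ne_neg h3).elim

theorem Sg_mul {g h : Co0} {w w' : GolayPt → ZMod 2} (h1 : Sg g w) (h2 : Sg h w') : Sg (g * h) (w + w') := by
  have key : ∀ a : ZMod 2, a = 0 ∨ a = 1 := by decide
  intro i
  have e : (1 : ZMod 2) + 1 = 0 := by decide
  rw [mul_smul, h2 i, Pi.add_apply]
  rcases key (w i) with h | h <;> rcases key (w' i) with h' | h' <;> rw [h, h'] <;>
    simp [h1 i, h, smul_neg, e]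

theorem Sg_zero : Sg 1 0 := fun i => by simp

theorem Sg_P {g : Co0} {w : GolayPt → ZMod 2} (h : Sg g w) : P g 1 := by
  intro i
  rw [h i]
  split_ifs
  · exact Or.inl rfl
  · exact Or.inr rfl

theorem exists_Sg {w : GolayPt → ZMod 2} (hw : w ∈ golayCode) : ∃ g : Co0, Sg g w := by
  obtain ⟨g, hg⟩ := exists_eps (c := support₂ w) ⟨w, hw, rfl⟩
  refine ⟨g, fun i => ?_⟩
  rw [eps_fr hg]
  by_cases h : w i = 0
  · rw [if_neg (by simp [support₂, h]), if_pos h]
  · rw [if_pos (by simp [support₂, h]), if_neg h]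

theorem exists_Sg' {g : Co0} (hg : P g 1) : ∃ w ∈ golayCode, Sg g w := by
  obtain ⟨c, ⟨w, hw, rfl⟩, hc⟩ := sign_mem hg
  refine ⟨w, hw, fun i => ?_⟩
  have h1 := hc i
  rw [Equiv.Perm.one_apply] at h1
  by_cases h : w i = 0
  · rw [if_pos h]
    rcases hg i with h2 | h2
    · exact h2
    · exfalso
      have := h1.1 h2
      simp [support₂, h] at this
  · rw [if_neg h]
    exact h1.2 (by simp [support₂, h])

/-- conjugation of a sign change by a perm element -/
theorem Sg_conj {g p : Co0} {w : GolayPt → ZMod 2} {σ : Equiv.Perm GolayPt} (h1 : Sg g w)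
    (h2 : ∀ i, p • fr i = fr (σ i)) : Sg (p * g * p⁻¹) (fun i => w (σ.symm i)) := by
  intro i
  have h3 : p⁻¹ • fr i = fr (σ.symm i) := by
    rw [inv_smul_eq_iff, h2]; simp
  rw [mul_smul, mul_smul, h3, h1]
  split_ifs
  · rw [h2]; simp
  · rw [smul_neg, h2]; simp

/-- A normal 2-subgroup of the monomial group that is not contained in the centre contains all sign changes. -/
theorem all_signs {E : Subgroup Co0} (hES : ∀ g ∈ E, P g 1)
    (hnorm : ∀ h : Co0, (∃ σ, P h σ) → ∀ g ∈ E, h * g * h⁻¹ ∈ E)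
    (hne : ∃ γ ∈ E, γ ≠ 1 ∧ γ ≠ neg) {g : Co0} (hg : P g 1) : g ∈ E := by
  have key : ∀ a : ZMod 2, a = 0 ∨ a = 1 := by decide
  let W : Submodule (ZMod 2) (GolayPt → ZMod 2) :=
    { carrier := {w | ∃ g ∈ E, Sg g w}
      add_mem' := by
        rintro w w' ⟨g, hg, h1⟩ ⟨h, hh, h2⟩
        exact ⟨g * h, E.mul_mem hg hh, Sg_mul h1 h2⟩
      zero_mem' := ⟨1, E.one_mem, Sg_zero⟩
      smul_mem' := by
        rintro a w ⟨g, hg, h1⟩
        rcases key a with h | h
        · rw [h, zero_smul]; exact ⟨1, E.one_mem, Sg_zero⟩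
        · rw [h, one_smul]; exact ⟨g, hg, h1⟩ }
  have hWle : W ≤ golayCode := by
    rintro w ⟨g, hg, h1⟩
    obtain ⟨w', hw', h2⟩ := exists_Sg' (hES g hg)
    rw [Sg_unique' h1 h2]; exact hw'
  have hWinv : ∀ σ ∈ M24, ∀ w ∈ W, (fun p => w (σ.symm p)) ∈ W := by
    rintro σ hσ w ⟨g, hg, h1⟩
    obtain ⟨p, hp⟩ := exists_P hσ
    exact ⟨p * g * p⁻¹, hnorm p ⟨σ, fun i => Or.inl (hp i)⟩ g hg, Sg_conj h1 hp⟩
  obtain ⟨γ, hγ, hγ1, hγn⟩ := hne
  obtain ⟨w, hw, hγw⟩ := exists_Sg' (hES γ hγ)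
  have hwW : w ∈ W := ⟨γ, hγ, hγw⟩
  have hneg : Sg neg (fun _ => 1) := fun i => by simp [neg_smul]
  rcases Cfsg.Agent.S5548.result W hWinv with h | h | h | h | h
  · exfalso
    rw [h, Submodule.mem_bot] at hwW
    rw [hwW] at hγw
    exact hγ1 (Sg_unique hγw Sg_zero)
  · exfalso
    rw [h, Submodule.mem_span_singleton] at hwW
    obtain ⟨a, ha⟩ := hwW
    rcases key a with h' | h'
    · rw [h', zero_smul] at ha
      rw [← ha] at hγw
      exact hγ1 (Sg_unique hγw Sg_zero)
    · rw [h', one_smul] at ha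
      rw [← ha] at hγw
      exact hγn (Sg_unique hγw hneg)
  · obtain ⟨w', hw', hg'⟩ := exists_Sg' hg
    rw [← h] at hw'
    obtain ⟨g', hg1, hg2⟩ := hw'
    rw [Sg_unique hg' hg2]; exact hg1
  · exfalso
    have h1 : (fun i => if i = none ∨ i = pt 0 then (1 : ZMod 2) else 0) ∈ W := by
      show _ ∈ (W : Set (GolayPt → ZMod 2))
      rw [h]
      decide +kernel
    have h2 := weight_cases (s := support₂ (fun i => if i = none ∨ i = pt 0 then (1 : ZMod 2) else 0)) ⟨_, hWle h1, rfl⟩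
    have h3 : (support₂ (fun i : GolayPt => if i = none ∨ i = pt 0 then (1 : ZMod 2) else 0)).card = 2 := by decide +kernel
    rw [h3] at h2
    norm_num at h2
  · exfalso
    have h1 : (fun i => if i = none then (1 : ZMod 2) else 0) ∈ W := by
      rw [h]; trivial
    have h2 := weight_cases (s := support₂ (fun i => if i = none then (1 : ZMod 2) else 0)) ⟨_, hWle h1, rfl⟩
    have h3 : (support₂ (fun i : GolayPt => if i = none then (1 : ZMod 2) else 0)).card = 1 := by decide +kernel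
    rw [h3] at h2
    norm_num at h2

/-- the number of sign changes -/
theorem card_S : Nat.card S = 2 ^ 12 := by
  have h1 : Nat.card S = Nat.card golayCode := by
    have h2 : ∀ g : S, ∃ w : golayCode, Sg g.1 w.1 := by
      intro g
      obtain ⟨w, hw, h⟩ := exists_Sg' g.2
      exact ⟨⟨w, hw⟩, h⟩
    choose f hf using h2
    apply Nat.card_congr
    apply Equiv.ofBijective f
    constructor
    · intro g h hgh
      apply Subtype.ext
      have := hf g
      rw [hgh] at this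
      exact Sg_unique this (hf h)
    · intro w
      obtain ⟨g, hg⟩ := exists_Sg w.2
      refine ⟨⟨g, Sg_P hg⟩, ?_⟩
      apply Subtype.ext
      exact Sg_unique' (hf _) hg
  rw [h1]
  have h2 : Nat.card golayCode = Nat.card (Fin 4096) := by
    symm
    apply Nat.card_congr
    refine Equiv.ofBijective (fun k : Fin 4096 => (⟨wd (cw k.1), mem_golay_iff_exists.2 ⟨k.1, k.2, rfl⟩⟩ : golayCode)) ⟨?_, ?_⟩
    · intro k l hkl
      have h3 : wd (cw k.1) = wd (cw l.1) := congrArg Subtype.val hkl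
      have h4 := wd_inj (cw_lt _) (cw_lt _) h3
      have h5 := cw_mod_low k.1
      rw [h4, cw_mod_low, Nat.mod_eq_of_lt k.2, Nat.mod_eq_of_lt l.2] at h5
      exact Fin.ext h5.symm
    · rintro ⟨w, hw⟩
      obtain ⟨k, hk, rfl⟩ := mem_golay_iff_exists.1 hw
      exact ⟨⟨k, hk⟩, rfl⟩
  rw [h2, Nat.card_eq_fintype_card, Fintype.card_fin]
  norm_num

end H91.Cross
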