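import Cfsg.Agent.Lib.H91.MonConj
import Cfsg.Agent.Lib.H91.Cross
import Cfsg.Agent.Lib.H91.LargePair2

/-!
Groups of Monster type: the elements of `Co0` induced by `Q^g ∩ C(z)`.
-/

set_option autoImplicit false

namespace H91.MonCross

open Cfsg H8.GolayCode H91.MonsterForm H91.LargePair H91.Setting H91.InvForm H91.LeechTools H91.MonData H91.Co2Core
  H91.MonType H91.MonPair H91.MonConj H91.Cross

variable {G : Type*} [Group G] {z : G} {Q : Subgroup G} {Lab : leechLattice → G → Prop}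
    {R : G → Co0 → Prop} {q : leechLattice → ZMod 2} {b : leechLattice → leechLattice → ZMod 2}

/-- Moving the label of `s` to the standard frame, `Q^g ∩ C(z)` induces all sign changes. -/
theorem EE_eq [Finite G] (M : MonData z Q Lab R q b) {Q1 : Subgroup G} {s : G} (P1 : Pack Q1 s)
    (h2 : IsPGroup 2 Q1) (hcard : 8 < Nat.card Q1) (hz1 : z ∈ Q1) (hsz : s ≠ z) {v u : leechLattice}
    (hv : Lab v s) {k : Co0} (hk : k • v = fr none + (u + u)) (γ : Co0) :
    γ ∈ EE M Q1 ↔ k * γ * k⁻¹ ∈ S := by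
  have hkv : k⁻¹ • fr none = v + (-(k⁻¹ • u) + -(k⁻¹ • u)) := by
    rw [inv_smul_eq_iff, smul_add, hk, smul_add, smul_neg, smul_inv_smul]; abel
  let E : Subgroup Co0 := (EE M Q1).map (MulAut.conj k).toMonoidHom
  have hE : ∀ γ, k * γ * k⁻¹ ∈ E ↔ γ ∈ EE M Q1 := by
    intro γ
    rw [mem_map_conj]
    have : k⁻¹ * (k * γ * k⁻¹) * k = γ := by group
    rw [this]
  have hE2 : IsPGroup 2 E := (EE_isPGroup M h2).map _
  have hEN : ∀ g ∈ E, ∃ σ, P g σ := by
    rintro _ ⟨γ, hγ, rfl⟩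
    apply P_iff
    obtain ⟨w, hw⟩ := EE_fix M P1 hv hγ
    refine ⟨u + (k • w - k • (γ • (k⁻¹ • u))), ?_⟩
    show (k * γ * k⁻¹) • fr none = _
    rw [mul_smul, mul_smul, hkv, smul_add, hw, smul_add, smul_add, hk, smul_add, smul_add, smul_add, smul_neg, smul_neg]
    abel
  have hnorm : ∀ h : Co0, (∃ σ, P h σ) → ∀ g ∈ E, h * g * h⁻¹ ∈ E := by
    rintro h ⟨σ, hσ⟩ _ ⟨γ, hγ, rfl⟩
    obtain ⟨w, hw⟩ := P_congr hσ
    have h1 : (k⁻¹ * h * k) • v = v + ((k⁻¹ • w + k⁻¹ • (h • u) - k⁻¹ • u) + (k⁻¹ • w + k⁻¹ • (h • u) - k⁻¹ • u)) := by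
      rw [mul_smul, mul_smul, hk, smul_add, hw, smul_add, smul_add, smul_add, hkv, smul_add, smul_add]
      abel
    have h3 := EE_normal M P1 hv hsz h1 hγ
    refine ⟨_, h3, ?_⟩
    show k * (k⁻¹ * h * k * γ * (k⁻¹ * h * k)⁻¹) * k⁻¹ = h * (k * γ * k⁻¹) * h⁻¹
    group
  have hES := sign_of_normal hE2 hEN hnorm
  rw [← hE]
  constructor
  · intro h; exact hES _ h
  · intro h
    apply all_signs hES hnorm _ h
    obtain ⟨γ', h3, h4, h5⟩ := exists_EE M P1 hcard hz1 hsz
    refine ⟨k * γ' * k⁻¹, (hE γ').2 h3, ?_, ?_⟩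
    · intro h6
      apply h4
      calc γ' = k⁻¹ * (k * γ' * k⁻¹) * k := by group
        _ = 1 := by rw [h6]; group
    · intro h6
      apply h5
      calc γ' = k⁻¹ * (k * γ' * k⁻¹) * k := by group
        _ = neg := by rw [h6, mul_assoc, neg_central, ← mul_assoc, inv_mul_cancel, one_mul]

theorem card_EE [Finite G] (M : MonData z Q Lab R q b) {Q1 : Subgroup G} {s : G} (P1 : Pack Q1 s)
    (h2 : IsPGroup 2 Q1) (hcard : 8 < Nat.card Q1) (hz1 : z ∈ Q1) (hsz : s ≠ z) {v u : leechLattice}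
    (hv : Lab v s) {k : Co0} (hk : k • v = fr none + (u + u)) : Nat.card (EE M Q1) = 2 ^ 12 := by
  rw [← card_S]
  have h := EE_eq M P1 h2 hcard hz1 hsz hv hk
  apply Nat.card_congr
  exact
    { toFun := fun γ => ⟨k * γ * k⁻¹, (h γ).1 γ.2⟩
      invFun := fun γ => ⟨k⁻¹ * γ * k, (h _).2 (by
        have : k * (k⁻¹ * (γ : Co0) * k) * k⁻¹ = γ := by group
        rw [this]; exact γ.2)⟩
      left_inv := fun γ => Subtype.ext (by show k⁻¹ * (k * (γ : Co0) * k⁻¹) * k = γ; group)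
      right_inv := fun γ => Subtype.ext (by show k * (k⁻¹ * (γ : Co0) * k) * k⁻¹ = γ; group) }

/-- uniqueness of the element of `Co1` -/
theorem R_unique (M : MonData z Q Lab R q b) {c : G} {γ δ : Co0} (h1 : R c γ) (h2 : R c δ) :
    (QuotientGroup.mk γ : Co0 ⧸ Subgroup.center Co0) = QuotientGroup.mk δ := by
  rw [QuotientGroup.eq, mem_center_iff]
  have h3 := M.R_mul (M.R_inv h1) h2
  rw [inv_mul_cancel] at h3
  exact (M.R_Q h3).1 Q.one_mem

/-- the homomorphism to `Co1` -/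
theorem exists_phi (M : MonData z Q Lab R q b) (H : Subgroup G) (hH : ∀ c ∈ H, c * z = z * c) :
    ∃ φ : H →* Co0 ⧸ Subgroup.center Co0, ∀ (c : H) (γ : Co0), R c γ → φ c = QuotientGroup.mk γ := by
  have h1 : ∀ c : H, ∃ γ, R c γ := fun c => M.R_ex' (hH c c.2)
  choose f hf using h1
  refine ⟨MonoidHom.mk' (fun c => QuotientGroup.mk (f c)) ?_, ?_⟩
  · intro c d
    rw [← QuotientGroup.mk_mul]
    exact R_unique M (hf (c * d)) (M.R_mul (hf c) (hf d))
  · intro c γ hγ
    exact R_unique M (hf c) hγ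

/-- the centraliser of a non-central element of `Q1` in `Q1` has index 2 -/
theorem card_centralizer [Finite G] {Q1 : Subgroup G} {s z : G} (P1 : Pack Q1 s) (hz : z ∈ Q1) (hz1 : z ≠ 1)
    (hzs : z ≠ s) : 2 * Nat.card (Q1 ⊓ Subgroup.centralizer ({z} : Set G) : Subgroup G) = Nat.card Q1 := by
  have h1 := H91.LargePair2.relIndex_centralizer_singleton Q1 z
  have h2 : {y : G | ∃ n ∈ Q1, y = n * z * n⁻¹} = {z, s * z} := by
    ext y
    constructor
    · rintro ⟨n, hn, rfl⟩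
      rcases P1.comm n hn z hz with h | h
      · left
        rw [mul_inv_eq_one] at h; exact h
      · right
        rw [Set.mem_singleton_iff]
        rw [mul_inv_eq_iff_eq_mul] at h
        rw [h]
    · rintro (rfl | h)
      · exact ⟨1, Q1.one_mem, by group⟩
      · rw [Set.mem_singleton_iff] at h
        obtain ⟨t, ht, hts⟩ := P1.exists_shift hz hz1 hzs
        exact ⟨t, ht, by rw [h, hts]⟩
  have h3 : z ≠ s * z := by
    intro h
    exact P1.z1 (mul_eq_right.1 h.symm)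
  rw [h2, Set.ncard_pair h3] at h1
  have h4 := ((Subgroup.centralizer ({z} : Set G)).subgroupOf Q1).card_mul_index
  have h5 : ((Subgroup.centralizer ({z} : Set G)).subgroupOf Q1).index = 2 := h1
  have h6 : Nat.card ((Subgroup.centralizer ({z} : Set G)).subgroupOf Q1) =
      Nat.card (Q1 ⊓ Subgroup.centralizer ({z} : Set G) : Subgroup G) := by
    apply Nat.card_congr
    exact
      { toFun := fun x => ⟨x.1.1, x.1.2, x.2⟩
        invFun := fun x => ⟨⟨x.1, x.2.1⟩, x.2.2⟩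
        left_inv := fun x => rfl
        right_inv := fun x => rfl }
  rw [h5, h6] at h4
  omega

/-- the order of `Q ∩ Q^g` -/
theorem card_inter [Finite G] (M : MonData z Q Lab R q b) {Q1 : Subgroup G} {s : G} (P1 : Pack Q1 s)
    (h2 : IsPGroup 2 Q1) (hcard : Nat.card Q1 = 2 ^ 25) (hz1 : z ∈ Q1) (hsz : s ≠ z) {v u : leechLattice}
    (hv : Lab v s) {k : Co0} (hk : k • v = fr none + (u + u)) :
    Nat.card (Q ⊓ Q1 : Subgroup G) = 2 ^ 13 := by
  have hcard8 : 8 < Nat.card Q1 := by rw [hcard]; norm_num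
  have h3 := card_EE M P1 h2 hcard8 hz1 hsz hv hk
  have h4 := card_centralizer P1 hz1 M.pack.z1 (Ne.symm hsz)
  set H := (Q1 ⊓ Subgroup.centralizer ({z} : Set G) : Subgroup G) with hH
  obtain ⟨φ, hφ⟩ := exists_phi M H (fun c hc => Subgroup.mem_centralizer_singleton_iff.1 hc.2)
  have h5 : Nat.card φ.range * Nat.card φ.ker = Nat.card H := by
    rw [← Subgroup.index_ker, mul_comm, Subgroup.card_mul_index]
  -- the kernel
  have h6 : Nat.card φ.ker = Nat.card (Q ⊓ Q1 : Subgroup G) := by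
    have key : ∀ c : H, c ∈ φ.ker ↔ (c : G) ∈ Q := by
      intro c
      obtain ⟨γ, hγ⟩ := M.R_ex' (Subgroup.mem_centralizer_singleton_iff.1 c.2.2)
      rw [MonoidHom.mem_ker, hφ c γ hγ, QuotientGroup.eq_one_iff, mem_center_iff, M.R_Q hγ]
    apply Nat.card_congr
    exact
      { toFun := fun x => ⟨x.1.1, (key x.1).1 x.2, x.1.2.1⟩
        invFun := fun x => ⟨⟨x.1, x.2.2, Subgroup.mem_centralizer_singleton_iff.2 (M.pack.zc x.1 x.2.1)⟩,
          (key _).2 x.2.1⟩
        left_inv := fun x => rfl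
        right_inv := fun x => rfl }
  -- the range
  have h7 : φ.range = (EE M Q1).map (QuotientGroup.mk' (Subgroup.center Co0)) := by
    ext y
    constructor
    · rintro ⟨c, rfl⟩
      obtain ⟨γ, hγ⟩ := M.R_ex' (Subgroup.mem_centralizer_singleton_iff.1 c.2.2)
      exact ⟨γ, ⟨c, c.2.1, hγ⟩, (hφ c γ hγ).symm⟩
    · rintro ⟨γ, ⟨c, hc, hγ⟩, rfl⟩
      exact ⟨⟨c, hc, Subgroup.mem_centralizer_singleton_iff.2 (M.R_comm hγ)⟩, hφ _ γ hγ⟩
  have h8 : Nat.card φ.range * 2 = 2 ^ 12 := by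
    let f : EE M Q1 →* Co0 ⧸ Subgroup.center Co0 := (QuotientGroup.mk' (Subgroup.center Co0)).comp (EE M Q1).subtype
    have e1 : Nat.card f.range * Nat.card f.ker = Nat.card (EE M Q1) := by
      rw [← Subgroup.index_ker, mul_comm, Subgroup.card_mul_index]
    have e2 : f.range = φ.range := by
      rw [h7]
      ext y
      constructor
      · rintro ⟨γ, rfl⟩; exact ⟨γ, γ.2, rfl⟩
      · rintro ⟨γ, hγ, rfl⟩; exact ⟨⟨γ, hγ⟩, rfl⟩
    have e3 : Nat.card f.ker = 2 := by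
      rw [← card_center]
      apply Nat.card_congr
      exact
        { toFun := fun x => ⟨x.1.1, (QuotientGroup.eq_one_iff _).1 x.2⟩
          invFun := fun x => ⟨⟨x.1, by
            rcases mem_center_iff.1 x.2 with h | h
            · rw [h]; exact (EE M Q1).one_mem
            · rw [h]; exact neg_mem_EE M⟩, (QuotientGroup.eq_one_iff _).2 x.2⟩
          left_inv := fun x => rfl
          right_inv := fun x => rfl }
    rw [e2, e3, h3] at e1
    exact e1
  rw [h6] at h5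
  rw [hcard] at h4
  have h9 : Nat.card φ.range = 2 ^ 11 := by omega
  rw [h9] at h5
  omega

end H91.MonCross
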