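import Cfsg.Agent.Lib.H91.LargeOdd
import Cfsg.Agent.S5422

/-!
Large extraspecial subgroups in centralizers of subgroups of odd order.
-/

set_option autoImplicit false

namespace H91.LargeOdd

open Cfsg H91.LargePair H91.MonsterForm
open scoped Pointwise

variable {G : Type*} [Group G]

theorem mem_cent_sup {A R : Subgroup G} {x : G} : x ∈ Subgroup.centralizer ((A ⊔ R : Subgroup G) : Set G) ↔
    (∀ a ∈ A, a * x = x * a) ∧ ∀ r ∈ R, r * x = x * r := by
  constructor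
  · intro h
    rw [Subgroup.mem_centralizer_iff] at h
    exact ⟨fun a ha => h a (Subgroup.mem_sup_left ha), fun r hr => h r (Subgroup.mem_sup_right hr)⟩
  · rintro ⟨h1, h2⟩
    have h3 : A ⊔ R ≤ Subgroup.centralizer ({x} : Set G) := by
      apply sup_le
      · intro a ha; exact Subgroup.mem_centralizer_singleton_iff.2 (h1 a ha)
      · intro r hr; exact Subgroup.mem_centralizer_singleton_iff.2 (h2 r hr)
    rw [Subgroup.mem_centralizer_iff]
    intro y hy
    exact Subgroup.mem_centralizer_singleton_iff.1 (h3 hy)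

theorem eq_one_of_sq {A : Subgroup G} (hA : Odd (Nat.card A)) {a : G} (ha : a ∈ A) (h : a * a = 1) : a = 1 := by
  obtain ⟨k, hk⟩ := hA
  have h1 : (⟨a, ha⟩ : A) ^ (2 * k + 1) = 1 := by rw [← hk]; exact pow_card_eq_one'
  have h2 : a ^ (2 * k + 1) = 1 := congrArg Subtype.val h1
  rw [pow_succ, pow_mul, pow_two, h, one_pow, one_mul] at h2
  exact h2

/-- the centralizer of `A` and `R` -/
theorem cent_AR [Finite G] {z : G} (hz1 : z ≠ 1) (hzz : z * z = 1) {A R : Subgroup G} (hzR : z ∈ R)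
    (hAz : ∀ a ∈ A, a * z = z * a) (hRz : ∀ r ∈ R, r * z = z * r)
    (hO : (oddCore ↥(Subgroup.centralizer ((A ⊔ R : Subgroup G) : Set G))).map
      (Subgroup.centralizer ((A ⊔ R : Subgroup G) : Set G)).subtype ≤ A)
    (h4 : ¬ 4 ∣ Nat.card ↥(Subgroup.centralizer ((A ⊔ R : Subgroup G) : Set G))) {c : G}
    (hc : c ∈ Subgroup.centralizer ((A ⊔ R : Subgroup G) : Set G)) : ∃ a ∈ A, c = a ∨ c = a * z := by
  obtain ⟨N0, hN0⟩ : ∃ N0 : Subgroup G, N0 = Subgroup.centralizer ((A ⊔ R : Subgroup G) : Set G) := ⟨_, rfl⟩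
  rw [← hN0] at hO h4 hc
  have hzN : z ∈ N0 := by rw [hN0, mem_cent_sup]; exact ⟨hAz, hRz⟩
  have hcz : ∀ x ∈ N0, z * x = x * z := by
    intro x hx
    rw [hN0, mem_cent_sup] at hx
    exact hx.2 z hzR
  let ζ : N0 := ⟨z, hzN⟩
  have hζc : ∀ x : N0, x * ζ = ζ * x := fun x => Subtype.ext (hcz x x.2).symm
  have hZn : (Subgroup.zpowers ζ).Normal := by
    constructor
    intro n hn g
    obtain ⟨k, rfl⟩ := Subgroup.mem_zpowers_iff.1 hn
    have h1 : Commute g (ζ ^ k) := (show Commute g ζ from hζc g).zpow_right k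
    rw [h1.eq, mul_inv_cancel_right]
    exact hn
  have hζ2 : Nat.card (Subgroup.zpowers ζ) = 2 := by
    rw [Nat.card_zpowers]
    apply orderOf_eq_prime
    · rw [pow_two]; exact Subtype.ext hzz
    · intro h; exact hz1 (congrArg Subtype.val h)
  have hcard := (Subgroup.zpowers ζ).card_mul_index
  rw [hζ2] at hcard
  have hodd : Odd (Subgroup.zpowers ζ).index := by
    rw [← Nat.not_even_iff_odd]
    rintro ⟨m, hm⟩
    apply h4
    rw [← hcard, hm]
    exact ⟨m, by ring⟩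
  obtain ⟨K, hK⟩ := Subgroup.exists_right_complement'_of_coprime (N := Subgroup.zpowers ζ) (by
    rw [hζ2]; exact (Nat.coprime_two_left).2 hodd)
  have hdec : ∀ x : N0, ∃ k ∈ K, x = k ∨ x = k * ζ := by
    intro x
    have h1 : x ∈ (Subgroup.zpowers ζ : Set N0) * (K : Set N0) := by
      rw [hK.mul_eq]; trivial
    obtain ⟨n, hn, k, hk, rfl⟩ := Set.mem_mul.1 h1
    refine ⟨k, hk, ?_⟩
    obtain ⟨i, rfl⟩ := Subgroup.mem_zpowers_iff.1 (SetLike.mem_coe.1 hn)
    have hζζ : ζ * ζ = 1 := Subtype.ext hzz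
    rcases Int.even_or_odd' i with ⟨j, rfl | rfl⟩
    · left
      rw [zpow_mul, zpow_ofNat, pow_two, hζζ, one_zpow, one_mul]
    · right
      rw [zpow_add, zpow_mul, zpow_ofNat, pow_two, hζζ, one_zpow, one_mul, zpow_one, ← hζc k]
  have hKn : K.Normal := by
    constructor
    intro k hk g
    obtain ⟨k', hk', rfl | rfl⟩ := hdec g
    · exact mul_mem (mul_mem hk' hk) (inv_mem hk')
    · have e : k' * ζ * k * (k' * ζ)⁻¹ = k' * k * k'⁻¹ := by
        calc k' * ζ * k * (k' * ζ)⁻¹ = k' * (ζ * k) * ζ⁻¹ * k'⁻¹ := by group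
          _ = k' * (k * ζ) * ζ⁻¹ * k'⁻¹ := by rw [← hζc k]
          _ = k' * k * k'⁻¹ := by group
      rw [e]
      exact mul_mem (mul_mem hk' hk) (inv_mem hk')
  have hKcard : Nat.card K = (Subgroup.zpowers ζ).index := hK.symm.index_eq_card.symm
  have hKle : K ≤ oddCore N0 := H1.Cores.le_pPrimeCore hKn (by
    rw [hKcard]; exact (Nat.coprime_two_right).2 hodd)
  obtain ⟨k, hk, h⟩ := hdec ⟨c, hc⟩
  refine ⟨k, hO ⟨k, hKle hk, rfl⟩, ?_⟩
  rcases h with h | h
  · exact Or.inl (congrArg Subtype.val h)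
  · exact Or.inr (congrArg Subtype.val h)

section main

variable [Finite G] {Q R A M : Subgroup G} {z : G}

/-- the standing data -/
structure Dat (Q R A M : Subgroup G) (z : G) : Prop where
  P : Pack Q z
  p2 : IsPGroup 2 Q
  Az : ∀ a ∈ A, a * z = z * a
  odd : Odd (Nat.card A)
  R_eq : R = Q ⊓ Subgroup.centralizer (A : Set G)
  M_eq : M = Subgroup.centralizer (A : Set G) ⊔ A
  cent : ∀ c ∈ Subgroup.centralizer ((A ⊔ R : Subgroup G) : Set G), ∃ a ∈ A, c = a ∨ c = a * z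

variable (H : Dat Q R A M z)
include H

omit [Finite G] in
theorem Dat.mem_R {x : G} : x ∈ R ↔ x ∈ Q ∧ ∀ a ∈ A, a * x = x * a := by
  rw [H.R_eq, Subgroup.mem_inf, Subgroup.mem_centralizer_iff]; rfl

omit [Finite G] in
theorem Dat.zR : z ∈ R := H.mem_R.2 ⟨H.P.zQ, H.Az⟩

omit [Finite G] in
theorem Dat.Rz {r : G} (hr : r ∈ R) : r * z = z * r := H.P.zc r (H.mem_R.1 hr).1

theorem Dat.inter {x : G} (hx : x ∈ Q) (hA : x ∈ A) : x = 1 :=
  H91.LargeExtra.eq_one_of_odd_of_two H.odd H.p2 hA hx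

omit [Finite G] in
theorem Dat.cA_le : Subgroup.centralizer (A : Set G) ≤ M := by rw [H.M_eq]; exact le_sup_left

omit [Finite G] in
theorem Dat.A_le : A ≤ M := by rw [H.M_eq]; exact le_sup_right

omit [Finite G] in
theorem Dat.R_le : R ≤ M := by
  intro x hx
  apply H.cA_le
  rw [Subgroup.mem_centralizer_iff]
  exact (H.mem_R.1 hx).2

omit [Finite G] in
theorem Dat.mem_M {m : G} (hm : m ∈ M) : ∃ c a : G, (∀ x ∈ A, x * c = c * x) ∧ a ∈ A ∧ c * a = m := by
  rw [H.M_eq, H26.Basic.mem_sup_of_le_normalizer (Subgroup.centralizer_le_normalizer _)] at hm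
  obtain ⟨c, hc, a, ha, h⟩ := hm
  exact ⟨c, a, fun x hx => Subgroup.mem_centralizer_iff.1 hc x hx, ha, h⟩

omit [Finite G] in
theorem Dat.M_norm {m : G} (hm : m ∈ M) {a : G} (ha : a ∈ A) : m * a * m⁻¹ ∈ A ∧ m⁻¹ * a * m ∈ A := by
  obtain ⟨c, b, hc, hb, rfl⟩ := H.mem_M hm
  have hc' := hc a ha
  constructor
  · have e : c * b * a * (c * b)⁻¹ = c * (b * a * b⁻¹) * c⁻¹ := by group
    rw [e, ← hc _ (mul_mem (mul_mem hb ha) (inv_mem hb)), mul_inv_cancel_right]
    exact mul_mem (mul_mem hb ha) (inv_mem hb)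
  · have e : (c * b)⁻¹ * a * (c * b) = b⁻¹ * (c⁻¹ * (a * c)) * b := by group
    rw [e, hc', inv_mul_cancel_left]
    exact mul_mem (mul_mem (inv_mem hb) ha) hb

omit [Finite G] in
theorem Dat.comm_z {m : G} (h : m * z * m⁻¹ * z⁻¹ ∈ A) : m * z = z * m := by
  have h1 := H.Az _ h
  obtain ⟨a, ha⟩ : ∃ a, a = m * z * m⁻¹ * z⁻¹ := ⟨_, rfl⟩
  rw [← ha] at h h1
  have h2 : a * z = m * z * m⁻¹ := by rw [ha]; group
  have h3 : (a * z) * (a * z) = 1 := by
    rw [h2]
    calc m * z * m⁻¹ * (m * z * m⁻¹) = m * (z * z) * m⁻¹ := by group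
      _ = 1 := by rw [H.P.zz]; group
  have h4 : a * a = 1 := by
    calc a * a = a * a * (z * z) := by rw [H.P.zz, mul_one]
      _ = a * (a * z) * z := by group
      _ = a * (z * a) * z := by rw [h1]
      _ = (a * z) * (a * z) := by group
      _ = 1 := h3
  have h5 := eq_one_of_sq H.odd h h4
  rw [h5, one_mul] at h2
  exact (mul_inv_eq_iff_eq_mul.1 h2.symm)

omit [Finite G] in
theorem Dat.norm_R {m : G} (hm : m ∈ M) (hmz : m * z = z * m) {r : G} (hr : r ∈ R) : m * r * m⁻¹ ∈ R := by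
  rw [H.mem_R] at hr ⊢
  refine ⟨H.P.N m hmz r hr.1, fun a ha => ?_⟩
  have h1 := (H.M_norm hm ha).2
  have h2 := hr.2 _ h1
  calc a * (m * r * m⁻¹) = m * ((m⁻¹ * a * m) * r) * m⁻¹ := by group
    _ = m * (r * (m⁻¹ * a * m)) * m⁻¹ := by rw [h2]
    _ = m * r * m⁻¹ * a := by group

theorem Dat.pair {y : G} (hy : y ∈ R) (h1 : y ≠ 1) (hz : y ≠ z) : ∃ c ∈ R, c * y * c⁻¹ = z * y := by
  obtain ⟨c, hc, hcA, h⟩ := fixed_pair H.P H.p2 H.odd H.Az (H.mem_R.1 hy).1 (H.mem_R.1 hy).2 h1 hz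
  exact ⟨c, H.mem_R.2 ⟨hc, hcA⟩, h⟩

theorem Dat.extra {t : G} (ht : t ∈ R) (ht1 : t ≠ 1) (htz : t ≠ z) : IsExtraspecial 2 R := by
  have hRQ : ∀ {x}, x ∈ R → x ∈ Q := fun hx => (H.mem_R.1 hx).1
  have hR2 : IsPGroup 2 R := H.p2.to_le (fun x hx => hRQ hx)
  have X : XS R ⟨z, H.zR⟩ := by
    refine ⟨fun h => H.P.z1 (congrArg Subtype.val h), Subtype.ext H.P.zz, fun x => Subtype.ext (H.Rz x.2), ?_, ?_, ?_⟩
    · intro x
      constructor
      · intro hx
        by_cases h1 : (x : G) = 1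
        · exact Or.inl (Subtype.ext h1)
        by_cases h2 : (x : G) = z
        · exact Or.inr (Subtype.ext h2)
        exfalso
        obtain ⟨c, hc, hcx⟩ := H.pair x.2 h1 h2
        have h3 := congrArg Subtype.val (Subgroup.mem_center_iff.1 hx ⟨c, hc⟩)
        have h4 : c * (x : G) = x * c := h3
        rw [h4, mul_inv_cancel_right] at hcx
        exact H.P.z1 (mul_right_cancel ((one_mul (x : G)).trans hcx)).symm
      · rintro (rfl | rfl)
        · exact one_mem _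
        · rw [Subgroup.mem_center_iff]
          intro g
          exact Subtype.ext (H.Rz g.2)
    · intro x
      rcases H.P.sq x (hRQ x.2) with h | h
      · exact Or.inl (Subtype.ext h)
      · exact Or.inr (Subtype.ext h)
    · intro x y
      rcases H.P.comm y (hRQ y.2) x (hRQ x.2) with h | h
      · left
        rw [mul_inv_eq_one, mul_inv_eq_iff_eq_mul] at h
        exact Subtype.ext h
      · right
        rw [mul_inv_eq_iff_eq_mul, mul_inv_eq_iff_eq_mul] at h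
        exact Subtype.ext (h.trans (mul_assoc _ _ _))
  obtain ⟨c, hc, hct⟩ := H.pair ht ht1 htz
  apply H91.XSExtra.extraspecial_of_XS hR2 X
  refine ⟨⟨c, hc⟩, ⟨t, ht⟩, fun h => ?_⟩
  have h1 : c * t = t * c := congrArg Subtype.val h
  rw [h1, mul_inv_cancel_right] at hct
  exact H.P.z1 (mul_right_cancel ((one_mul t).trans hct)).symm

variable [hn : (A.subgroupOf M).Normal]

/-- the image in the quotient -/
abbrev Rb (R A M : Subgroup G) [(A.subgroupOf M).Normal] : Subgroup (M ⧸ A.subgroupOf M) :=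
  (R.subgroupOf M).map (QuotientGroup.mk' (A.subgroupOf M))

omit [Finite G] H in
theorem mk_eq_one {x : M} : (QuotientGroup.mk' (A.subgroupOf M)) x = 1 ↔ (x : G) ∈ A := by
  rw [QuotientGroup.mk'_apply, QuotientGroup.eq_one_iff, Subgroup.mem_subgroupOf]

omit [Finite G] in
theorem Dat.mem_Rb {X : M ⧸ A.subgroupOf M} : X ∈ Rb R A M ↔
    ∃ r, ∃ hr : r ∈ R, (QuotientGroup.mk' (A.subgroupOf M)) ⟨r, H.R_le hr⟩ = X := by
  constructor
  · rintro ⟨⟨r, hrM⟩, hr, rfl⟩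
    exact ⟨r, Subgroup.mem_subgroupOf.1 hr, rfl⟩
  · rintro ⟨r, hr, rfl⟩
    exact ⟨⟨r, H.R_le hr⟩, Subgroup.mem_subgroupOf.2 hr, rfl⟩

theorem Dat.exists_equiv : Nonempty (R ≃* Rb R A M) := by
  let f : R →* M ⧸ A.subgroupOf M := (QuotientGroup.mk' (A.subgroupOf M)).comp (Subgroup.inclusion H.R_le)
  have hf : Function.Injective f := by
    rw [injective_iff_map_eq_one]
    intro x hx
    have h1 : (x : G) ∈ A := (mk_eq_one (x := (⟨(x : G), H.R_le x.2⟩ : M))).1 hx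
    exact Subtype.ext (H.inter (H.mem_R.1 x.2).1 h1)
  have hr : f.range = Rb R A M := by
    ext X
    rw [H.mem_Rb]
    constructor
    · rintro ⟨x, rfl⟩; exact ⟨x, x.2, rfl⟩
    · rintro ⟨r, hr, rfl⟩; exact ⟨⟨r, hr⟩, rfl⟩
  exact ⟨(MonoidHom.ofInjective hf).trans (MulEquiv.subgroupCongr hr)⟩

omit hn in
/-- commutation modulo `A` -/
theorem Dat.comm_R {m : G} (hm : m ∈ M) (h : ∀ r ∈ R, m * r * m⁻¹ * r⁻¹ ∈ A) : ∃ a ∈ A, m = a ∨ m = a * z := by
  have hmz := H.comm_z (h z H.zR)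
  have hmR : ∀ r ∈ R, m * r = r * m := by
    intro r hr
    have h1 := H.norm_R hm hmz hr
    have h2 := H.inter (mul_mem (H.mem_R.1 h1).1 (inv_mem (H.mem_R.1 hr).1)) (h r hr)
    rw [mul_inv_eq_one, mul_inv_eq_iff_eq_mul] at h2
    exact h2
  obtain ⟨c, a, hc, ha, hca⟩ := H.mem_M hm
  have hcR : ∀ r ∈ R, r * c = c * r := by
    intro r hr
    have e : c = m * a⁻¹ := by rw [← hca]; group
    have h1 := (H.mem_R.1 hr).2 a⁻¹ (inv_mem ha)
    rw [e]
    calc r * (m * a⁻¹) = (r * m) * a⁻¹ := by group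
      _ = (m * r) * a⁻¹ := by rw [hmR r hr]
      _ = m * (a⁻¹ * r) := by rw [h1]; group
      _ = m * a⁻¹ * r := by group
  obtain ⟨b, hb, h1⟩ := H.cent c (mem_cent_sup.2 ⟨hc, hcR⟩)
  refine ⟨b * a, mul_mem hb ha, ?_⟩
  rcases h1 with h1 | h1
  · left; rw [← hca, h1]
  · right
    rw [← hca, h1, mul_assoc, ← H.Az a ha, mul_assoc]

/-- the main theorem -/
theorem Dat.large {t x : G} (ht : t ∈ R) (ht1 : t ≠ 1) (htz : t ≠ z) (hR32 : 32 ≤ Nat.card R) (hx : x ∈ M)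
    (hxt : x * t * x⁻¹ = z) : IsLargeExtraspecial (Rb R A M) := by
  haveI : Fact (Nat.Prime 2) := ⟨Nat.prime_two⟩
  have hRex := H.extra ht ht1 htz
  obtain ⟨e⟩ := H.exists_equiv
  have hex : IsExtraspecial 2 (Rb R A M) := H56.Heis.isExtraspecial_congr e hRex
  obtain ⟨n, -, hcard⟩ := H3.Extraspecial.card_eq_of_isExtraspecial hex
  have hcR : Nat.card (Rb R A M) = Nat.card R := (Nat.card_congr e.toEquiv).symm
  have hn2 : 2 ≤ n := by
    by_contra hlt
    have h1 : n ≤ 1 := by omega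
    rw [hcR] at hcard
    have h2 : (2 : ℕ) ^ (2 * n + 1) ≤ 2 ^ 3 := Nat.pow_le_pow_right (by norm_num) (by omega)
    rw [← hcard] at h2
    omega
  set π := QuotientGroup.mk' (A.subgroupOf M) with hπ
  obtain ⟨z0, hz0, -, -, -, hmem0, -, hcen0, -, -⟩ := H91.LargeExtra.exists_z hex
  let zM : M := ⟨z, H.R_le H.zR⟩
  have hzb : π zM ∈ Rb R A M := H.mem_Rb.2 ⟨z, H.zR, rfl⟩
  have hzb1 : π zM ≠ 1 := by
    intro h
    exact H.P.z1 (H.inter H.P.zQ (mk_eq_one.1 h))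
  have hz0' : π zM = z0 := by
    rcases hcen0 (π zM) hzb (by
      intro X hX
      obtain ⟨r, hr, rfl⟩ := H.mem_Rb.1 hX
      rw [← map_mul, ← map_mul]
      congr 1
      exact Subtype.ext (H.Rz hr)) with h | h
    · exact absurd h hzb1
    · exact h
  have hmem : ∀ X, X ∈ (Subgroup.center ↥(Rb R A M)).map (Rb R A M).subtype ↔ X = 1 ∨ X = π zM := by
    intro X; rw [hmem0, hz0']
  -- elements commuting with the image of `z`
  have hcz : ∀ m : M, π m * π zM = π zM * π m → (m : G) * z = z * m := by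
    intro m hm
    apply H.comm_z
    have h1 : π (m * zM * m⁻¹ * zM⁻¹) = 1 := by
      rw [map_mul, map_mul, map_mul, map_inv, map_inv, hm]; group
    exact mk_eq_one.1 h1
  have hL2 : Subgroup.centralizer ((Rb R A M : Subgroup _) : Set (M ⧸ A.subgroupOf M)) =
      (Subgroup.center ↥(Rb R A M)).map (Rb R A M).subtype := by
    apply le_antisymm
    · intro X hX
      rw [Subgroup.mem_centralizer_iff] at hX
      obtain ⟨m, rfl⟩ := QuotientGroup.mk'_surjective _ X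
      have h1 : ∀ r ∈ R, (m : G) * r * (m : G)⁻¹ * r⁻¹ ∈ A := by
        intro r hr
        have h2 := hX (π ⟨r, H.R_le hr⟩) (H.mem_Rb.2 ⟨r, hr, rfl⟩)
        have h3 : π (m * ⟨r, H.R_le hr⟩ * m⁻¹ * ⟨r, H.R_le hr⟩⁻¹) = 1 := by
          have h2' : π ⟨r, H.R_le hr⟩ * π m = π m * π ⟨r, H.R_le hr⟩ := h2
          rw [map_mul, map_mul, map_mul, map_inv, map_inv, ← h2', mul_inv_cancel_right, mul_inv_cancel]
        exact mk_eq_one.1 h3
      obtain ⟨a, ha, h2⟩ := H.comm_R m.2 h1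
      rw [hmem]
      rcases h2 with h2 | h2
      · left
        apply mk_eq_one.2
        rw [h2]; exact ha
      · right
        have h3 : m = ⟨a, H.A_le ha⟩ * zM := Subtype.ext h2
        rw [h3, map_mul]
        have h4 : π ⟨a, H.A_le ha⟩ = 1 := mk_eq_one.2 ha
        rw [h4, one_mul]
    · intro X hX
      rw [Subgroup.mem_centralizer_iff]
      intro Y hY
      rcases (hmem X).1 hX with rfl | rfl
      · simp
      · obtain ⟨r, hr, rfl⟩ := H.mem_Rb.1 hY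
        show π _ * π _ = π _ * π _
        rw [← map_mul, ← map_mul]
        congr 1
        exact Subtype.ext (H.Rz hr)
  have hL3 : Subgroup.centralizer ((((Subgroup.center ↥(Rb R A M)).map (Rb R A M).subtype) : Subgroup _) :
      Set (M ⧸ A.subgroupOf M)) ≤ Subgroup.normalizer ((Rb R A M : Subgroup _) : Set (M ⧸ A.subgroupOf M)) := by
    apply H1.Coprime.le_normalizer_of_conj_mem
    intro X hX Y hY
    obtain ⟨m, rfl⟩ := QuotientGroup.mk'_surjective _ X
    obtain ⟨r, hr, rfl⟩ := H.mem_Rb.1 hY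
    have h1 := (Subgroup.mem_centralizer_iff.1 hX) (π zM) ((hmem _).2 (Or.inr rfl))
    have h2 := hcz m h1.symm
    exact H.mem_Rb.2 ⟨_, H.norm_R m.2 h2 hr, rfl⟩
  refine (Cfsg.Agent.S5422.result (Rb R A M) hex hL2 hL3 n hn2 hcard (π ⟨x, hx⟩)⁻¹ ?_ ?_).2.2
  · intro h
    have h1 := (Subgroup.mem_normalizer_iff.1 h (π zM)).1 ((hmem _).2 (Or.inr rfl))
    have h2 : (π ⟨x, hx⟩)⁻¹ * π zM * (π ⟨x, hx⟩)⁻¹⁻¹ = π ⟨t, H.R_le ht⟩ := by
      rw [← map_inv, ← map_inv, ← map_mul, ← map_mul]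
      congr 1
      apply Subtype.ext
      show x⁻¹ * z * x⁻¹⁻¹ = t
      rw [← hxt]; group
    rw [h2] at h1
    rcases (hmem _).1 h1 with h3 | h3
    · exact ht1 (H.inter (H.mem_R.1 ht).1 (mk_eq_one.1 h3))
    · have h4 : π (⟨t, H.R_le ht⟩ * zM⁻¹) = 1 := by rw [map_mul, map_inv, h3, mul_inv_cancel]
      have h5 : t * z⁻¹ ∈ A := mk_eq_one.1 h4
      have h6 := H.inter (mul_mem (H.mem_R.1 ht).1 (inv_mem H.P.zQ)) h5
      rw [mul_inv_eq_one] at h6
      exact htz h6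
  · rintro _ ⟨X, hX, rfl⟩
    rcases (hmem X).1 hX with rfl | rfl
    · rw [map_one]; exact one_mem _
    · have h2 : (MulAut.conj (π ⟨x, hx⟩)⁻¹).toMonoidHom (π zM) = π ⟨t, H.R_le ht⟩ := by
        show (π ⟨x, hx⟩)⁻¹ * π zM * (π ⟨x, hx⟩)⁻¹⁻¹ = _
        rw [← map_inv, ← map_inv, ← map_mul, ← map_mul]
        congr 1
        apply Subtype.ext
        show x⁻¹ * z * x⁻¹⁻¹ = t
        rw [← hxt]; group
      rw [h2]
      exact H.mem_Rb.2 ⟨t, ht, rfl⟩

end main

end H91.LargeOdd
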