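import Cfsg.Agent.Lib.H91.CubicTT
import Cfsg.Agent.Lib.H1.Cores

/-!
3-transposition sets whose commuting graph is cubic and triangle-free: the case of a component `K₃,₃`.
-/

set_option autoImplicit false

namespace H91.CubicTT

open Cfsg H90.ThreeTrans

variable {G : Type*} [Group G] {D : Set G}

/-- the hypothesis that every component is complete bipartite -/
structure HypK (D : Set G) : Prop extends Hyp D where
  k : ∀ d a b, Adj D d a → Adj D d b → ¬ Commute a b → ∃ e ∈ D, e ≠ d ∧ Commute e a ∧ Commute e b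

variable (H : HypK D)
include H

theorem HypK.cc {d a p q : G} (ha : Adj D d a) (hp : Adj D a p) (hq : Adj D d q) : Commute p q := by
  obtain ⟨b, hb, hab⟩ := H.toHyp.exists_nc ha
  obtain ⟨e, he, hed, hea, heb⟩ := H.k d a b ha hb hab
  have hae : Adj D a e := ⟨ha.2.1, he, by rintro rfl; exact hab heb, hea.symm⟩
  have hde : ¬ Commute d e := fun h => hed (H.toHyp.tri ha.symm hae h).symm
  have key : ∀ {x}, Commute x a → Commute x b → Commute x q := by
    intro x h1 h2
    rcases H.toHyp.loc2 ha hb hab hq with rfl | rfl | rfl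
    · exact h1
    · exact h2
    · exact (h1.mul_right h2).mul_right h1
  rcases H.toHyp.loc2 ha.symm hae hde hp with rfl | rfl | rfl
  · exact key ha.2.2.2 hb.2.2.2
  · exact key hea heb
  · exact key ((ha.2.2.2.mul_left hea).mul_left ha.2.2.2) ((hb.2.2.2.mul_left heb).mul_left hb.2.2.2)

theorem HypK.adj_of {d a p q : G} (ha : Adj D d a) (hp : Adj D a p) (hq : Adj D d q) : Adj D p q := by
  refine ⟨hp.2.1, hq.2.1, ?_, H.cc ha hp hq⟩
  rintro rfl
  exact ha.2.2.1 (H.toHyp.tri hq.symm hp.symm ha.2.2.2)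

theorem HypK.nb_eq {d a p q : G} (ha : Adj D d a) (hp : Adj D a p) : Adj D p q ↔ Adj D d q :=
  ⟨fun h => H.adj_of hp.symm ha.symm h, fun h => H.adj_of ha hp h⟩

/-- the component of `p` -/
def Comp (D : Set G) (p x : G) : Prop := Adj D p x ∨ ∃ a, Adj D p a ∧ Adj D a x

omit H in
theorem Comp.symm {p x : G} (h : Comp D p x) : Comp D x p := by
  rcases h with h | ⟨a, h1, h2⟩
  · exact Or.inl h.symm
  · exact Or.inr ⟨a, h2.symm, h1.symm⟩

theorem HypK.comp_step {p u v : G} (h : Comp D p u) (huv : Adj D u v) : Comp D p v := by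
  rcases h with h | ⟨a, h1, h2⟩
  · exact Or.inr ⟨u, h, huv⟩
  · exact Or.inl ((H.nb_eq h1 h2).1 huv)

theorem HypK.comp_self {p : G} (hp : p ∈ D) : Comp D p p := by
  obtain ⟨a, b, ha, -⟩ := H.loc p hp
  exact Or.inr ⟨a, ha, ha.symm⟩

theorem HypK.comp_nc {p x y : G} (hx : x ∈ D) (h : ¬ Comp D p x) (hy : Comp D p y) : ¬ Commute x y := by
  intro hc
  apply h
  by_cases he : x = y
  · rw [he]; exact hy
  · have hyD : y ∈ D := by
      rcases hy with h | ⟨a, -, h⟩
      · exact h.2.1
      · exact h.2.1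
    exact H.comp_step hy ⟨hyD, hx, fun h => he h.symm, hc.symm⟩

theorem HypK.mv {p x u v : G} (hx : x ∈ D) (h : ¬ Comp D p x) (hu : Comp D p u) (huv : Adj D u v) :
    Adj D x (u * v * x * (u * v)⁻¹) ∧ ¬ Comp D p (u * v * x * (u * v)⁻¹) := by
  have h1 := H.toHyp.move hx huv (H.comp_nc hx h hu) (H.comp_nc hx h (H.comp_step hu huv))
  exact ⟨h1, fun hc => h (H.comp_step hc h1.symm)⟩

/-- the action of an element of order 3 of one component on another one -/
theorem HypK.act {p q a x : G} (hx : x ∈ D) (h : ¬ Comp D p x) (ha : Adj D a p) (hq : Adj D a q) (hpq : p ≠ q) :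
    ∃ y, Adj D y x ∧ Adj D y (p * q * x * (p * q)⁻¹) ∧ p * q * x * (p * q)⁻¹ ≠ x := by
  have hpD := ha.2.1
  have hqD := hq.2.1
  have hqc : Comp D p q := Or.inr ⟨a, ha.symm, hq⟩
  obtain ⟨m1, m1'⟩ := H.mv hx h hqc hq.symm
  obtain ⟨m2, m2'⟩ := H.mv m1.2.1 m1' (H.comp_self hpD) ha.symm
  have aa := mul_self H.tt ha.1
  have e1 : p * a * (q * a * x * (q * a)⁻¹) * (p * a)⁻¹ = p * q * x * (p * q)⁻¹ := by
    have e2 : p * a * (q * a) = p * q := by
      calc p * a * (q * a) = p * (a * q) * a := by group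
        _ = p * (q * a) * a := by rw [hq.2.2.2.eq]
        _ = p * q * (a * a) := by group
        _ = p * q := by rw [aa, mul_one]
    calc p * a * (q * a * x * (q * a)⁻¹) * (p * a)⁻¹ = (p * a * (q * a)) * x * (p * a * (q * a))⁻¹ := by group
      _ = _ := by rw [e2]
  rw [e1] at m2
  refine ⟨_, m1.symm, m2, fun he => ?_⟩
  -- `p q` does not commute with `x`
  apply hpq
  have pp := mul_self H.tt hpD
  have qq := mul_self H.tt hqD
  have xx := mul_self H.tt hx
  have b1 := braid H.tt hx hpD (H.comp_nc hx h (H.comp_self hpD))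
  have b2 := braid H.tt hx hqD (H.comp_nc hx h hqc)
  have hinv : (p * q)⁻¹ = q * p := by rw [mul_inv_rev, inv_eq H.tt hpD, inv_eq H.tt hqD]
  rw [hinv] at he
  have h1 : q * x * q = p * x * p := by
    calc q * x * q = (p * p) * q * x * q * (p * p) := by rw [pp]; group
      _ = p * (p * q * x * (q * p)) * p := by group
      _ = p * x * p := by rw [he]
  rw [← b1, ← b2] at h1
  have h2 : x * (x * q * x) * x = x * (x * p * x) * x := by rw [h1]
  calc p = (x * x) * p * (x * x) := by rw [xx]; group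
    _ = x * (x * p * x) * x := by group
    _ = x * (x * q * x) * x := h2.symm
    _ = (x * x) * q * (x * x) := by group
    _ = q := by rw [xx]; group

omit H in
theorem invT0 {p q r : G} (pp : p * p = 1) (qq : q * q = 1) (hr : r = p ∨ r = q ∨ r = p * q * p) :
    r * (p * q) * r = q * p := by
  rcases hr with rfl | rfl | rfl
  · calc r * (r * q) * r = (r * r) * q * r := by group
      _ = q * r := by rw [pp, one_mul]
  · calc r * (p * r) * r = r * p * (r * r) := by group
      _ = r * p := by rw [qq, mul_one]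
  · calc p * q * p * (p * q) * (p * q * p) = p * q * (p * p) * q * p * q * p := by group
      _ = p * (q * q) * p * q * p := by rw [pp]; group
      _ = (p * p) * q * p := by rw [qq]; group
      _ = q * p := by rw [pp]; group

theorem HypK.invT {a p q r : G} (hp : Adj D a p) (hq : Adj D a q) (hr : Adj D a r) :
    r * (p * q) * r = q * p := by
  have pp := mul_self H.tt hp.2.1
  have qq := mul_self H.tt hq.2.1
  have rr := mul_self H.tt hr.2.1
  by_cases hpq : Commute p q
  · have := H.toHyp.tri hp hq hpq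
    subst this
    rw [pp, mul_one, rr]
  · exact invT0 pp qq (H.toHyp.loc2 hp hq hpq hr)

theorem HypK.commT {a p q b r s : G} (hp : Adj D a p) (hq : Adj D a q) (hr : Adj D b r) (hs : Adj D b s) :
    p * q * (r * s) = r * s * (p * q) := by
  have pp := mul_self H.tt hp.2.1
  have rr := mul_self H.tt hr.2.1
  have ss := mul_self H.tt hs.2.1
  by_cases hpq : p = q
  · rw [← hpq, pp, one_mul, mul_one]
  by_cases hrs : r = s
  · rw [← hrs, rr, one_mul, mul_one]
  have hrs' : ¬ Commute r s := fun h => hrs (H.toHyp.tri hr hs h)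
  by_cases hc : Comp D p r
  · rcases hc with h | ⟨c, h1, h2⟩
    · have h3 : Adj D q r := (H.nb_eq hp.symm hq).2 h
      have h4 : Adj D s p := (H.nb_eq hr.symm hs).2 h.symm
      have h5 : Adj D s q := (H.nb_eq hr.symm hs).2 h3.symm
      have h6 : Commute (p * q) (r * s) :=
        (h.2.2.2.mul_right h4.2.2.2.symm).mul_left (h3.2.2.2.mul_right h5.2.2.2.symm)
      exact h6.eq
    · have h3 : Adj D p b := (H.nb_eq h1 h2).1 hr.symm
      have h4 : Adj D q b := (H.nb_eq hp.symm hq).2 h3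
      have i1 := H.invT h3.symm h4.symm hr
      have i2 := H.invT h4.symm h3.symm hr
      have i3 := H.invT h3.symm h4.symm hs
      calc p * q * (r * s) = (r * r) * (p * q) * r * s := by rw [rr]; group
        _ = r * (r * (p * q) * r) * s := by group
        _ = r * (q * p) * s := by rw [i1]
        _ = r * (s * (p * q) * s) * s := by rw [i3]
        _ = r * s * (p * q) * (s * s) := by group
        _ = r * s * (p * q) := by rw [ss, mul_one]
  · have hcs : ¬ Comp D p s := fun h => hc (H.comp_step (H.comp_step h hs.symm) hr)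
    have hadj : ∀ {x}, Adj D b x → Adj D b (p * q * x * (p * q)⁻¹) ∧ p * q * x * (p * q)⁻¹ ≠ x := by
      intro x hx
      have hcx : ¬ Comp D p x := fun h => hc (H.comp_step (H.comp_step h hx.symm) hr)
      obtain ⟨y, y1, y2, y3⟩ := H.act hx.2.1 hcx hp hq hpq
      exact ⟨(H.nb_eq hx y1.symm).1 y2, y3⟩
    obtain ⟨r1, r2⟩ := hadj hr
    obtain ⟨s1, s2⟩ := hadj hs
    obtain ⟨u1, u2⟩ := hadj (H.toHyp.adj_third hr hs)
    have br := braid H.tt hr.2.1 hs.2.1 hrs'
    have hmul : ∀ x y : G, p * q * (x * y) * (p * q)⁻¹ = (p * q * x * (p * q)⁻¹) * (p * q * y * (p * q)⁻¹) := by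
      intro x y; group
    have hgoal : p * q * (r * s) * (p * q)⁻¹ = r * s := by
      rcases H.toHyp.loc2 hr hs hrs' r1 with e | e | e
      · exact absurd e r2
      · rcases H.toHyp.loc2 hr hs hrs' s1 with f | f | f
        · exfalso
          apply u2
          rw [hmul, hmul, e, f, ← br]
        · exact absurd f s2
        · rw [hmul, e, f]
          calc s * (r * s * r) = s * (s * r * s) := by rw [br]
            _ = (s * s) * r * s := by group
            _ = r * s := by rw [ss, one_mul]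
      · rcases H.toHyp.loc2 hr hs hrs' s1 with f | f | f
        · rw [hmul, e, f]
          calc r * s * r * r = r * s * (r * r) := by group
            _ = r * s := by rw [rr, mul_one]
        · exact absurd f s2
        · exfalso
          apply hrs
          have h1 := e.trans f.symm
          simpa using h1
    calc p * q * (r * s) = p * q * (r * s) * (p * q)⁻¹ * (p * q) := by group
      _ = r * s * (p * q) := by rw [hgoal]

/-- the generators of the normal 3-subgroup -/
def RR (D : Set G) : Set G := {g | ∃ a p q, Adj D a p ∧ Adj D a q ∧ g = p * q}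

/-- the normal 3-subgroup -/
def V (D : Set G) : Subgroup G := Subgroup.closure (RR D)

theorem HypK.V_normal : (V D).Normal := by
  constructor
  intro v hv g
  induction hv using Subgroup.closure_induction with
  | mem x hx =>
    obtain ⟨a, p, q, hp, hq, rfl⟩ := hx
    apply Subgroup.subset_closure
    exact ⟨_, _, _, H.toHyp.adj_conj g hp, H.toHyp.adj_conj g hq, by group⟩
  | one => simp
  | mul x y _ _ hx hy =>
    have : g * (x * y) * g⁻¹ = (g * x * g⁻¹) * (g * y * g⁻¹) := by group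
    rw [this]; exact mul_mem hx hy
  | inv x _ hx =>
    have : g * x⁻¹ * g⁻¹ = (g * x * g⁻¹)⁻¹ := by group
    rw [this]; exact inv_mem hx

theorem HypK.V_comm {x y : G} (hx : x ∈ V D) (hy : y ∈ V D) : x * y = y * x := by
  have h1 : V D ≤ Subgroup.centralizer (RR D) := by
    apply (Subgroup.closure_le _).2
    rintro g ⟨a, p, q, hp, hq, rfl⟩
    rw [SetLike.mem_coe, Subgroup.mem_centralizer_iff]
    rintro h ⟨b, r, s, hr, hs, rfl⟩
    exact H.commT hr hs hp hq
  have h2 : V D ≤ Subgroup.centralizer (V D : Set G) := by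
    apply (Subgroup.closure_le _).2
    intro g hg
    rw [SetLike.mem_coe, Subgroup.mem_centralizer_iff]
    intro h hh
    exact ((Subgroup.mem_centralizer_iff.1 (h1 hh)) g hg).symm
  exact ((Subgroup.mem_centralizer_iff.1 (h2 hy)) x hx)

theorem HypK.V_cube {x : G} (hx : x ∈ V D) : x ^ 3 = 1 := by
  induction hx using Subgroup.closure_induction with
  | mem x hx =>
    obtain ⟨a, p, q, hp, hq, rfl⟩ := hx
    by_cases hpq : Commute p q
    · rw [H.toHyp.tri hp hq hpq, mul_self H.tt hq.2.1, one_pow]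
    · exact cube_of_not_commute H.tt hp.2.1 hq.2.1 hpq
  | one => simp
  | mul x y hx' hy' hx hy =>
    have : Commute x y := H.V_comm hx' hy'
    rw [this.mul_pow, hx, hy, one_mul]
  | inv x _ hx => rw [inv_pow, hx, inv_one]

theorem HypK.cent {x v r s : G} (hO : Nat.card (pCore 3 ↥(Subgroup.centralizer ({x} : Set G))) = 3)
    (hr : Adj D x r) (hs : Adj D x s) (hrs : r ≠ s) (hv : v ∈ V D) (hvx : Commute v x) : v ∈ Subgroup.zpowers (r * s) := by
  have hrsV : r * s ∈ V D := Subgroup.subset_closure ⟨x, r, s, hr, hs, rfl⟩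
  have hrsx : Commute (r * s) x := hr.2.2.2.symm.mul_left hs.2.2.2.symm
  have hrs1 : r * s ≠ 1 := by
    intro h
    apply hrs
    rw [← inv_eq H.tt hs.2.1]
    exact eq_inv_of_mul_eq_one_left h
  have hvc : v ∈ Subgroup.centralizer ({x} : Set G) := Subgroup.mem_centralizer_singleton_iff.2 hvx.eq
  have hrc : r * s ∈ Subgroup.centralizer ({x} : Set G) := Subgroup.mem_centralizer_singleton_iff.2 hrsx.eq
  have hVn := H.V_normal
  have hle : (V D).subgroupOf (Subgroup.centralizer ({x} : Set G)) ≤ pCore 3 ↥(Subgroup.centralizer ({x} : Set G)) := by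
    apply H1.Cores.le_pCore inferInstance
    intro g
    refine ⟨1, ?_⟩
    apply Subtype.ext
    apply Subtype.ext
    exact H.V_cube (Subgroup.mem_subgroupOf.1 g.2)
  let P := pCore 3 ↥(Subgroup.centralizer ({x} : Set G))
  let v' : P := ⟨⟨v, hvc⟩, hle (Subgroup.mem_subgroupOf.2 hv)⟩
  let w' : P := ⟨⟨r * s, hrc⟩, hle (Subgroup.mem_subgroupOf.2 hrsV)⟩
  have hw : w' ≠ 1 := by
    intro h
    apply hrs1
    exact congrArg (fun g : P => ((g : ↥(Subgroup.centralizer ({x} : Set G))) : G)) h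
  haveI : Fact (Nat.Prime 3) := ⟨by norm_num⟩
  have h1 := mem_zpowers_of_prime_card hO hw (g' := v')
  obtain ⟨n, hn⟩ := Subgroup.mem_zpowers_iff.1 h1
  refine Subgroup.mem_zpowers_iff.2 ⟨n, ?_⟩
  exact congrArg (fun g : P => ((g : ↥(Subgroup.centralizer ({x} : Set G))) : G)) hn

theorem HypK.lemA {p a y y' b : G} (hO : Nat.card (pCore 3 ↥(Subgroup.centralizer ({p} : Set G))) = 3)
    (hy : ¬ Comp D p y) (ha : Adj D p a) (hb : Adj D b y) (hb' : Adj D b y') (hyy : y ≠ y') :
    p * a * (y * y') * (p * a)⁻¹ = y' * y := by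
  have hpD := ha.1
  have pp := mul_self H.tt hpD
  have yy := mul_self H.tt hb.2.1
  have yy' := mul_self H.tt hb'.2.1
  obtain ⟨c, c1, c2, c3⟩ := H.act hpD (fun h => hy h.symm) hb hb' hyy
  set k := y * y' with hk
  set p' := k * p * k⁻¹ with hp'
  have pp' := mul_self H.tt c2.2.1
  have hnc : ¬ Commute p p' := fun h => c3 (H.toHyp.tri c1 c2 h).symm
  have br := braid H.tt hpD c2.2.1 hnc
  set v := p' * p * k with hv
  have hvx : Commute v p := by
    show v * p = p * v
    have h1 : k * p = p' * k := by rw [hp']; group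
    calc v * p = p' * p * (k * p) := by rw [hv]; group
      _ = (p' * p * p') * k := by rw [h1]; group
      _ = (p * p' * p) * k := by rw [br]
      _ = p * v := by rw [hv]; group
  have hkV : k ∈ V D := Subgroup.subset_closure ⟨b, y, y', hb, hb', rfl⟩
  have hpV : p' * p ∈ V D := Subgroup.subset_closure ⟨c, p', p, c2, c1, rfl⟩
  have hvV : v ∈ V D := mul_mem hpV hkV
  obtain ⟨a', ha', haa⟩ := H.toHyp.exists_nc ha
  obtain ⟨n, hn⟩ := Subgroup.mem_zpowers_iff.1 (H.cent hO ha ha' (by rintro rfl; exact haa (Commute.refl _)) hvV hvx)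
  have aa := mul_self H.tt ha.2.1
  -- conjugation by `p a` inverts `v`
  have i1 : p * a * (a * a') * (p * a)⁻¹ = (a * a')⁻¹ := by
    have e1 : (p * a)⁻¹ = a * p := by rw [mul_inv_rev, inv_eq H.tt hpD, inv_eq H.tt ha.2.1]
    have e2 : (a * a')⁻¹ = a' * a := by rw [mul_inv_rev, inv_eq H.tt ha'.2.1, inv_eq H.tt ha.2.1]
    rw [e1, e2]
    have h1 := ha'.2.2.2.eq
    have h2 := ha.2.2.2.eq
    calc p * a * (a * a') * (a * p) = p * (a * a) * a' * (a * p) := by group
      _ = p * a' * (p * a) := by rw [aa, h2]; group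
      _ = (p * a' * p) * a := by group
      _ = (a' * p * p) * a := by rw [h1]
      _ = a' * a := by rw [mul_assoc a' p p, pp, mul_one]
  have i2 : p * a * v * (p * a)⁻¹ = v⁻¹ := by
    rw [← hn, ← zpow_neg, ← inv_zpow', ← i1]
    have := map_zpow (MulAut.conj (p * a)) (a * a') n
    simp only [MulAut.conj_apply] at this
    exact this
  -- and `p' p`
  have hap' : Adj D p' a := (H.nb_eq c1.symm c2).2 ha
  have i3 : p * a * (p * p') * (p * a)⁻¹ = (p * p')⁻¹ := by
    have e1 : (p * a)⁻¹ = a * p := by rw [mul_inv_rev, inv_eq H.tt hpD, inv_eq H.tt ha.2.1]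
    have e2 : (p * p')⁻¹ = p' * p := by rw [mul_inv_rev, inv_eq H.tt c2.2.1, inv_eq H.tt hpD]
    rw [e1, e2]
    have h1 := hap'.2.2.2.eq
    have h2 := ha.2.2.2.eq
    calc p * a * (p * p') * (a * p) = p * a * p * (p' * a) * p := by group
      _ = p * (a * p) * a * p' * p := by rw [h1]; group
      _ = p * (p * a) * a * p' * p := by rw [h2]
      _ = (p * p) * (a * a) * p' * p := by group
      _ = p' * p := by rw [pp, aa]; group
  clear_value v p' k
  have hkk : k = p * p' * v := by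
    calc k = p * p * k := by rw [pp, one_mul]
      _ = p * (p' * p') * p * k := by rw [pp', mul_one]
      _ = p * p' * v := by rw [hv]; group
  have hpV' : p * p' ∈ V D := Subgroup.subset_closure ⟨c, p, p', c1, c2, rfl⟩
  have hinv : k⁻¹ = y' * y := by rw [hk, mul_inv_rev, inv_eq H.tt hb.2.1, inv_eq H.tt hb'.2.1]
  rw [← hinv]
  calc p * a * k * (p * a)⁻¹ = (p * a * (p * p') * (p * a)⁻¹) * (p * a * v * (p * a)⁻¹) := by rw [hkk]; group
    _ = (p * p')⁻¹ * v⁻¹ := by rw [i2, i3]
    _ = (v * (p * p'))⁻¹ := (mul_inv_rev v (p * p')).symm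
    _ = k⁻¹ := by rw [H.V_comm hvV hpV', ← hkk]

/-- there is only one component -/
theorem HypK.comp_all (hO : ∀ p ∈ D, Nat.card (pCore 3 ↥(Subgroup.centralizer ({p} : Set G))) = 3) {p y : G}
    (hp : p ∈ D) (hyD : y ∈ D) : Comp D p y := by
  by_contra hy
  obtain ⟨a, -, ha, -⟩ := H.loc p hp
  obtain ⟨b, -, hb, -⟩ := H.loc y hyD
  obtain ⟨y', hy', hnc⟩ := H.toHyp.exists_nc hb.symm
  have h1 := H.lemA (hO p hp) hy ha hb.symm hy' (by rintro rfl; exact hnc (Commute.refl _))
  have hcy' : ¬ Comp D p y' := fun h => hy (H.comp_step (H.comp_step h hy'.symm) hb.symm)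
  obtain ⟨m1, -⟩ := H.mv hyD hy (H.comp_self hp) ha
  obtain ⟨m2, -⟩ := H.mv hy'.2.1 hcy' (H.comp_self hp) ha
  have m3 : Adj D y (p * a * y' * (p * a)⁻¹) := (H.nb_eq hb hy').1 m2
  have h2 : Commute y (y' * y) := by
    rw [← h1]
    have e : p * a * (y * y') * (p * a)⁻¹ = (p * a * y * (p * a)⁻¹) * (p * a * y' * (p * a)⁻¹) := by group
    rw [e]
    exact m1.2.2.2.mul_right m3.2.2.2
  apply hnc
  have h3 := h2.eq
  rw [← mul_assoc] at h3
  exact mul_right_cancel h3

omit H in
theorem perm3_list : ∀ σ : Equiv.Perm (Fin 3), σ = 1 ∨ σ = Equiv.swap 0 1 ∨ σ = Equiv.swap 1 2 ∨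
    σ = Equiv.swap 0 1 * Equiv.swap 1 2 ∨ σ = Equiv.swap 1 2 * Equiv.swap 0 1 ∨
    σ = Equiv.swap 0 1 * Equiv.swap 1 2 * Equiv.swap 0 1 := by decide +kernel

omit H in
theorem perm3_ker : ∀ σ : Equiv.Perm (Fin 3), σ = 1 ∨ ∃ ρ, σ * (ρ * σ * ρ⁻¹) = Equiv.swap 0 1 * Equiv.swap 1 2 ∨
    σ * (ρ * σ * ρ⁻¹) = Equiv.swap 1 2 * Equiv.swap 0 1 := by decide +kernel

theorem HypK.exists_S3 {p q : G} (hp : p ∈ D) (hq : q ∈ D) (hpq : ¬ Commute p q) :
    ∃ φ : Equiv.Perm (Fin 3) →* G, Function.Injective φ ∧ φ (Equiv.swap 0 1) = p ∧ φ (Equiv.swap 1 2) = q := by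
  have rel : H47.SymCox.RelF (![p, q] : Fin 2 → G) := by
    refine ⟨?_, ?_, ?_⟩
    · intro i
      fin_cases i
      · exact mul_self H.tt hp
      · exact mul_self H.tt hq
    · intro i j hij
      fin_cases i <;> fin_cases j <;> exact absurd hij (by decide)
    · intro i j hij
      fin_cases i <;> fin_cases j <;> first
        | exact absurd hij (by decide)
        | exact braid H.tt hp hq hpq
  obtain ⟨φ, hφ⟩ := H47.SymCox.exists_hom _ rel
  have h01 : φ (Equiv.swap 0 1) = p := hφ 0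
  have h12 : φ (Equiv.swap 1 2) = q := hφ 1
  refine ⟨φ, ?_, h01, h12⟩
  rw [injective_iff_map_eq_one]
  intro σ hσ
  by_contra hne
  rcases perm3_ker σ with h | ⟨ρ, h | h⟩
  · exact hne h
  · have h1 := congrArg φ h
    rw [map_mul, map_mul, map_mul, hσ, map_mul, h01, h12] at h1
    apply hpq
    have h2 : p * q = 1 := by rw [← h1, map_inv]; group
    have h3 : q = p := by rw [← inv_eq H.tt hp]; exact (inv_eq_of_mul_eq_one_right h2).symm
    rw [h3]
  · have h1 := congrArg φ h
    rw [map_mul, map_mul, map_mul, hσ, map_mul, h01, h12] at h1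
    apply hpq
    have h2 : q * p = 1 := by rw [← h1, map_inv]; group
    have h3 : p = q := by rw [← inv_eq H.tt hq]; exact (inv_eq_of_mul_eq_one_right h2).symm
    rw [h3]

omit H in
theorem mem_list (φ : Equiv.Perm (Fin 3) →* G) (K : Subgroup G) (h1 : φ (Equiv.swap 0 1) ∈ K)
    (h2 : φ (Equiv.swap 1 2) ∈ K) : φ.range ≤ K := by
  rintro _ ⟨σ, rfl⟩
  rcases perm3_list σ with rfl | rfl | rfl | rfl | rfl | rfl
  · rw [map_one]; exact one_mem _
  · exact h1
  · exact h2
  · rw [map_mul]; exact mul_mem h1 h2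
  · rw [map_mul]; exact mul_mem h2 h1
  · rw [map_mul, map_mul]; exact mul_mem (mul_mem h1 h2) h1

theorem HypK.final (hO : ∀ p ∈ D, Nat.card (pCore 3 ↥(Subgroup.centralizer ({p} : Set G))) = 3) {p : G}
    (hp : p ∈ D) : Nonempty (↥(Subgroup.closure D) ≃* Equiv.Perm (Fin 3) × Equiv.Perm (Fin 3)) := by
  obtain ⟨a, b, ha, hb, hab, -⟩ := H.loc p hp
  obtain ⟨q, hq, hpq⟩ := H.toHyp.exists_nc ha.symm
  obtain ⟨φ, φi, φ0, φ1⟩ := H.exists_S3 hp hq.2.1 hpq
  obtain ⟨ψ, ψi, ψ0, ψ1⟩ := H.exists_S3 ha.2.1 hb.2.1 hab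
  have hcl : φ.range ≤ Subgroup.centralizer (ψ.range : Set G) := by
    apply mem_list
    · rw [φ0, Subgroup.mem_centralizer_iff]
      intro h hh
      have h1 : ψ.range ≤ Subgroup.centralizer {p} := by
        apply mem_list
        · rw [ψ0, Subgroup.mem_centralizer_singleton_iff]; exact ha.2.2.2.symm.eq
        · rw [ψ1, Subgroup.mem_centralizer_singleton_iff]; exact hb.2.2.2.symm.eq
      exact Subgroup.mem_centralizer_singleton_iff.1 (h1 hh)
    · rw [φ1, Subgroup.mem_centralizer_iff]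
      intro h hh
      have h1 : ψ.range ≤ Subgroup.centralizer {q} := by
        apply mem_list
        · rw [ψ0, Subgroup.mem_centralizer_singleton_iff]; exact (H.cc ha hq ha).symm.eq
        · rw [ψ1, Subgroup.mem_centralizer_singleton_iff]; exact (H.cc ha hq hb).symm.eq
      exact Subgroup.mem_centralizer_singleton_iff.1 (h1 hh)
  have hcomm : ∀ m n, Commute (φ m) (ψ n) := by
    intro m n
    exact (Subgroup.mem_centralizer_iff.1 (hcl ⟨m, rfl⟩) (ψ n) ⟨n, rfl⟩).symm
  let Φ := MonoidHom.noncommCoprod φ ψ hcomm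
  have hΦ : ∀ x, Φ x = φ x.1 * ψ x.2 := fun x => rfl
  have hinj : Function.Injective Φ := by
    rw [injective_iff_map_eq_one]
    rintro ⟨σ, τ⟩ h
    rw [hΦ] at h
    have h1 : φ σ = (ψ τ)⁻¹ := eq_inv_of_mul_eq_one_left h
    have hσ : σ = 1 := by
      apply perm3c
      intro ρ
      apply φi
      rw [map_mul, map_mul, h1]
      exact (hcomm ρ τ).inv_right.symm.eq
    rw [hσ, map_one, one_mul] at h
    have hτ : τ = 1 := ψi (h.trans (map_one ψ).symm)
    rw [hσ, hτ]; rfl
  have hrange : Φ.range = Subgroup.closure D := by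
    have e1 : Φ.range = φ.range ⊔ ψ.range := MonoidHom.noncommCoprod_range φ ψ hcomm
    rw [e1]
    apply le_antisymm
    · apply sup_le
      · apply mem_list
        · rw [φ0]; exact Subgroup.subset_closure hp
        · rw [φ1]; exact Subgroup.subset_closure hq.2.1
      · apply mem_list
        · rw [ψ0]; exact Subgroup.subset_closure ha.2.1
        · rw [ψ1]; exact Subgroup.subset_closure hb.2.1
    · rw [Subgroup.closure_le]
      intro x hx
      have hpr : p ∈ φ.range ⊔ ψ.range := by rw [← φ0]; exact (le_sup_left : φ.range ≤ _) ⟨_, rfl⟩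
      have hqr : q ∈ φ.range ⊔ ψ.range := by rw [← φ1]; exact (le_sup_left : φ.range ≤ _) ⟨_, rfl⟩
      have har : a ∈ φ.range ⊔ ψ.range := by rw [← ψ0]; exact (le_sup_right : ψ.range ≤ _) ⟨_, rfl⟩
      have hbr : b ∈ φ.range ⊔ ψ.range := by rw [← ψ1]; exact (le_sup_right : ψ.range ≤ _) ⟨_, rfl⟩
      rcases H.comp_all hO hp hx with h | ⟨c, h1, h2⟩
      · rcases H.toHyp.loc2 ha hb hab h with rfl | rfl | rfl
        · exact har
        · exact hbr
        · exact mul_mem (mul_mem har hbr) har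
      · have h3 : Adj D a x := (H.nb_eq ha.symm h1).1 h2
        rcases H.toHyp.loc2 ha.symm hq hpq h3 with rfl | rfl | rfl
        · exact hpr
        · exact hqr
        · exact mul_mem (mul_mem hpr hqr) hpr
  exact ⟨((MonoidHom.ofInjective hinj).trans (MulEquiv.subgroupCongr hrange)).symm⟩

omit H in
/-- the classification -/
theorem main (hD : IsThreeTranspositionSet D) (hconj : ∀ g : G, ∀ d ∈ D, g * d * g⁻¹ ∈ D)
    (hne : D.Nonempty) (hloc : ∀ d ∈ D, Nonempty (↥(Subgroup.closure {y : G | y ∈ D ∧ y ≠ d ∧ Commute d y}) ≃*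
      Equiv.Perm (Fin 3)) ∧ Nat.card (pCore 3 ↥(Subgroup.centralizer ({d} : Set G))) = 3) :
    Nonempty (↥(Subgroup.closure D) ≃* Equiv.Perm (Fin 5)) ∨
      Nonempty (↥(Subgroup.closure D) ≃* Equiv.Perm (Fin 3) × Equiv.Perm (Fin 3)) := by
  have hH : Hyp D := ⟨hD, hconj, fun d hd => by
    obtain ⟨⟨e⟩, -⟩ := hloc d hd
    exact loc_of_iso hD hd e⟩
  by_cases hk : ∀ d a b, Adj D d a → Adj D d b → ¬ Commute a b → ∃ e ∈ D, e ≠ d ∧ Commute e a ∧ Commute e b
  · right
    obtain ⟨p, hp⟩ := hne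
    exact (HypK.mk hH hk).final (fun p hp => (hloc p hp).2) hp
  · left
    push Not at hk
    obtain ⟨d, a, b, ha, hb, hab, hno⟩ := hk
    obtain ⟨φ, hi, hr⟩ := hH.petersen ha hb hab hno
    exact ⟨((MonoidHom.ofInjective hi).trans (MulEquiv.subgroupCongr hr)).symm⟩

end H91.CubicTT
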