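import Cfsg.Agent.Lib.H91.LargeNormal
import Cfsg.Agent.Lib.H21.PrimeAct
import Cfsg.Agent.Lib.H11.SubnormalMore
import Cfsg.Agent.Lib.H65.Frat
import Cfsg.Agent.Lib.H91.XSExtra

/-!
The generalized Fitting subgroup of a group with a large extraspecial 2-subgroup.
-/

set_option autoImplicit false

namespace H91.LargeLayer

open Cfsg H91.LargePair H91.LargeNormal

variable {G : Type*} [Group G]

theorem four_dvd_simple {S : Type*} [Group S] [Finite S] [IsSimpleGroup S] (hS : ¬ IsMulCommutative S)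
    (h2 : 2 ∣ Nat.card S) : 4 ∣ Nat.card S := by
  haveI : Fact (Nat.Prime 2) := ⟨Nat.prime_two⟩
  obtain ⟨x, hx⟩ := exists_prime_orderOf_dvd_card' 2 h2
  have h3 := H21.PrimeAct.four_dvd_moved hS S x (by rw [← hx, pow_orderOf_eq_one])
  have h4 : Nat.card (MulAction.fixedBy S x) = 0 := by
    have : IsEmpty (MulAction.fixedBy S x) := by
      constructor
      rintro ⟨y, hy⟩
      have h5 : x * y = y := hy
      have h6 : x = 1 := by simpa using h5
      rw [h6, orderOf_one] at hx
      omega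
    exact Nat.card_of_isEmpty
  rwa [h4, Nat.sub_zero] at h3

variable {Q : Subgroup G} {z : G} (H : LPack Q z)
include H

/-- the centralizer of `z` normalises `Q` -/
theorem cent_le_norm : Subgroup.centralizer ({z} : Set G) ≤ Subgroup.normalizer (Q : Set G) := by
  intro x hx
  have hxz : x * z = z * x := Subgroup.mem_centralizer_singleton_iff.1 hx
  have hxz' : x⁻¹ * z = z * x⁻¹ := by
    have h : x⁻¹ * (x * z) * x⁻¹ = x⁻¹ * (z * x) * x⁻¹ := by rw [hxz]
    calc x⁻¹ * z = x⁻¹ * (z * x) * x⁻¹ := by group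
      _ = x⁻¹ * (x * z) * x⁻¹ := h.symm
      _ = z * x⁻¹ := by group
  rw [Subgroup.mem_normalizer_iff]
  intro q
  constructor
  · exact H.N x hxz q
  · intro hq
    have := H.N x⁻¹ hxz' _ hq
    have e : x⁻¹ * (x * q * x⁻¹) * x⁻¹⁻¹ = q := by group
    rwa [e] at this

/-- a component does not centralise `z` -/
theorem not_le_cent [Finite G] {K : Subgroup G} (hK : IsComponent K) : ¬ K ≤ Subgroup.centralizer ({z} : Set G) := by
  intro h
  have hsol : Group.IsSolvable Q := by
    haveI : Fact (Nat.Prime 2) := ⟨Nat.prime_two⟩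
    haveI := H.p2.isNilpotent
    infer_instance
  have h1 := H26.Components.commutator_eq_bot_of_isSolvable hK hsol (h.trans (cent_le_norm H))
  rw [H26.Basic.commutator_eq_bot_iff_forall] at h1
  apply H26.Components.not_commutative hK
  rw [H26.Basic.commutator_eq_bot_iff_forall]
  intro a ha b hb
  rcases H.C a (fun q hq => (h1 a ha q hq).symm) with rfl | rfl
  · simp
  · rcases H.C b (fun q hq => (h1 b hb q hq).symm) with rfl | rfl
    · simp
    · rfl

theorem ppCore_eq_bot [Finite G] : pPrimeCore 2 G = ⊥ := by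
  apply H.odd
  · exact (Nat.coprime_two_right).1 (H1.Cores.coprime_card_pPrimeCore 2)
  · have := H1.Cores.pPrimeCore_normal (G := G) 2
    rw [Subgroup.normalizer_eq_top]; exact le_top

/-- first case -/
theorem case_core [Finite G] (hz : z ∈ pCore 2 G) (M : Subgroup G) (hM : M = Subgroup.normalClosure ({z} : Set G)) :
    IsMulCommutative M ∧ generalizedFittingSubgroup G = pCore 2 G := by
  haveI : Fact (Nat.Prime 2) := ⟨Nat.prime_two⟩
  have hPn := H1.Cores.pCore_normal (G := G) 2
  have hP2 := H1.Cores.isPGroup_pCore (G := G) 2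
  constructor
  · haveI : Nontrivial (pCore 2 G) := ⟨⟨⟨z, hz⟩, 1, fun h => H.z1 (congrArg Subtype.val h)⟩⟩
    haveI hct := hP2.center_nontrivial
    obtain ⟨c, hc⟩ := exists_ne (1 : Subgroup.center (pCore 2 G))
    set N := (Subgroup.center (pCore 2 G)).map (pCore 2 G).subtype with hN
    have hNn : N.Normal := inferInstance
    have hzN : z ∈ N := by
      apply H.mem_of_norm
      · rw [Subgroup.normalizer_eq_top]; exact le_top
      · intro h
        apply hc
        have h1 : ((c : pCore 2 G) : G) ∈ N := ⟨_, c.2, rfl⟩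
        rw [h, Subgroup.mem_bot] at h1
        apply Subtype.ext; apply Subtype.ext
        exact h1
    have hMN : M ≤ N := by
      rw [hM]
      exact Subgroup.normalClosure_le_normal (Set.singleton_subset_iff.2 hzN)
    constructor
    constructor
    rintro ⟨a, ha⟩ ⟨b, hb⟩
    apply Subtype.ext
    obtain ⟨x, hx, hxa⟩ := hMN ha
    obtain ⟨y, -, hyb⟩ := hMN hb
    show a * b = b * a
    rw [← hxa, ← hyb]
    exact congrArg Subtype.val (Subgroup.mem_center_iff.1 hx y).symm
  · have hlayer : layer G = ⊥ := by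
      rw [H26.Components.layer_eq_bot_iff]
      intro K hK
      apply not_le_cent H hK
      intro x hx
      rw [Subgroup.mem_centralizer_singleton_iff]
      exact H26.Basic.commute_of_commutator_eq_bot (H26.Components.commutator_layer_pCore 2)
        (H26.Components.le_layer hK hx) hz
    have h1 := H26.GenFitting.gFitting_eq_of_pPrimeCore_eq_bot (G := G) (p := 2) (ppCore_eq_bot H)
    rw [h1, hlayer, bot_sup_eq]

theorem pCore_eq_bot [Finite G] (hz : z ∉ pCore 2 G) : pCore 2 G = ⊥ := by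
  by_contra hne
  apply hz
  apply H.mem_of_norm _ hne
  have hPn := H1.Cores.pCore_normal (G := G) 2
  rw [Subgroup.normalizer_eq_top]; exact le_top

theorem gFitting_eq [Finite G] (hz : z ∉ pCore 2 G) : generalizedFittingSubgroup G = layer G := by
  haveI : Fact (Nat.Prime 2) := ⟨Nat.prime_two⟩
  rw [H26.GenFitting.gFitting_eq_of_pPrimeCore_eq_bot (G := G) (p := 2) (ppCore_eq_bot H), pCore_eq_bot H hz, sup_bot_eq]

theorem fitting_eq_bot [Finite G] (hz : z ∉ pCore 2 G) : fittingSubgroup G = ⊥ := by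
  have hn : Group.IsNilpotent (fittingSubgroup G) := H1.Cores.isNilpotent_fittingSubgroup
  have hfn := H1.Cores.fittingSubgroup_normal (G := G)
  have h1 := H1.Cores.nilpotent_le_iSup_pCore (fittingSubgroup G) hn
  rw [eq_bot_iff]
  refine h1.trans (iSup_le fun p => ?_)
  by_cases hp2 : (p : ℕ) = 2
  · rw [hp2, pCore_eq_bot H hz]
  · have hPn := H1.Cores.pCore_normal (G := G) (p : ℕ)
    haveI : Fact (Nat.Prime (p : ℕ)) := ⟨p.2⟩
    rw [H.odd (pCore (p : ℕ) G) ?_ ?_]
    · obtain ⟨n, hn⟩ := IsPGroup.iff_card.1 (H1.Cores.isPGroup_pCore (G := G) (p : ℕ))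
      rw [hn]
      exact (p.2.odd_of_ne_two hp2).pow
    · rw [Subgroup.normalizer_eq_top]; exact le_top

theorem comp_center [Finite G] (hz : z ∉ pCore 2 G) {K : Subgroup G} (hK : IsComponent K) {x : G} (hx : x ∈ K)
    (hc : ∀ y ∈ K, y * x = x * y) : x = 1 := by
  have h1 := (H26.GenFitting.component_centre_le_layer_centre hK).trans (H26.GenFitting.centre_layer_le_fitting (G := G))
  rw [fitting_eq_bot H hz] at h1
  have h2 : x ∈ K ⊓ Subgroup.centralizer (K : Set G) := ⟨hx, Subgroup.mem_centralizer_iff.2 hc⟩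
  exact h1 h2

theorem comp_simple [Finite G] (hz : z ∉ pCore 2 G) {K : Subgroup G} (hK : IsComponent K) :
    IsSimpleGroup K ∧ ¬ IsMulCommutative K := by
  have hc : Subgroup.center K = ⊥ := by
    rw [Subgroup.eq_bot_iff_forall]
    intro x hx
    apply Subtype.ext
    apply comp_center H hz hK x.2
    intro y hy
    exact congrArg Subtype.val (Subgroup.mem_center_iff.1 hx ⟨y, hy⟩)
  refine ⟨?_, H26.Quasisimple.not_isMulCommutative hK.2⟩
  have h1 := hK.2.2
  exact (MulEquiv.isSimpleGroup_congr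
    ((QuotientGroup.quotientMulEquivOfEq hc).trans QuotientGroup.quotientBot)).1 h1

/-- the normal closure of `z` is the layer -/
theorem closure_eq_layer [Finite G] (hz : z ∉ pCore 2 G) (M : Subgroup G)
    (hM : M = Subgroup.normalClosure ({z} : Set G)) : M = layer G := by
  haveI : Fact (Nat.Prime 2) := ⟨Nat.prime_two⟩
  have hMn : M.Normal := by rw [hM]; infer_instance
  have hzM : z ∈ M := by rw [hM]; exact Subgroup.subset_normalClosure (Set.mem_singleton z)
  have hln : (layer G).Normal := by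
    have := H26.Components.layer_characteristic (G := G)
    infer_instance
  have hlne : layer G ≠ ⊥ := by
    intro h
    have h1 := H26.Components.centralizer_gFitting_le (G := G)
    rw [gFitting_eq H hz, h] at h1
    apply H.z1
    have h2 : z ∈ Subgroup.centralizer ((⊥ : Subgroup G) : Set G) := by
      rw [Subgroup.mem_centralizer_iff]
      intro y hy
      rw [SetLike.mem_coe, Subgroup.mem_bot] at hy
      rw [hy]; simp
    exact h1 h2
  apply le_antisymm
  · rw [hM]
    apply Subgroup.normalClosure_le_normal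
    rw [Set.singleton_subset_iff]
    exact H.mem_of_norm (by rw [Subgroup.normalizer_eq_top]; exact le_top) hlne
  · have h1 : ∀ K : Subgroup G, IsComponent K → K ≤ M := by
      intro K hK
      rcases H26.Components.le_or_commutator_eq_bot_of_normal (H := M) hK with h | h
      · exact h
      · exfalso
        -- `K` centralises `z`
        apply not_le_cent H hK
        intro x hx
        rw [Subgroup.mem_centralizer_singleton_iff]
        exact H26.Basic.commute_of_commutator_eq_bot h hx hzM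
    exact sSup_le fun K hK => h1 K hK

/-! ### several components -/

omit H in
/-- the conjugate subgroup -/
abbrev cj (g : G) (K : Subgroup G) : Subgroup G := K.map (MulAut.conj g).toMonoidHom

omit H in
theorem mem_cj {g x : G} {K : Subgroup G} : x ∈ cj g K ↔ g⁻¹ * x * g ∈ K := mem_map_conj

omit H in
theorem mem_cj' {g x : G} {K : Subgroup G} (h : x ∈ K) : g * x * g⁻¹ ∈ cj g K := by
  rw [mem_cj]
  have e : g⁻¹ * (g * x * g⁻¹) * g = x := by group
  rwa [e]

omit H in
theorem cj_cj (g h : G) (K : Subgroup G) : cj g (cj h K) = cj (g * h) K := by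
  ext x
  rw [mem_cj, mem_cj, mem_cj]
  have e : h⁻¹ * (g⁻¹ * x * g) * h = (g * h)⁻¹ * x * (g * h) := by group
  rw [e]

/-- the Sylow subgroup of a component centralising `z` -/
theorem exists_sylow_comp [Finite G] (hz : z ∉ pCore 2 G) {L : Subgroup G} (hL : IsComponent L) :
    ∃ R : Sylow 2 L, (∀ x : L, x ∈ (R : Subgroup L) → (x : G) * z = z * x) ∧ 4 ∣ Nat.card (R : Subgroup L) := by
  haveI : Fact (Nat.Prime 2) := ⟨Nat.prime_two⟩
  obtain ⟨S, -, hS, -⟩ := H.exists_sylow
  obtain ⟨R, hR⟩ := H11.SubnormalMore.exists_sylow_eq_subgroupOf 2 L hL.1 S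
  refine ⟨R, ?_, ?_⟩
  · intro x hx
    rw [hR, Subgroup.mem_subgroupOf] at hx
    exact Subgroup.mem_centralizer_singleton_iff.1 (hS hx)
  · have h2 : 2 ∣ Nat.card L := by
      by_contra h
      have h1 := H26.Subnormal.le_pPrimeCore (p := 2) hL.1 ((Nat.coprime_comm).1
        ((Nat.Prime.coprime_iff_not_dvd Nat.prime_two).2 h))
      rw [ppCore_eq_bot H, le_bot_iff] at h1
      exact H26.Components.ne_bot hL h1
    obtain ⟨hs, hc⟩ := comp_simple H hz hL
    have h4 := four_dvd_simple hc h2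
    exact R.pow_dvd_card_of_pow_dvd_card (n := 2) h4

theorem exists_elt [Finite G] (hz : z ∉ pCore 2 G) {L : Subgroup G} (hL : IsComponent L) (c0 : G) :
    ∃ c ∈ L, c * z = z * c ∧ c ≠ 1 ∧ c ≠ c0 := by
  obtain ⟨R, hR, h4⟩ := exists_sylow_comp H hz hL
  by_contra hcon
  push Not at hcon
  have hsub : ((R : Subgroup L).map L.subtype : Set G) ⊆ {1, c0} := by
    rintro _ ⟨x, hx, rfl⟩
    by_cases h1 : (x : G) = 1
    · exact Or.inl h1
    · exact Or.inr (hcon x x.2 (hR x hx) h1)
  have h1 : Nat.card ((R : Subgroup L).map L.subtype) ≤ 2 := by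
    have h2 := Set.ncard_le_ncard hsub (Set.toFinite _)
    have h3 : Set.ncard ({1, c0} : Set G) ≤ 2 := Set.ncard_insert_le _ _ |>.trans (by simp)
    exact h2.trans h3
  rw [Nat.card_congr ((R : Subgroup L).equivMapOfInjective L.subtype L.subtype_injective).symm.toEquiv] at h1
  have h5 : 0 < Nat.card (R : Subgroup L) := Nat.card_pos
  have := Nat.le_of_dvd h5 h4
  omega

theorem comp_moved [Finite G] {L K : Subgroup G} (hL : IsComponent L) (hK : IsComponent K) (hKL : K ≠ L) :
    ∃ u ∈ Q, cj u L ≠ L := by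
  by_contra hcon
  push Not at hcon
  have hn : Q ≤ Subgroup.normalizer (L : Set G) := by
    intro u hu
    rw [Subgroup.mem_normalizer_iff]
    intro x
    constructor
    · intro hx
      rw [← hcon u hu]; exact mem_cj' hx
    · intro hx
      have h1 : u⁻¹ * (u * x * u⁻¹) * u ∈ L := by
        rw [← mem_cj, hcon u hu]; exact hx
      have e : u⁻¹ * (u * x * u⁻¹) * u = x := by group
      rwa [e] at h1
  have hzL := H.mem_of_norm hn (H26.Components.ne_bot hL)
  apply not_le_cent H hK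
  intro x hx
  rw [Subgroup.mem_centralizer_singleton_iff]
  exact H26.Basic.commute_of_commutator_eq_bot (H26.Components.commutator_eq_bot_of_ne hK hL hKL) hx hzL

theorem comp_trans [Finite G] {L K : Subgroup G} (hL : IsComponent L) (hK : IsComponent K) : ∃ q ∈ Q, cj q L = K := by
  by_contra hcon
  push Not at hcon
  set N : Subgroup G := ⨆ q : Q, cj (q : G) L with hN
  have hle : ∀ q ∈ Q, cj q L ≤ N := fun q hq => le_iSup (fun q : Q => cj (q : G) L) ⟨q, hq⟩
  have hcle : ∀ u ∈ Q, ∀ x ∈ N, u * x * u⁻¹ ∈ N := by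
    intro u hu x hx
    have h1 : N ≤ cj u⁻¹ N := by
      conv_lhs => rw [hN]
      apply iSup_le
      rintro ⟨q, hq⟩
      intro y hy
      rw [mem_cj, inv_inv]
      apply hle (u * q) (mul_mem hu hq)
      rw [← cj_cj]
      exact mem_cj' hy
    have h2 := h1 hx
    rwa [mem_cj, inv_inv] at h2
  have hn : Q ≤ Subgroup.normalizer (N : Set G) := by
    intro u hu
    rw [Subgroup.mem_normalizer_iff]
    intro x
    constructor
    · exact hcle u hu x
    · intro hx
      have h1 := hcle u⁻¹ (inv_mem hu) _ hx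
      have e : u⁻¹ * (u * x * u⁻¹) * u⁻¹⁻¹ = x := by group
      rwa [e] at h1
  have hLN : L ≤ N := by
    intro x hx
    apply hle 1 (one_mem _)
    rw [mem_cj]; simpa using hx
  have hne : N ≠ ⊥ := fun h => H26.Components.ne_bot hL (by rw [eq_bot_iff, ← h]; exact hLN)
  have hzN := H.mem_of_norm hn hne
  have hcomm : ⁅N, K⁆ = ⊥ := by
    apply H26.Basic.commutator_iSup_left_eq_bot
    rintro ⟨q, hq⟩
    apply H26.Components.commutator_eq_bot_of_ne _ hK (hcon q hq)
    exact (H26.Components.map_conj_iff q).2 hL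
  apply not_le_cent H hK
  intro x hx
  rw [Subgroup.mem_centralizer_singleton_iff]
  exact (H26.Basic.commute_of_commutator_eq_bot hcomm hzN hx).symm

theorem w_mem {c u : G} (hc : c * z = z * c) (hu : u ∈ Q) : c⁻¹ * (u * c * u⁻¹) ∈ Q := by
  have h1 := (Subgroup.mem_normalizer_iff.1 (cent_le_norm H (Subgroup.mem_centralizer_singleton_iff.2 hc)) (c⁻¹ * u * c)).2 (by
    have e : c * (c⁻¹ * u * c) * c⁻¹ = u := by group
    rw [e]; exact hu)
  have e : c⁻¹ * (u * c * u⁻¹) = (c⁻¹ * u * c) * u⁻¹ := by group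
  rw [e]; exact mul_mem h1 (inv_mem hu)

/-- there are at most two components -/
theorem two_comps [Finite G] (hz : z ∉ pCore 2 G) {L : Subgroup G} (hL : IsComponent L) {u : G} (hu : u ∈ Q)
    (huL : cj u L ≠ L) {K : Subgroup G} (hK : IsComponent K) : K = L ∨ K = cj u L := by
  by_contra hcon
  push Not at hcon
  obtain ⟨hKL, hKu⟩ := hcon
  obtain ⟨q, hq, hqL⟩ := comp_trans H hL hK
  have hLu : IsComponent (cj u L) := (H26.Components.map_conj_iff u).2 hL
  have hLqu : IsComponent (cj (q * u) L) := (H26.Components.map_conj_iff (q * u)).2 hL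
  obtain ⟨J, hJ, hJK, hJqu, hJc⟩ : ∃ J : Subgroup G, IsComponent J ∧ J ≠ K ∧ J ≠ cj (q * u) L ∧ (J = L ∨ J = cj u L) := by
    by_cases h : cj (q * u) L = L
    · exact ⟨cj u L, hLu, hKu.symm, by rw [h]; exact huL, Or.inr rfl⟩
    · exact ⟨L, hL, hKL.symm, fun h' => h h'.symm, Or.inl rfl⟩
  have cK : ∀ j ∈ J, ∀ x ∈ K, Commute j x := fun j hj x hx =>
    H26.Basic.commute_of_commutator_eq_bot (H26.Components.commutator_eq_bot_of_ne hJ hK hJK) hj hx
  have cqu : ∀ j ∈ J, ∀ x ∈ cj (q * u) L, Commute j x := fun j hj x hx =>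
    H26.Basic.commute_of_commutator_eq_bot (H26.Components.commutator_eq_bot_of_ne hJ hLqu hJqu) hj hx
  have cLu : ∀ x ∈ L, ∀ y ∈ cj u L, Commute x y := fun x hx y hy =>
    H26.Basic.commute_of_commutator_eq_bot (H26.Components.commutator_eq_bot_of_ne hL hLu huL.symm) hx hy
  -- `J` commutes with `z * w` for the elements `w`
  have key : ∀ c ∈ L, c * z = z * c → c ≠ 1 → ∀ j ∈ J, Commute j (z * (c⁻¹ * (u * c * u⁻¹))) := by
    intro c hc hcz hc1 j hj
    have hw := w_mem H hcz hu
    have h1 : Commute j (q * (c⁻¹ * (u * c * u⁻¹)) * q⁻¹) := by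
      have e : q * (c⁻¹ * (u * c * u⁻¹)) * q⁻¹ = (q * c⁻¹ * q⁻¹) * ((q * u) * c * (q * u)⁻¹) := by group
      rw [e]
      apply Commute.mul_right
      · apply cK j hj
        rw [← hqL]; exact mem_cj' (inv_mem hc)
      · exact cqu j hj _ (mem_cj' hc)
    rcases H.comm q hq _ hw with h | h
    · exfalso
      have h2 : q * (c⁻¹ * (u * c * u⁻¹)) * q⁻¹ = c⁻¹ * (u * c * u⁻¹) := by
        rw [mul_inv_eq_one] at h; exact h
      have h3 : ∀ j ∈ J, Commute j (c⁻¹ * (u * c * u⁻¹)) := by
        intro j hj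
        rw [← h2]
        have e : q * (c⁻¹ * (u * c * u⁻¹)) * q⁻¹ = (q * c⁻¹ * q⁻¹) * ((q * u) * c * (q * u)⁻¹) := by group
        rw [e]
        apply Commute.mul_right
        · apply cK j hj
          rw [← hqL]; exact mem_cj' (inv_mem hc)
        · exact cqu j hj _ (mem_cj' hc)
      apply hc1
      rcases hJc with rfl | rfl
      · apply comp_center H hz hL hc
        intro y hy
        have h4 : Commute y (c⁻¹ * (u * c * u⁻¹) * (u * c * u⁻¹)⁻¹) := (h3 y hy).mul_right (cLu y hy _ (mem_cj' hc)).inv_right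
        rw [mul_inv_cancel_right] at h4
        have h5 := h4.inv_right
        rw [inv_inv] at h5
        exact h5.eq
      · apply comp_center H hz hL hc
        intro y hy
        have h4 : Commute (u * y * u⁻¹) (c * (c⁻¹ * (u * c * u⁻¹))) :=
          (cLu c hc _ (mem_cj' hy)).symm.mul_right (h3 _ (mem_cj' hy))
        rw [mul_inv_cancel_left] at h4
        have h5 := h4.eq
        have e1 : u * y * u⁻¹ * (u * c * u⁻¹) = u * (y * c) * u⁻¹ := by group
        have e2 : u * c * u⁻¹ * (u * y * u⁻¹) = u * (c * y) * u⁻¹ := by group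
        rw [e1, e2] at h5
        exact mul_left_cancel (mul_right_cancel h5)
    · have h2 : z * (c⁻¹ * (u * c * u⁻¹)) = q * (c⁻¹ * (u * c * u⁻¹)) * q⁻¹ := by
        rw [mul_inv_eq_iff_eq_mul] at h; exact h.symm
      rw [h2]; exact h1
  obtain ⟨c, hc, hcz, hc1, -⟩ := exists_elt H hz hL 1
  obtain ⟨c', hc', hcz', hc1', hcc⟩ := exists_elt H hz hL c
  apply hcc
  have hk : ∀ j ∈ J, Commute j ((c⁻¹ * (u * c * u⁻¹))⁻¹ * (c'⁻¹ * (u * c' * u⁻¹))) := by
    intro j hj
    have h1 := (key c hc hcz hc1 j hj).inv_right.mul_right (key c' hc' hcz' hc1' j hj)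
    have e : (z * (c⁻¹ * (u * c * u⁻¹)))⁻¹ * (z * (c'⁻¹ * (u * c' * u⁻¹))) =
      (c⁻¹ * (u * c * u⁻¹))⁻¹ * (c'⁻¹ * (u * c' * u⁻¹)) := by group
    rwa [e] at h1
  rcases hJc with rfl | rfl
  · have h1 : c * c'⁻¹ = 1 := by
      apply comp_center H hz hL (mul_mem hc (inv_mem hc'))
      intro y hy
      have h2 := ((cLu y hy _ (mem_cj' hc)).mul_right (hk y hy)).mul_right (cLu y hy _ (mem_cj' hc')).inv_right
      have e : u * c * u⁻¹ * ((c⁻¹ * (u * c * u⁻¹))⁻¹ * (c'⁻¹ * (u * c' * u⁻¹))) * (u * c' * u⁻¹)⁻¹ = c * c'⁻¹ := by group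
      rw [e] at h2
      exact h2.eq
    rw [mul_inv_eq_one] at h1
    exact h1.symm
  · have h1 : c⁻¹ * c' = 1 := by
      apply comp_center H hz hL (mul_mem (inv_mem hc) hc')
      intro y hy
      have hy' := mem_cj' (g := u) hy
      -- `j` commutes with `c` and `c'`
      have j1 := cLu c hc _ hy'
      have j2 := cLu c' hc' _ hy'
      have hcu : Commute c' (u * c * u⁻¹) := cLu c' hc' _ (mem_cj' hc)
      have hcu2 : Commute c (u * c * u⁻¹) := cLu c hc _ (mem_cj' hc)
      have e : (c⁻¹ * (u * c * u⁻¹))⁻¹ * (c'⁻¹ * (u * c' * u⁻¹)) = (c * c'⁻¹) * ((u * c * u⁻¹)⁻¹ * (u * c' * u⁻¹)) := by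
        have h5 : Commute (u * c * u⁻¹)⁻¹ (c * c'⁻¹) := (hcu2.symm.mul_right hcu.symm.inv_right).inv_left
        calc (c⁻¹ * (u * c * u⁻¹))⁻¹ * (c'⁻¹ * (u * c' * u⁻¹)) = (u * c * u⁻¹)⁻¹ * (c * c'⁻¹) * (u * c' * u⁻¹) := by group
          _ = (c * c'⁻¹) * (u * c * u⁻¹)⁻¹ * (u * c' * u⁻¹) := by rw [h5.eq]
          _ = _ := by group
      have h2 := hk _ hy'
      rw [e] at h2
      have h3 : Commute (u * y * u⁻¹) (c * c'⁻¹) := j1.symm.mul_right j2.symm.inv_right
      have h4 := h3.inv_right.mul_right h2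
      rw [inv_mul_cancel_left] at h4
      have h5 := h4.eq
      have e1 : u * y * u⁻¹ * ((u * c * u⁻¹)⁻¹ * (u * c' * u⁻¹)) = u * (y * (c⁻¹ * c')) * u⁻¹ := by group
      have e2 : (u * c * u⁻¹)⁻¹ * (u * c' * u⁻¹) * (u * y * u⁻¹) = u * ((c⁻¹ * c') * y) * u⁻¹ := by group
      rw [e1, e2] at h5
      exact mul_left_cancel (mul_right_cancel h5)
    rw [inv_mul_eq_one] at h1
    exact h1.symm

theorem pair_case [Finite G] (hz : z ∉ pCore 2 G) {L : Subgroup G} (hL : IsComponent L) {u : G} (hu : u ∈ Q)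
    (huL : cj u L ≠ L) :
    L ⊓ cj u L = ⊥ ∧ (∀ x ∈ L, ∀ y ∈ cj u L, x * y = y * x) ∧ L ⊔ cj u L = layer G ∧
      ∃ z₁ ∈ L, z = z₁ * (u * z₁ * u⁻¹) ∧
        (∃ R : Sylow 2 ↥L, (R : Subgroup ↥L) = (Subgroup.centralizer ({z₁} : Set G)).subgroupOf L ∧
          (frattini ↥(R : Subgroup ↥L)).map ((L.subtype).comp (R : Subgroup ↥L).subtype) ≤ Subgroup.zpowers z₁) ∧
        Q ≠ (pCore 2 ↥(Subgroup.centralizer ({z} : Set G))).map (Subgroup.centralizer ({z} : Set G)).subtype := by
  haveI : Fact (Nat.Prime 2) := ⟨Nat.prime_two⟩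
  have hLu : IsComponent (cj u L) := (H26.Components.map_conj_iff u).2 hL
  have hcb := H26.Components.commutator_eq_bot_of_ne hL hLu huL.symm
  have cLu : ∀ x ∈ L, ∀ y ∈ cj u L, x * y = y * x := fun x hx y hy => H26.Basic.commute_of_commutator_eq_bot hcb hx hy
  have hint : ∀ x, x ∈ L → x ∈ cj u L → x = 1 := fun x hx hxu => comp_center H hz hL hx (fun y hy => cLu y hy x hxu)
  have uniq : ∀ x ∈ L, ∀ x' ∈ L, ∀ y ∈ cj u L, ∀ y' ∈ cj u L, x * y = x' * y' → x = x' ∧ y = y' := by
    intro x hx x' hx' y hy y' hy' h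
    have h1 : x'⁻¹ * x = y' * y⁻¹ := by
      calc x'⁻¹ * x = x'⁻¹ * (x * y) * y⁻¹ := by group
        _ = x'⁻¹ * (x' * y') * y⁻¹ := by rw [h]
        _ = y' * y⁻¹ := by group
    have h2 : x'⁻¹ * x = 1 := hint _ (mul_mem (inv_mem hx') hx) (by rw [h1]; exact mul_mem hy' (inv_mem hy))
    have h3 : x' = x := inv_mul_eq_one.1 h2
    refine ⟨h3.symm, ?_⟩
    rw [h3] at h
    exact mul_left_cancel h
  have hsup : L ⊔ cj u L = layer G := by
    apply le_antisymm (sup_le (H26.Components.le_layer hL) (H26.Components.le_layer hLu))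
    apply sSup_le
    intro K hK
    rcases two_comps H hz hL hu huL hK with rfl | rfl
    · exact le_sup_left
    · exact le_sup_right
  refine ⟨?_, cLu, hsup, ?_⟩
  · rw [Subgroup.eq_bot_iff_forall]
    exact fun x hx => hint x hx.1 hx.2
  have hzl : z ∈ layer G := by
    rw [← closure_eq_layer H hz _ rfl]
    exact Subgroup.subset_normalClosure (Set.mem_singleton z)
  have hzs := hzl
  rw [← hsup, H26.Basic.mem_sup_of_commutator_eq_bot hcb] at hzs
  obtain ⟨a, ha, b, hb, hab⟩ := hzs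
  have hzL := H26.Components.layer_le_normalizer hL hzl
  have huz : u * z = z * u := H.zc u hu
  have hub : u * b * u⁻¹ ∈ L := by
    rw [mem_cj] at hb
    have e : u * b * u⁻¹ = (u * u) * (u⁻¹ * b * u) * (u * u)⁻¹ := by group
    rw [e]
    rcases H.sq u hu with h | h
    · rw [h]; simpa using hb
    · rw [h]
      exact (Subgroup.mem_normalizer_iff.1 hzL _).1 hb
  have hba : b = u * a * u⁻¹ := by
    have h1 : (u * b * u⁻¹) * (u * a * u⁻¹) = a * b := by
      rw [cLu _ hub _ (mem_cj' ha)]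
      calc (u * a * u⁻¹) * (u * b * u⁻¹) = u * (a * b) * u⁻¹ := by group
        _ = u * z * u⁻¹ := by rw [hab]
        _ = a * b := by rw [huz, mul_inv_cancel_right, hab]
    exact (uniq _ hub _ ha _ (mem_cj' ha) _ hb h1).2.symm
  have hzz : z = a * (u * a * u⁻¹) := by rw [← hba, hab]
  have hau := mem_cj' (g := u) ha
  have haa : a * a = 1 := by
    have h1 : (a * a) * (u * (a * a) * u⁻¹) = 1 * 1 := by
      calc (a * a) * (u * (a * a) * u⁻¹) = a * (a * (u * a * u⁻¹)) * (u * a * u⁻¹) := by group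
        _ = a * ((u * a * u⁻¹) * a) * (u * a * u⁻¹) := by rw [cLu _ ha _ hau]
        _ = (a * (u * a * u⁻¹)) * (a * (u * a * u⁻¹)) := by group
        _ = 1 * 1 := by rw [← hzz, H.zz, mul_one]
    exact (uniq _ (mul_mem ha ha) _ (one_mem _) _ (mem_cj' (mul_mem ha ha)) _ (one_mem _) h1).1
  have hcz : ∀ c ∈ L, c * z = z * c ↔ c * a = a * c := by
    intro c hc
    have h1 := cLu c hc _ hau
    constructor
    · intro h
      rw [hzz] at h
      have h2 : (c * a * c⁻¹) * (u * a * u⁻¹) = a * (u * a * u⁻¹) := by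
        calc (c * a * c⁻¹) * (u * a * u⁻¹) = c * a * (c⁻¹ * (u * a * u⁻¹)) := by group
          _ = c * a * ((u * a * u⁻¹) * c⁻¹) := by rw [cLu _ (inv_mem hc) _ hau]
          _ = (c * (a * (u * a * u⁻¹))) * c⁻¹ := by group
          _ = ((a * (u * a * u⁻¹)) * c) * c⁻¹ := by rw [h]
          _ = a * (u * a * u⁻¹) := by group
      have h3 := mul_right_cancel h2
      rw [mul_inv_eq_iff_eq_mul] at h3
      exact h3
    · intro h
      rw [hzz]
      calc c * (a * (u * a * u⁻¹)) = (c * a) * (u * a * u⁻¹) := by group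
        _ = a * (c * (u * a * u⁻¹)) := by rw [h]; group
        _ = a * (u * a * u⁻¹) * c := by rw [h1]; group
  have hsqc : ∀ c ∈ L, c * z = z * c → c * c = 1 ∨ c * c = a := by
    intro c hc hcc
    have hw := w_mem H hcc hu
    have h1 : (c⁻¹ * (u * c * u⁻¹)) * (c⁻¹ * (u * c * u⁻¹)) = (c * c)⁻¹ * (u * (c * c) * u⁻¹) := by
      calc (c⁻¹ * (u * c * u⁻¹)) * (c⁻¹ * (u * c * u⁻¹)) = c⁻¹ * ((u * c * u⁻¹) * c⁻¹) * (u * c * u⁻¹) := by group
        _ = c⁻¹ * (c⁻¹ * (u * c * u⁻¹)) * (u * c * u⁻¹) := by rw [cLu _ (inv_mem hc) _ (mem_cj' hc)]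
        _ = _ := by group
    have hcc2 := mul_mem hc hc
    rcases H.sq _ hw with h | h
    · left
      rw [h1] at h
      have h2 := (uniq _ (inv_mem hcc2) _ (one_mem _) _ (mem_cj' hcc2) _ (one_mem _) (by rw [h, mul_one])).1
      rwa [inv_eq_one] at h2
    · right
      rw [h1, hzz] at h
      have h2 := (uniq _ (inv_mem hcc2) _ ha _ (mem_cj' hcc2) _ hau h).1
      rw [inv_eq_iff_eq_inv] at h2
      rw [h2]
      exact inv_eq_of_mul_eq_one_left haa
  have hc4 : ∀ c ∈ L, c * z = z * c → c ^ 4 = 1 := by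
    intro c hc hcc
    have e : c ^ 4 = (c * c) * (c * c) := by rw [pow_succ, pow_succ, pow_two]; group
    rw [e]
    rcases hsqc c hc hcc with h | h
    · rw [h, mul_one]
    · rw [h, haa]
  refine ⟨a, ha, hzz, ?_, ?_⟩
  · obtain ⟨R, hR, -⟩ := exists_sylow_comp H hz hL
    have hT : IsPGroup 2 ((Subgroup.centralizer ({a} : Set G)).subgroupOf L) := by
      rintro ⟨⟨c, hc⟩, hc'⟩
      refine ⟨2, ?_⟩
      apply Subtype.ext; apply Subtype.ext
      show c ^ (2 ^ 2) = 1
      exact hc4 c hc ((hcz c hc).2 (Subgroup.mem_centralizer_singleton_iff.1 (Subgroup.mem_subgroupOf.1 hc')))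
    have hle : (R : Subgroup L) ≤ (Subgroup.centralizer ({a} : Set G)).subgroupOf L := by
      intro x hx
      rw [Subgroup.mem_subgroupOf, Subgroup.mem_centralizer_singleton_iff]
      exact (hcz x x.2).1 (hR x hx)
    have hRT := R.is_maximal' hT hle
    refine ⟨R, hRT.symm, ?_⟩
    rw [Subgroup.map_le_iff_le_comap]
    have hsq : ∀ x : (R : Subgroup L), x * x ∈ (Subgroup.zpowers a).comap ((L.subtype).comp (R : Subgroup ↥L).subtype) := by
      intro x
      rw [Subgroup.mem_comap]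
      show (((x : L) : G) * ((x : L) : G)) ∈ Subgroup.zpowers a
      rcases hsqc _ (x : L).2 (hR _ x.2) with h | h
      · rw [h]; exact one_mem _
      · rw [h]; exact Subgroup.mem_zpowers a
    apply H65.Frat.frattini_le_of (p := 2)
    · intro x
      rw [pow_two]; exact hsq x
    · rw [commutator_def, Subgroup.commutator_le]
      intro x _ y _
      rw [commutatorElement_def]
      exact H91.XSExtra.comm_mem_of_sq hsq x y
  · intro hQ
    obtain ⟨c, hc, hcz', hc1, hca⟩ := exists_elt H hz hL a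
    -- `c` lies in `Q`
    have hcQ : c ∈ Q := by
      rw [hQ]
      have hcC : c ∈ Subgroup.centralizer ({z} : Set G) := Subgroup.mem_centralizer_singleton_iff.2 hcz'
      have hln : (layer G).Normal := by
        have := H26.Components.layer_characteristic (G := G)
        infer_instance
      have hle : (layer G).subgroupOf (Subgroup.centralizer ({z} : Set G)) ≤ pCore 2 ↥(Subgroup.centralizer ({z} : Set G)) := by
        apply H1.Cores.le_pCore inferInstance
        rintro ⟨⟨x, hx⟩, hx'⟩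
        refine ⟨2, ?_⟩
        apply Subtype.ext; apply Subtype.ext
        show x ^ (2 ^ 2) = 1
        have hxl : x ∈ layer G := Subgroup.mem_subgroupOf.1 hx'
        have hxz : x * z = z * x := Subgroup.mem_centralizer_singleton_iff.1 hx
        rw [← hsup, H26.Basic.mem_sup_of_commutator_eq_bot hcb] at hxl
        obtain ⟨l, hl, m, hm, rfl⟩ := hxl
        have hm' := hm
        rw [mem_cj] at hm'
        have hlm : Commute l m := cLu l hl m hm
        have h1 : (l * a * l⁻¹) * (m * (u * a * u⁻¹) * m⁻¹) = a * (u * a * u⁻¹) := by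
          have hma : Commute m a := (cLu a ha m hm).symm
          calc (l * a * l⁻¹) * (m * (u * a * u⁻¹) * m⁻¹) = l * a * (l⁻¹ * m) * (u * a * u⁻¹) * m⁻¹ := by group
            _ = l * a * (m * l⁻¹) * (u * a * u⁻¹) * m⁻¹ := by rw [hlm.inv_left.eq]
            _ = l * (a * m) * (l⁻¹ * (u * a * u⁻¹)) * m⁻¹ := by group
            _ = l * (m * a) * ((u * a * u⁻¹) * l⁻¹) * m⁻¹ := by rw [hma.eq, cLu _ (inv_mem hl) _ hau]
            _ = (l * m) * (a * (u * a * u⁻¹)) * (m * l)⁻¹ := by group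
            _ = (l * m) * z * (l * m)⁻¹ := by rw [← hzz, hlm.eq]
            _ = a * (u * a * u⁻¹) := by rw [hxz, mul_inv_cancel_right, hzz]
        have hlaL : l * a * l⁻¹ ∈ L := mul_mem (mul_mem hl ha) (inv_mem hl)
        have hmaL : m * (u * a * u⁻¹) * m⁻¹ ∈ cj u L := mul_mem (mul_mem hm hau) (inv_mem hm)
        obtain ⟨h2, h3⟩ := uniq _ hlaL _ ha _ hmaL _ hau h1
        have hl4 : l ^ 4 = 1 := hc4 l hl ((hcz l hl).2 (mul_inv_eq_iff_eq_mul.1 h2))
        have hm4 : (u⁻¹ * m * u) ^ 4 = 1 := by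
          apply hc4 _ hm'
          rw [hcz _ hm']
          rw [mul_inv_eq_iff_eq_mul] at h3
          calc u⁻¹ * m * u * a = u⁻¹ * (m * (u * a * u⁻¹)) * u := by group
            _ = u⁻¹ * ((u * a * u⁻¹) * m) * u := by rw [h3]
            _ = _ := by group
        have hm4' : m ^ 4 = 1 := by
          have e : m = u * (u⁻¹ * m * u) * u⁻¹ := by group
          rw [e, conj_pow, hm4]; group
        rw [show 2 ^ 2 = 4 from rfl, hlm.mul_pow, hl4, hm4', mul_one]
      exact ⟨⟨c, hcC⟩, hle (Subgroup.mem_subgroupOf.2 (H26.Components.le_layer hL hc)), rfl⟩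
    have hcu := mem_cj' (g := u) hc
    have hci := inv_mem hc
    have hcomm : u * c * u⁻¹ * c⁻¹ = c⁻¹ * (u * c * u⁻¹) := (cLu _ hci _ hcu).symm
    rcases H.comm u hu c hcQ with h | h
    · rw [hcomm] at h
      have h2 := (uniq _ hci _ (one_mem _) _ hcu _ (one_mem _) (by rw [h, mul_one])).1
      exact hc1 (inv_eq_one.1 h2)
    · rw [hcomm, hzz] at h
      have h2 := (uniq _ hci _ ha _ hcu _ hau h).1
      apply hca
      rw [inv_eq_iff_eq_inv] at h2
      rw [h2]
      exact inv_eq_of_mul_eq_one_left haa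

end H91.LargeLayer
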