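import Cfsg.Agent.Lib.H91.MonCross
import Cfsg.Agent.Lib.H91.XSExtra

/-!
Groups of Monster type: the quotient of `C(t) ∩ C(z)` by `⟨t⟩` for an involution `t ∈ Q` of minimal type.
-/

set_option autoImplicit false

namespace H91.BabyCore

open Cfsg H8.GolayCode H91.MonsterForm H91.LargePair H91.Setting H91.InvForm H91.LeechTools H91.MonData H91.Co2Core
  H91.MonType H91.MonPair H91.MonConj H91.MonCross

section form

variable {q : leechLattice → ZMod 2} {b : leechLattice → leechLattice → ZMod 2}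

theorem q_iff (L : LF) (F : InvForm q b) (hne : ∃ v, q v ≠ 0) (v : leechLattice) :
    q v = 0 ↔ (32 : ℤ) ∣ sqNorm (v : GolayPt → ℤ) := by
  obtain ⟨w, u, hw, hn⟩ := L.short v
  have h1 : q v = q w := by rw [hw, q_add_double F]
  have h2 : (32 : ℤ) ∣ sqNorm (v : GolayPt → ℤ) ↔ (32 : ℤ) ∣ sqNorm (w : GolayPt → ℤ) := by
    have e1 : sqNorm (v : GolayPt → ℤ) = sqNorm (w : GolayPt → ℤ) + 4 * sqNorm (u : GolayPt → ℤ) + 4 * dot w u := by
      rw [hw, norm_add, norm_add, dot_self, dot_add_right]; ring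
    have e2 := sixteen_dvd u
    have e3 := eight_dvd w u
    rw [e1]
    omega
  rw [h1, h2]
  rcases norm_cases hn with h3 | h3 | h3 | h3
  · rw [h3, F.qzero]
    simp [sqNorm]
  · rw [q32 L F h3, h3]; simp
  · rw [q48 L F hne h3, h3]
    constructor
    · intro h; exact absurd h (by decide)
    · intro h; norm_num at h
  · rw [q64 L F h3, h3]; norm_num

theorem b_iff (L : LF) (F : InvForm q b) (hne : ∃ v, q v ≠ 0) (v w : leechLattice) :
    b v w = 0 ↔ (16 : ℤ) ∣ dot v w := by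
  have h1 := F.b_eq v w
  have h2 := q_iff L F hne (v + w)
  have h3 := q_iff L F hne v
  have h4 := q_iff L F hne w
  rw [norm_add] at h2
  have e1 := sixteen_dvd v
  have e2 := sixteen_dvd w
  have e3 := eight_dvd v w
  have key : ∀ a c d : ZMod 2, a + c + d = 0 ↔ ((a = 0 ↔ c = 0) ↔ d = 0) := by decide
  rw [h1, key, h2, h3, h4]
  omega

end form

/-- an element of `Co0` fixing a minimal vector and centralising its perp mod 2 is trivial -/
theorem eq_one_of_perp (L : LF) {u : leechLattice} (hu : sqNorm (u : GolayPt → ℤ) = 32) {γ : Co0} (hγ : γ • u = u)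
    (h : ∀ w : leechLattice, sqNorm (w : GolayPt → ℤ) = 32 → dot u w = 0 →
      (∃ x, γ • w = w + (x + x)) ∨ ∃ x, γ • w = w + u + (x + x)) : γ = 1 := by
  have h0 : (none : GolayPt) ≠ pt 0 := by decide
  have h1 : ∀ w : leechLattice, sqNorm (w : GolayPt → ℤ) = 32 → dot u w = 0 → γ • w = w ∨ γ • w = -w := by
    intro w hw hd
    have hn : sqNorm ((γ • w : leechLattice) : GolayPt → ℤ) = 32 := by rw [H91.LeechTools.norm_smul, hw]
    rcases h w hw hd with ⟨x, hx⟩ | ⟨x, hx⟩
    · exact eq_of_congr32 hn hw hx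
    · exfalso
      have hn2 : sqNorm ((w + u : leechLattice) : GolayPt → ℤ) = 64 := by
        rw [norm_add, hw, hu, dot_comm, hd]; norm_num
      have h3 : ((γ • w : leechLattice) : GolayPt → ℤ) - ((w + u : leechLattice) : GolayPt → ℤ) = 2 • (x : GolayPt → ℤ) := by
        rw [hx]
        funext k
        simp only [AddSubgroup.coe_add, Pi.add_apply, Pi.sub_apply, Pi.smul_apply, nsmul_eq_mul]
        push_cast
        ring
      obtain ⟨h4, -, -⟩ := H93.LeechCong.key (w + u).2 (by rw [hn]; norm_num) (by rw [hn2]) ⟨_, x.2, h3⟩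
        (fun h => by
          have := congrArg sqNorm h
          rw [hn, hn2] at this; norm_num at this)
        (fun h => by
          have := congrArg sqNorm h
          rw [H9.Leech.sqNorm_neg, hn, hn2] at this; norm_num at this)
      rw [hn] at h4; norm_num at h4
  obtain ⟨k, hk⟩ := L.h32 u (pl none (pt 0)) hu (norm_pl h0)
  have hk' : k⁻¹ • pl none (pt 0) = u := by rw [inv_smul_eq_iff, hk]
  have h2 : k * γ * k⁻¹ = 1 := by
    apply eq_one_of_fix
    · rw [mul_smul, mul_smul, hk', hγ, hk]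
    · intro w hw hd
      have h3 := h1 (k⁻¹ • w) (by rw [H91.LeechTools.norm_smul, hw]) (by
        have := dot_smul k u (k⁻¹ • w)
        rw [hk, smul_inv_smul] at this
        rw [← this]; exact hd)
      rw [mul_smul, mul_smul]
      rcases h3 with h3 | h3
      · left; rw [h3, smul_inv_smul]
      · right; rw [h3, H91.LeechTools.smul_neg, smul_inv_smul]
  calc γ = k⁻¹ * (k * γ * k⁻¹) * k := by group
    _ = 1 := by rw [h2]; group

variable {G : Type*} [Group G] {z : G} {Q : Subgroup G} {Lab : leechLattice → G → Prop}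
    {R : G → Co0 → Prop} {q : leechLattice → ZMod 2} {b : leechLattice → leechLattice → ZMod 2}

/-- `C(t) ∩ C(z)` -/
def D (t z : G) : Subgroup G := Subgroup.centralizer {t} ⊓ Subgroup.centralizer {z}

theorem mem_D {t z x : G} : x ∈ D t z ↔ x * t = t * x ∧ x * z = z * x := by
  rw [D, Subgroup.mem_inf, Subgroup.mem_centralizer_singleton_iff, Subgroup.mem_centralizer_singleton_iff]

/-- the normalised element of `Co0` -/
theorem exists_fix (M : MonData z Q Lab R q b) {t : G} {u : leechLattice} (htu : Lab u t)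
    (hu : sqNorm (u : GolayPt → ℤ) = 32) {x : G} (hx : x ∈ D t z) : ∃ γ, R x γ ∧ γ • u = u := by
  rw [mem_D] at hx
  obtain ⟨γ, hγ⟩ := M.R_ex' hx.2
  have h1 := M.R_conj hγ htu
  have h2 : x * t * x⁻¹ = t := by rw [hx.1]; group
  rw [h2] at h1
  obtain ⟨w, hw⟩ := lab_congr M h1 htu
  rcases eq_of_congr32 (by rw [H91.LeechTools.norm_smul, hu]) hu hw with h3 | h3
  · exact ⟨γ, hγ, h3⟩
  · exact ⟨neg * γ, M.R_neg hγ, by rw [mul_smul, h3, neg_smul, neg_neg]⟩

theorem neg_fix {u : leechLattice} (hu : sqNorm (u : GolayPt → ℤ) = 32) : neg • u ≠ u := by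
  intro h
  rw [neg_smul] at h
  have h1 : u + u = 0 := by
    nth_rewrite 1 [← h]
    exact neg_add_cancel u
  have h2 : sqNorm ((u + u : leechLattice) : GolayPt → ℤ) = 4 * sqNorm (u : GolayPt → ℤ) := by
    rw [norm_add, dot_self]; ring
  rw [h1, hu] at h2
  simp [sqNorm] at h2

theorem fix_unique (M : MonData z Q Lab R q b) {u : leechLattice} (hu : sqNorm (u : GolayPt → ℤ) = 32) {x : G}
    {γ δ : Co0} (h1 : R x γ) (h2 : R x δ) (h3 : γ • u = u) (h4 : δ • u = u) : γ = δ := by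
  have h5 := R_unique M h1 h2
  rw [QuotientGroup.eq, mem_center_iff] at h5
  rcases h5 with h5 | h5
  · rw [inv_mul_eq_one] at h5; exact h5
  · exfalso
    rw [inv_mul_eq_iff_eq_mul] at h5
    rw [h5, ← neg_central, mul_smul, h3] at h4
    exact neg_fix hu h4

/-- the kernel -/
theorem mem_Q_iff (M : MonData z Q Lab R q b) {u : leechLattice} (hu : sqNorm (u : GolayPt → ℤ) = 32) {x : G}
    {γ : Co0} (h1 : R x γ) (h3 : γ • u = u) : x ∈ Q ↔ γ = 1 := by
  rw [M.R_Q h1]
  constructor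
  · rintro (h | h)
    · exact h
    · exfalso
      rw [h] at h3
      exact neg_fix hu h3
  · exact Or.inl

section baby

variable {t : G} {u : leechLattice} {K : Type*} [Group K] (ρ : D t z →* K)

/-- the image of `Q ∩ C(t)` -/
def Qb (Q : Subgroup G) (ρ : D t z →* K) : Subgroup K := (Q.subgroupOf (D t z)).map ρ

variable (hsurj : Function.Surjective ρ) (hker : ∀ x : D t z, ρ x = 1 ↔ (x : G) = 1 ∨ (x : G) = t)

include hker in
theorem mem_Qb (M : MonData z Q Lab R q b) (ht : t ∈ Q) (x : D t z) : ρ x ∈ Qb Q ρ ↔ (x : G) ∈ Q := by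
  constructor
  · rintro ⟨a, ha, hax⟩
    have h1 : ρ (a⁻¹ * x) = 1 := by rw [map_mul, map_inv, hax, inv_mul_cancel]
    have h2 : (x : G) = a * ((a⁻¹ * x : D t z) : G) := by
      show (x : G) = a * ((a : G)⁻¹ * x)
      group
    rw [h2]
    rcases (hker _).1 h1 with h | h
    · rw [h, mul_one]; exact ha
    · rw [h]; exact Q.mul_mem ha ht
  · intro h
    exact ⟨x, h, rfl⟩

include hsurj in
theorem Qb_normal (M : MonData z Q Lab R q b) : (Qb Q ρ).Normal := by
  constructor
  rintro _ ⟨a, ha, rfl⟩ g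
  obtain ⟨x, rfl⟩ := hsurj g
  refine ⟨x * a * x⁻¹, ?_, by simp⟩
  exact M.pack.N x (mem_D.1 x.2).2 a ha

theorem Qb_isPGroup [Finite G] (M : MonData z Q Lab R q b) : IsPGroup 2 (Qb Q ρ) := by
  have h1 : IsPGroup 2 Q := isPGroup_of_card (n := 25) M.card
  apply IsPGroup.map
  intro x
  obtain ⟨k, hk⟩ := h1 ⟨x.1, x.2⟩
  refine ⟨k, ?_⟩
  apply Subtype.ext
  apply Subtype.ext
  have := congrArg Subtype.val hk
  simpa using this

theorem zD (M : MonData z Q Lab R q b) (ht : t ∈ Q) : z ∈ D t z :=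
  mem_D.2 ⟨(M.pack.zc t ht).symm, rfl⟩

include hker in
/-- elementwise extraspecial structure of `Qb` -/
theorem Qb_XS (M : MonData z Q Lab R q b) (ht : t ∈ Q) (ht1 : t ≠ 1) (htz : t ≠ z) (htt : t * t = 1) :
    XS (Qb Q ρ) ⟨ρ ⟨z, zD M ht⟩, (mem_Qb ρ hker M ht _).2 M.pack.zQ⟩ := by
  have hz1 : ρ ⟨z, zD M ht⟩ ≠ 1 := by
    intro h
    rcases (hker _).1 h with h' | h'
    · exact M.pack.z1 h'
    · exact htz h'.symm
  have hlift : ∀ x : Qb Q ρ, ∃ a : D t z, (a : G) ∈ Q ∧ ρ a = x := by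
    rintro ⟨_, a, ha, rfl⟩
    exact ⟨a, ha, rfl⟩
  refine ⟨?_, ?_, ?_, ?_, ?_, ?_⟩
  · intro h
    exact hz1 (congrArg Subtype.val h)
  · apply Subtype.ext
    show ρ ⟨z, zD M ht⟩ * ρ ⟨z, zD M ht⟩ = 1
    rw [← map_mul]
    have : (⟨z, zD M ht⟩ : D t z) * ⟨z, zD M ht⟩ = 1 := Subtype.ext M.pack.zz
    rw [this, map_one]
  · intro x
    obtain ⟨a, ha, hax⟩ := hlift x
    apply Subtype.ext
    show (x : K) * ρ ⟨z, zD M ht⟩ = ρ ⟨z, zD M ht⟩ * x
    rw [← hax, ← map_mul, ← map_mul]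
    congr 1
    exact Subtype.ext (mem_D.1 a.2).2
  · intro x
    constructor
    · intro hx
      rw [Subgroup.mem_center_iff] at hx
      obtain ⟨a, ha, hax⟩ := hlift x
      have hA : ∀ c ∈ Q, c * t = t * c → c * (a : G) = a * c := by
        intro c hc hct
        have hcD : c ∈ D t z := mem_D.2 ⟨hct, M.pack.zc c hc⟩
        have h1 := hx ⟨ρ ⟨c, hcD⟩, (mem_Qb ρ hker M ht _).2 hc⟩
        have h2 : ρ ⟨c, hcD⟩ * ρ a = ρ a * ρ ⟨c, hcD⟩ := by
          rw [hax]; exact congrArg Subtype.val h1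
        rw [← map_mul, ← map_mul] at h2
        have h3 : ρ ((⟨c, hcD⟩ * a) * (a * ⟨c, hcD⟩)⁻¹) = 1 := by
          rw [map_mul, map_inv, h2, mul_inv_cancel]
        have h4 : (((⟨c, hcD⟩ * a) * (a * ⟨c, hcD⟩)⁻¹ : D t z) : G) = c * a * c⁻¹ * (a : G)⁻¹ := by
          show (c * (a : G)) * ((a : G) * c)⁻¹ = _
          group
        rcases (hker _).1 h3 with h5 | h5
        · rw [h4] at h5
          rw [mul_inv_eq_one, mul_inv_eq_iff_eq_mul] at h5; exact h5
        · exfalso
          rw [h4] at h5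
          rcases M.pack.comm c hc a ha with h6 | h6
          · rw [h6] at h5; exact ht1 h5.symm
          · rw [h6] at h5; exact htz h5.symm
      have h5 := M.pack.double_cen ht ht1 htz ha hA
      have h6 : (a : G) = 1 ∨ (a : G) = t ∨ ((⟨z, zD M ht⟩⁻¹ * a : D t z) : G) = 1 ∨
          ((⟨z, zD M ht⟩⁻¹ * a : D t z) : G) = t := by
        rcases h5 with h | h | h | h
        · exact Or.inl h
        · right; right; left
          show z⁻¹ * (a : G) = 1
          rw [h, inv_mul_cancel]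
        · exact Or.inr (Or.inl h)
        · right; right; right
          show z⁻¹ * (a : G) = t
          rw [h, M.pack.zc t ht]; group
      rcases h6 with h | h | h | h
      · left; apply Subtype.ext; rw [← hax]; exact (hker a).2 (Or.inl h)
      · left; apply Subtype.ext; rw [← hax]; exact (hker a).2 (Or.inr h)
      · right; apply Subtype.ext
        have := (hker _).2 (Or.inl h)
        rw [map_mul, map_inv, inv_mul_eq_one] at this
        rw [← hax]; exact this.symm
      · right; apply Subtype.ext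
        have := (hker _).2 (Or.inr h)
        rw [map_mul, map_inv, inv_mul_eq_one] at this
        rw [← hax]; exact this.symm
    · rintro (rfl | rfl)
      · exact Subgroup.one_mem _
      · rw [Subgroup.mem_center_iff]
        intro x
        obtain ⟨a, ha, hax⟩ := hlift x
        apply Subtype.ext
        show (x : K) * ρ ⟨z, zD M ht⟩ = ρ ⟨z, zD M ht⟩ * x
        rw [← hax, ← map_mul, ← map_mul]
        congr 1
        exact Subtype.ext (mem_D.1 a.2).2
  · intro x
    obtain ⟨a, ha, hax⟩ := hlift x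
    rcases M.pack.sq a ha with h | h
    · left; apply Subtype.ext
      show (x : K) * x = 1
      rw [← hax, ← map_mul]
      have : a * a = 1 := Subtype.ext h
      rw [this, map_one]
    · right; apply Subtype.ext
      show (x : K) * x = ρ ⟨z, zD M ht⟩
      rw [← hax, ← map_mul]
      congr 1
      exact Subtype.ext h
  · intro x y
    obtain ⟨a, ha, hax⟩ := hlift x
    obtain ⟨c, hc, hcy⟩ := hlift y
    rcases M.pack.comm c hc a ha with h | h
    · left; apply Subtype.ext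
      show (y : K) * x = x * y
      rw [← hax, ← hcy, ← map_mul, ← map_mul]
      congr 1
      apply Subtype.ext
      show (c : G) * a = a * c
      rw [mul_inv_eq_one, mul_inv_eq_iff_eq_mul] at h; exact h
    · right; apply Subtype.ext
      show (y : K) * x = ρ ⟨z, zD M ht⟩ * (x * y)
      rw [← hax, ← hcy, ← map_mul, ← map_mul, ← map_mul]
      congr 1
      apply Subtype.ext
      show (c : G) * a = z * (a * c)
      rw [mul_inv_eq_iff_eq_mul, mul_inv_eq_iff_eq_mul] at h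
      rw [h]; group

include hker in
theorem Qb_extraspecial [Finite G] [Finite K] (M : MonData z Q Lab R q b) (ht : t ∈ Q) (ht1 : t ≠ 1) (htz : t ≠ z)
    (htt : t * t = 1) : IsExtraspecial 2 (Qb Q ρ) := by
  apply H91.XSExtra.extraspecial_of_XS (Qb_isPGroup ρ M) (Qb_XS ρ hker M ht ht1 htz htt)
  obtain ⟨a, ha, c, hc, hat, hct, hac⟩ := M.pack.exists_noncomm ht ht1 htz (by rw [M.card]; norm_num)
  have haD : a ∈ D t z := mem_D.2 ⟨hat, M.pack.zc a ha⟩
  have hcD : c ∈ D t z := mem_D.2 ⟨hct, M.pack.zc c hc⟩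
  refine ⟨⟨ρ ⟨a, haD⟩, (mem_Qb ρ hker M ht _).2 ha⟩, ⟨ρ ⟨c, hcD⟩, (mem_Qb ρ hker M ht _).2 hc⟩, ?_⟩
  intro h
  have h2 : ρ ⟨a, haD⟩ * ρ ⟨c, hcD⟩ = ρ ⟨c, hcD⟩ * ρ ⟨a, haD⟩ := congrArg Subtype.val h
  rw [← map_mul, ← map_mul] at h2
  have h3 : ρ ((⟨a, haD⟩ * ⟨c, hcD⟩) * (⟨c, hcD⟩ * ⟨a, haD⟩)⁻¹) = 1 := by
    rw [map_mul, map_inv, h2, mul_inv_cancel]
  have h4 : ((((⟨a, haD⟩ * ⟨c, hcD⟩) * (⟨c, hcD⟩ * ⟨a, haD⟩)⁻¹ : D t z)) : G) = z := by
    show (a * c) * (c * a)⁻¹ = z
    rw [hac]; group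
  rcases (hker _).1 h3 with h5 | h5
  · rw [h4] at h5; exact M.pack.z1 h5
  · rw [h4] at h5; exact htz h5.symm

include hker in
theorem card_Qb [Finite G] (M : MonData z Q Lab R q b) (ht : t ∈ Q) (ht1 : t ≠ 1) (htz : t ≠ z) (htt : t * t = 1) :
    Nat.card (Qb Q ρ) = 2 ^ (2 * 11 + 1) := by
  have h1 := card_centralizer M.pack ht ht1 htz
  rw [M.card] at h1
  let f : (Q ⊓ Subgroup.centralizer ({t} : Set G) : Subgroup G) →* K :=
    { toFun := fun x => ρ ⟨x.1, mem_D.2 ⟨Subgroup.mem_centralizer_singleton_iff.1 x.2.2, M.pack.zc _ x.2.1⟩⟩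
      map_one' := by
        have : (⟨((1 : (Q ⊓ Subgroup.centralizer ({t} : Set G) : Subgroup G)) : G), mem_D.2 ⟨by simp, by simp⟩⟩ : D t z) = 1 := rfl
        exact (congrArg ρ this).trans (map_one ρ)
      map_mul' := fun x y => by
        rw [← map_mul]; rfl }
  have h2 : Nat.card f.range * Nat.card f.ker =
      Nat.card (Q ⊓ Subgroup.centralizer ({t} : Set G) : Subgroup G) := by
    rw [← Subgroup.index_ker, mul_comm, Subgroup.card_mul_index]
  have h3 : f.range = Qb Q ρ := by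
    ext y
    constructor
    · rintro ⟨x, rfl⟩
      exact ⟨⟨x.1, mem_D.2 ⟨Subgroup.mem_centralizer_singleton_iff.1 x.2.2, M.pack.zc _ x.2.1⟩⟩, x.2.1, rfl⟩
    · rintro ⟨x, hx, rfl⟩
      exact ⟨⟨x.1, hx, Subgroup.mem_centralizer_singleton_iff.2 (mem_D.1 x.2).1⟩, rfl⟩
  have h4 : Nat.card f.ker = 2 := by
    rw [Nat.card_eq_two_iff' (1 : f.ker)]
    have htm : t ∈ (Q ⊓ Subgroup.centralizer ({t} : Set G) : Subgroup G) :=
      ⟨ht, Subgroup.mem_centralizer_singleton_iff.2 rfl⟩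
    refine ⟨⟨⟨t, htm⟩, (hker _).2 (Or.inr rfl)⟩, ?_, ?_⟩
    · intro h
      have := congrArg (fun x : f.ker => ((x : (Q ⊓ Subgroup.centralizer ({t} : Set G) : Subgroup G)) : G)) h
      exact ht1 this
    · rintro ⟨x, hx⟩ hx1
      rcases (hker _).1 hx with h | h
      · exfalso; apply hx1
        apply Subtype.ext; apply Subtype.ext; exact h
      · apply Subtype.ext; apply Subtype.ext; exact h
  rw [h3, h4] at h2
  omega

end baby

end H91.BabyCore
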