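import Cfsg.Agent.Lib.H91.FY24
import Cfsg.Agent.Lib.H92.Exact
import Cfsg.Agent.Lib.H92.Width
import Cfsg.Agent.Lib.H92.Simple
import Cfsg.Agent.Lib.H26.GenFitting

/-!
Groups of type `M(24)`: order, layer, centralizers of transpositions.
-/

set_option autoImplicit false
set_option maxRecDepth 100000

namespace H91.FY
open Cfsg H92.Tri H92.Lev H92.Geo H91.Crd Cfsg.Spor

theorem even_rels : ∀ r ∈ H93.TCE24A.rels, r.length % 2 = 0 := by decide +kernel

/-- the sign homomorphism -/
theorem exists_sign24 {G : Type*} [Group G] {L : Fi24.Gen → G} (h : H93.E24.Rel L)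
    (hgen : Subgroup.closure (Set.range L) = ⊤) (hcard : 2510411418381323442585600 ≤ Nat.card G) :
    ∃ σ : G →* ℤˣ, ∀ x, σ (L x) = -1 := by
  obtain ⟨e, he⟩ := h.exists_equiv hgen hcard
  obtain ⟨s, hs⟩ := H93.E24.exists_hom (K := ℤˣ) (fun _ => -1) (by
    intro r hr
    rw [List.map_const', List.prod_replicate]
    have h1 := even_rels r hr
    exact Even.neg_one_pow (Nat.even_iff.2 h1))
  refine ⟨s.comp e.symm.toMonoidHom, fun x => ?_⟩
  rw [MonoidHom.comp_apply, ← he x]
  show s (e.symm (e (H93.E24.gE (H93.E24.toLt x)))) = -1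
  rw [MulEquiv.symm_apply_apply, hs]

variable {G : Type*} [Group G] {D : Set G}

/-- the normal subgroup generated by the products of two members -/
def ev (D : Set G) : Subgroup G := Subgroup.closure {z | ∃ x ∈ D, ∃ y ∈ D, z = x * y}

theorem ev_normal (hcl : ∀ g : G, ∀ d ∈ D, g * d * g⁻¹ ∈ D) : (ev D).Normal := by
  constructor
  intro n hn g
  have h1 : ev D ≤ (ev D).comap (MulAut.conj g).toMonoidHom := by
    conv_lhs => rw [ev]
    rw [Subgroup.closure_le]
    rintro _ ⟨x, hx, y, hy, rfl⟩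
    show g * (x * y) * g⁻¹ ∈ ev D
    have e : g * (x * y) * g⁻¹ = (g * x * g⁻¹) * (g * y * g⁻¹) := by group
    rw [e]
    exact Subgroup.subset_closure ⟨_, hcl g x hx, _, hcl g y hy, rfl⟩
  exact h1 hn

theorem ev_or (hT : Tri D) (hcl : ∀ g : G, ∀ d ∈ D, g * d * g⁻¹ ∈ D) (hgen : Subgroup.closure D = ⊤) {a : G} (ha : a ∈ D) (g : G) :
    g ∈ ev D ∨ a * g ∈ ev D := by
  haveI := ev_normal hcl
  have hg : g ∈ Subgroup.closure D := by rw [hgen]; trivial
  have aa := hT.sq a ha
  have ai := inv_eq hT ha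
  induction hg using Subgroup.closure_induction with
  | mem x hx => exact Or.inr (Subgroup.subset_closure ⟨a, ha, x, hx, rfl⟩)
  | one => exact Or.inl (ev D).one_mem
  | mul x y _ _ hx hy =>
    rcases hx with hx | hx <;> rcases hy with hy | hy
    · exact Or.inl ((ev D).mul_mem hx hy)
    · right
      have e : a * (x * y) = (a * x * a⁻¹) * (a * y) := by group
      rw [e]
      exact (ev D).mul_mem ((ev_normal hcl).conj_mem x hx a) hy
    · right
      rw [← mul_assoc]; exact (ev D).mul_mem hx hy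
    · left
      have h1 := (ev_normal hcl).conj_mem _ hx a
      have e : x * y = (a * (a * x) * a⁻¹) * (a * y) := by
        have : a * (a * x) * a⁻¹ * (a * y) = (a * a) * x * y := by group
        rw [this, aa, one_mul]
      rw [e]
      exact (ev D).mul_mem h1 hy
  | inv x _ hx =>
    rcases hx with hx | hx
    · exact Or.inl ((ev D).inv_mem hx)
    · right
      have h1 := (ev_normal hcl).conj_mem _ ((ev D).inv_mem hx) a
      have e : a * x⁻¹ = a * (a * x)⁻¹ * a⁻¹ := by
        rw [mul_inv_rev]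
        have : a * (x⁻¹ * a⁻¹) * a⁻¹ = a * x⁻¹ * (a⁻¹ * a⁻¹) := by group
        rw [this, ai, aa, mul_one]
      rw [e]; exact h1

theorem layer24 [Finite G] {n : ℕ} (hL : LG (n + 1) D) (hcl : ∀ g : G, ∀ d ∈ D, g * d * g⁻¹ ∈ D)
    (hgen : Subgroup.closure D = ⊤) (hcen : ∀ ζ : G, (∀ y ∈ D, Commute ζ y) → ζ = 1) (σ : G →* ℤˣ) (hσ : ∀ x ∈ D, σ x = -1) :
    (layer G).index = 2 := by
  have hT := hL.lev.tri
  obtain ⟨a, ma⟩ := hL.lev.nonempty
  have hker : σ.ker ≤ ev D := by
    intro g hg
    rcases ev_or hT hcl hgen ma g with h | h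
    · exact h
    · exfalso
      have h1 : ev D ≤ σ.ker := by
        rw [ev, Subgroup.closure_le]
        rintro _ ⟨x, hx, y, hy, rfl⟩
        rw [SetLike.mem_coe, MonoidHom.mem_ker, map_mul, hσ x hx, hσ y hy]; rfl
      have h2 := h1 h
      rw [MonoidHom.mem_ker, map_mul, hσ a ma, MonoidHom.mem_ker.1 hg, mul_one] at h2
      exact absurd h2 (by decide)
  have hmin : ∀ M : Subgroup G, M.Normal → M ≠ ⊥ → σ.ker ≤ M := by
    intro M hM hne
    obtain ⟨⟨m, hm⟩, hm1'⟩ := Subgroup.ne_bot_iff_exists_ne_one.1 hne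
    have hm1 : m ≠ 1 := fun e => hm1' (Subtype.ext e)
    have : ∃ d ∈ D, m * d * m⁻¹ ≠ d := by
      by_contra hcon
      push Not at hcon
      apply hm1
      apply hcen
      intro y hy
      have := hcon y hy
      show m * y = y * m
      calc m * y = (m * y * m⁻¹) * m := by group
        _ = y * m := by rw [this]
    obtain ⟨d, hd, hmd⟩ := this
    have h1 := H92.Simple.even_le hL M (fun g _ x hx => hM.conj_mem x hx g) hm hd (hcl m d hd) hmd
    refine hker.trans ?_
    rw [ev, Subgroup.closure_le]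
    rintro _ ⟨x, hx, y, hy, rfl⟩
    exact h1 x hx y hy
  have h1 : layer G ≤ σ.ker := by
    rw [← H26.Components.commutator_layer_self]
    refine (Subgroup.commutator_mono le_top le_top).trans ?_
    exact Abelianization.commutator_subset_ker σ
  have h2 : layer G ≠ ⊥ := by
    intro hbot
    have h3 : generalizedFittingSubgroup G = fittingSubgroup G := by
      rw [generalizedFittingSubgroup, hbot, bot_sup_eq]
    have h4 : fittingSubgroup G ≠ ⊥ := by
      intro h5
      have h6 := H26.Components.centralizer_gFitting_le (G := G)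
      rw [h3, h5] at h6
      have h7 : a ∈ Subgroup.centralizer ((⊥ : Subgroup G) : Set G) := by
        rw [Subgroup.mem_centralizer_iff]
        intro x hx
        rw [SetLike.mem_coe, Subgroup.mem_bot] at hx
        rw [hx, one_mul, mul_one]
      exact hL.lev.ne_one ma (Subgroup.mem_bot.1 (h6 h7))
    have h5 := hmin _ inferInstance h4
    obtain ⟨b, mb, hab⟩ := hL.lev.partner ma
    obtain ⟨c, mc, hca, -, hac, -⟩ := hL.lev.common_nbr ma ma (Commute.refl a)
    have k1 : a * c ∈ σ.ker := by rw [MonoidHom.mem_ker, map_mul, hσ a ma, hσ c mc]; rfl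
    have k2 : a * b ∈ σ.ker := by rw [MonoidHom.mem_ker, map_mul, hσ a ma, hσ b mb]; rfl
    haveI : Fact (Nat.Prime 2) := ⟨Nat.prime_two⟩
    haveI : Fact (Nat.Prime 3) := ⟨Nat.prime_three⟩
    have o2 : orderOf (a * c) = 2 := by
      apply orderOf_eq_prime
      · exact sq_one hT ma mc hac.symm
      · intro h
        apply hca
        have := eq_inv_of_mul_eq_one_right h
        rw [inv_eq hT ma] at this
        exact this
    have o3 : orderOf (a * b) = 3 := by
      apply orderOf_eq_prime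
      · exact cube_one hT ma mb hab
      · intro h
        apply hab
        have := eq_inv_of_mul_eq_one_right h
        rw [inv_eq hT ma] at this
        rw [this]
    have h6 : pCore 2 G ≠ ⊥ := by
      intro h7
      have h8 := H1.Cores.not_dvd_relIndex_pCore_fittingSubgroup (G := G) 2
      rw [h7, Subgroup.relIndex_bot_left] at h8
      apply h8
      have h9 : orderOf (⟨a * c, h5 k1⟩ : fittingSubgroup G) ∣ Nat.card (fittingSubgroup G) := orderOf_dvd_natCard _
      rwa [Subgroup.orderOf_mk, o2] at h9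
    have h7 := hmin _ inferInstance h6 k2
    obtain ⟨k, hk⟩ := (H1.Cores.isPGroup_pCore (G := G) 2) ⟨a * b, h7⟩
    have h8 : (a * b) ^ 2 ^ k = 1 := congrArg Subtype.val hk
    have h9 := orderOf_dvd_of_pow_eq_one h8
    rw [o3] at h9
    have := (Nat.Prime.dvd_of_dvd_pow Nat.prime_three h9)
    omega
  have h3 : layer G = σ.ker := le_antisymm h1 (hmin _ inferInstance h2)
  rw [h3, Subgroup.index_ker]
  have h4 : σ.range = ⊤ := by
    rw [eq_top_iff]
    intro x _
    rcases Int.units_eq_one_or x with rfl | rfl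
    · exact σ.range.one_mem
    · exact ⟨a, hσ a ma⟩
  rw [h4, Nat.card_congr Subgroup.topEquiv.toEquiv, Nat.card_eq_fintype_card]
  rfl

/-- the numerical facts -/
theorem facts24 [Finite G] (hD : IsThreeTranspositionGroup D)
    (hprim : IsPrimitiveUnderConj D) (ht : IsOfTypeM24 G D) : (layer G).index = 2 ∧ D.ncard = 306936 ∧
      Nat.card G = 2510411418381323442585600 ∧ commutingWidth D = 24 ∧
      ∀ d ∈ D, Subgroup.closure {y : G | y ∈ D ∧ y ≠ d ∧ Commute d y} = Subgroup.centralizer ({d} : Set G) := by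
  have hZ := ht.1
  have hT := of_set hD.1 hD.2.1
  have h1 : (1 : G) ∉ D := by
    intro h
    have := hD.1.1 1 h
    simp at this
  obtain ⟨hL, hc1, hc2, hc3⟩ := H92.TypeNum.card24 hT h1 hD.2.2 hD.2.1 hprim ht
  have hcen := cen_one hD.2.2 hZ
  obtain ⟨L, hr, hg, hc, ha, htr⟩ := main24 hD hprim hZ ht
  obtain ⟨σ, hσ⟩ := exists_sign24 hr hg hc
  refine ⟨layer24 (n := 2) hL hD.2.1 hD.2.2 hcen σ ?_, hc1, le_antisymm (hr.card_le hg).2 hc, H92.Width.width_lev hL.lev, ?_⟩
  · intro x hx
    obtain ⟨m, rfl⟩ := htr x hx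
    rw [map_mul, map_mul, map_inv, hσ, mul_comm, inv_mul_cancel_left]
  · intro d hd
    exact H92.Exact.centralizer_three hL hD.2.2 hZ hd

end H91.FY
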