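import Cfsg.Agent.Lib.H91.Cross

/-!
Sublattices between `2Λ` and `Λ` invariant under the monomial group.
-/

set_option autoImplicit false

namespace H91.FrameSub

open Cfsg H8.GolayCode H8.GolayBasic H8.M24Mem H91.Leech H91.InvForm H91.LeechTools H91.Co2Core H91.Cross

theorem key2 : ∀ a : ZMod 2, a = 0 ∨ a = 1 := by decide

/-- words whose products with all code words are code words -/
def W1 : Submodule (ZMod 2) (GolayPt → ZMod 2) where
  carrier := {w | ∀ c ∈ golayCode, w * c ∈ golayCode}
  add_mem' := by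
    intro v w hv hw c hc
    rw [add_mul]; exact golayCode.add_mem (hv c hc) (hw c hc)
  zero_mem' := by
    intro c _
    rw [zero_mul]; exact golayCode.zero_mem
  smul_mem' := by
    intro a w hw c hc
    rw [smul_mul_assoc]; exact golayCode.smul_mem _ (hw c hc)

theorem golay_perm {σ : Equiv.Perm GolayPt} (hσ : σ ∈ M24) {w : GolayPt → ZMod 2} (hw : w ∈ golayCode) :
    (fun p => w (σ.symm p)) ∈ golayCode := by
  have h1 := (mem_M24_iff σ).1 hσ (support₂ w) ⟨w, hw, rfl⟩
  obtain ⟨w', hw', h2⟩ := h1
  have h4 : (fun p => w (σ.symm p)) = w' := by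
   funext p
   have h3 : p ∈ support₂ w' ↔ σ.symm p ∈ support₂ w := by
     rw [h2, Finset.mem_image]
     constructor
     · rintro ⟨x, hx, rfl⟩; simpa using hx
     · intro h; exact ⟨_, h, by simp⟩
   simp only [support₂, Finset.mem_filter, Finset.mem_univ, true_and] at h3
   rcases key2 (w (σ.symm p)) with h | h <;> rcases key2 (w' p) with h' | h' <;> rw [h, h'] at h3 ⊢
   · simp at h3
   · simp at h3
  rw [h4]; exact hw'

theorem W1_eq {w : GolayPt → ZMod 2} (hw : w ∈ W1) : w = 0 ∨ w = 1 := by
  have hinv : ∀ σ ∈ M24, ∀ w ∈ W1, (fun p => w (σ.symm p)) ∈ W1 := by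
    intro σ hσ w hw c hc
    have h1 := golay_perm (M24.inv_mem hσ) hc
    have h2 := golay_perm hσ (hw _ h1)
    convert h2 using 1
    funext p
    simp only [Pi.mul_apply]
    congr 1
    show c p = c (σ (σ.symm p))
    rw [Equiv.apply_symm_apply]
  have hO : support₂ (wd 0x149f) ∈ GS := support_wd_mem_GS (by norm_num) (by decide +kernel)
  have hc : wd 0x56123 ∈ golayCode := (wd_mem_iff (by norm_num)).2 (by decide +kernel)
  have ho : wd 0x149f ∈ golayCode := (wd_mem_iff (by norm_num)).2 (by decide +kernel)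
  have hnot : wd 0x149f ∉ W1 := by
    intro h
    have h1 := h _ hc
    have h2 := weight_cases (s := support₂ (wd 0x149f * wd 0x56123)) ⟨_, h1, rfl⟩
    have h3 : (support₂ (wd 0x149f * wd 0x56123)).card = 2 := by decide +kernel
    rw [h3] at h2
    norm_num at h2
  rcases Cfsg.Agent.S5548.result W1 hinv with h | h | h | h | h
  · rw [h, Submodule.mem_bot] at hw; exact Or.inl hw
  · rw [h, Submodule.mem_span_singleton] at hw
    obtain ⟨a, rfl⟩ := hw
    rcases key2 a with h' | h' <;> rw [h']
    · left; rw [zero_smul]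
    · right; rw [one_smul]; rfl
  · exfalso; apply hnot; rw [h]; exact ho
  · exfalso; apply hnot
    show _ ∈ (W1 : Set (GolayPt → ZMod 2))
    rw [h]; decide +kernel
  · exfalso; apply hnot; rw [h]; trivial

theorem sum_fr_mem {U : AddSubgroup leechLattice} (h : ∀ i, fr i ∈ U) (y : GolayPt → ℤ) :
    ∑ i, y i • fr i ∈ U := sum_mem fun i _ => U.zsmul_mem (h i) _

theorem coe_sum_fr (y : GolayPt → ℤ) (k : GolayPt) :
    ((∑ i, y i • fr i : leechLattice) : GolayPt → ℤ) k = 8 * y k := by
  rw [AddSubgroup.val_finsetSum, Finset.sum_apply]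
  simp only [AddSubgroup.coe_zsmul, Pi.smul_apply, coe_fr, smul_eq_mul, mul_ite, mul_zero,
    Finset.sum_ite_eq, Finset.mem_univ, if_true]
  ring

/-- `∑ y_i (8e_i)` is congruent to `0` or `8e_∞` -/
theorem sum_fr_congr (y : GolayPt → ℤ) : (∃ x : leechLattice, ∑ i, y i • fr i = x + x) ∨
    ∃ x : leechLattice, ∑ i, y i • fr i = fr none + (x + x) := by
  have h1 : ∀ i, ∃ u : leechLattice, fr i = fr none + (u + u) := fun i => fr_congr
  choose f hf using h1
  have h2 : ∑ i, y i • fr i = (∑ i, y i) • fr none + (∑ i, y i • f i + ∑ i, y i • f i) := by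
    rw [Finset.sum_smul, ← Finset.sum_add_distrib, ← Finset.sum_add_distrib]
    apply Finset.sum_congr rfl
    intro i _
    conv_lhs => rw [hf i, _root_.smul_add, _root_.smul_add]
  rcases Int.even_or_odd' (∑ i, y i) with ⟨m, hm | hm⟩
  · left
    refine ⟨m • fr none + ∑ i, y i • f i, ?_⟩
    rw [h2, hm, mul_comm, mul_smul]
    have : (2 : ℤ) • fr none = fr none + fr none := two_zsmul _
    rw [this, _root_.smul_add]; abel
  · right
    refine ⟨m • fr none + ∑ i, y i • f i, ?_⟩
    rw [h2, hm, add_smul, one_smul, mul_comm, mul_smul]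
    have : (2 : ℤ) • fr none = fr none + fr none := two_zsmul _
    rw [this, _root_.smul_add]; abel

theorem even_cast {a : ℤ} : (a : ZMod 2) = 0 ↔ (2 : ℤ) ∣ a := (ZMod.intCast_zmod_eq_zero_iff_dvd a 2)

theorem pl_mem {U : AddSubgroup leechLattice} (h2 : ∀ w : leechLattice, w + w ∈ U)
    (hinv : ∀ (g : Co0) σ, P g σ → ∀ w ∈ U, g • w ∈ U)
    (hsign : ∀ g : Co0, P g 1 → ∀ w ∈ U, (∃ x, g • w = w + (x + x)) ∨ (∃ x, g • w = w + fr none + (x + x)))
    (hfr : fr none ∈ U)
    (hne : ∃ w ∈ U, (¬ ∃ x, w = x + x) ∧ (¬ ∃ x, w = fr none + (x + x))) : pl none (pt 0) ∈ U := by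
  have hfrU : ∀ i, fr i ∈ U := by
    intro i
    obtain ⟨u, hu⟩ := fr_congr (i := i) (j := none)
    rw [hu]; exact U.add_mem hfr (h2 u)
  -- coordinates after a sign change on `c`
  have hsg : ∀ (c : Finset GolayPt), c ∈ GS → ∀ w ∈ U, ∃ x : leechLattice, (x : GolayPt → ℤ) ∈ leechLattice ∧
      ∃ e : ℤ, (e = 0 ∨ e = -4) ∧ ∀ i, (x : GolayPt → ℤ) i = (if i ∈ c then -(w : GolayPt → ℤ) i else 0) +
        (if i = none then e else 0) := by
    intro c hc w hw
    obtain ⟨g, hg⟩ := exists_eps hc
    have hgP : P g 1 := by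
      intro i
      rw [eps_fr hg]
      split_ifs
      · exact Or.inr rfl
      · exact Or.inl rfl
    rcases hsign g hgP w hw with ⟨x, hx⟩ | ⟨x, hx⟩
    · refine ⟨x, x.2, 0, Or.inl rfl, fun i => ?_⟩
      have h3 := congrFun (congrArg Subtype.val hx) i
      rw [hg, eps] at h3
      simp only [AddSubgroup.coe_add, Pi.add_apply] at h3
      split_ifs at h3 ⊢ <;> omega
    · refine ⟨x, x.2, -4, Or.inr rfl, fun i => ?_⟩
      have h3 := congrFun (congrArg Subtype.val hx) i
      rw [hg, eps] at h3
      simp only [AddSubgroup.coe_add, Pi.add_apply, coe_fr] at h3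
      split_ifs at h3 ⊢ <;> omega
  have hO : support₂ (wd 0x149f) ∈ GS := support_wd_mem_GS (by norm_num) (by decide +kernel)
  -- all coordinates are even
  have heven : ∀ w ∈ U, ∀ i, (2 : ℤ) ∣ (w : GolayPt → ℤ) i := by
    intro w hw
    rcases H9.Trans.parity w.2 with h | h
    · exact h
    · exfalso
      obtain ⟨x, hx, e, he, hxi⟩ := hsg _ hO w hw
      have h0 : pt 0 ∈ support₂ (wd 0x149f) := by decide +kernel
      have h5 : pt 5 ∉ support₂ (wd 0x149f) := by decide +kernel
      have e1 := hxi (pt 0)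
      have e2 := hxi (pt 5)
      have n1 : pt 0 ≠ none := by decide
      have n2 : pt 5 ≠ none := by decide
      rw [if_pos h0, if_neg n1] at e1
      rw [if_neg h5, if_neg n2] at e2
      rcases H9.Trans.parity hx with h6 | h6
      · apply h (pt 0)
        have := h6 (pt 0)
        omega
      · apply h6 (pt 5)
        omega
  -- the coordinates congruent to 2 mod 4
  have hmod : ∀ w ∈ U, (∀ i, (4 : ℤ) ∣ (w : GolayPt → ℤ) i) ∨ (∀ i, (4 : ℤ) ∣ (w : GolayPt → ℤ) i - 2) := by
    intro w hw
    let a : GolayPt → ZMod 2 := fun i => if (4 : ℤ) ∣ (w : GolayPt → ℤ) i - 2 then 1 else 0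
    have ha : a ∈ W1 := by
      intro c hc
      obtain ⟨x, hx, e, he, hxi⟩ := hsg (support₂ c) ⟨c, hc, rfl⟩ w hw
      have h3 := H9.Trans.filter_mem hx 2
      obtain ⟨d, hd, h4⟩ := h3
      have h5 : a * c = d := by
        funext i
        have h6 : i ∈ support₂ d ↔ (4 : ℤ) ∣ (x : GolayPt → ℤ) i - 2 := by
          rw [h4, Finset.mem_filter]; simp
        have h7 : i ∈ support₂ c ↔ c i ≠ 0 := by simp [support₂]
        have h8 : i ∈ support₂ d ↔ d i ≠ 0 := by simp [support₂]
        have h9 := hxi i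
        have h10 := heven w hw i
        rw [Pi.mul_apply]
        rcases key2 (c i) with hci | hci
        · rw [hci, mul_zero]
          have hnc : i ∉ support₂ c := by rw [h7, hci]; simp
          rw [if_neg hnc] at h9
          have h11 : ¬ (4 : ℤ) ∣ (x : GolayPt → ℤ) i - 2 := by
            rw [h9]
            split_ifs <;> omega
          rw [← h6, h8, not_not] at h11
          exact h11.symm
        · rw [hci, mul_one]
          have hnc : i ∈ support₂ c := by rw [h7, hci]; simp
          rw [if_pos hnc] at h9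
          have h11 : (4 : ℤ) ∣ (x : GolayPt → ℤ) i - 2 ↔ (4 : ℤ) ∣ (w : GolayPt → ℤ) i - 2 := by
            rw [h9]
            split_ifs <;> omega
          rw [← h6, h8] at h11
          show (if (4 : ℤ) ∣ (w : GolayPt → ℤ) i - 2 then (1 : ZMod 2) else 0) = d i
          rcases key2 (d i) with h12 | h12
          · rw [h12] at h11 ⊢
            rw [if_neg]
            intro h13
            exact h11.2 h13 rfl
          · rw [h12] at h11 ⊢
            rw [if_pos (h11.1 one_ne_zero)]
      rw [h5]; exact hd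
    rcases W1_eq ha with h3 | h3
    · left
      intro i
      have h4 := congrFun h3 i
      have h5 := heven w hw i
      by_contra hn
      have h6 : (4 : ℤ) ∣ (w : GolayPt → ℤ) i - 2 := by omega
      have h7 : a i = 1 := if_pos h6
      rw [h7] at h4
      exact one_ne_zero h4
    · right
      intro i
      have h4 := congrFun h3 i
      by_contra hn
      have h7 : a i = 0 := if_neg hn
      rw [h7] at h4
      exact zero_ne_one h4
  -- the submodule of classes of `x mod 2` with `4x ∈ U`
  let W2 : Submodule (ZMod 2) (GolayPt → ZMod 2) :=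
    { carrier := {a | ∃ x : GolayPt → ℤ, (∀ i, ((x i : ℤ) : ZMod 2) = a i) ∧ ∃ h : (2 : ℤ) ∣ ∑ i, x i, four x h ∈ U}
      add_mem' := by
        rintro a c ⟨x, hx, h, hU⟩ ⟨y, hy, h', hU'⟩
        have h3 : (2 : ℤ) ∣ ∑ i, (x + y) i := by
          simp only [Pi.add_apply, Finset.sum_add_distrib]
          exact dvd_add h h'
        refine ⟨x + y, fun i => ?_, h3, ?_⟩
        · rw [Pi.add_apply, Int.cast_add, hx, hy]; rfl
        · have h4 : four (x + y) h3 = four x h + four y h' := by
            apply Subtype.ext; funext i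
            show 4 * (x i + y i) = 4 * x i + 4 * y i
            ring
          rw [h4]; exact U.add_mem hU hU'
      zero_mem' := by
        refine ⟨0, fun i => by simp, by simp, ?_⟩
        have : four 0 (by simp) = 0 := by
          apply Subtype.ext; funext i; show 4 * (0 : ℤ) = 0; norm_num
        rw [this]; exact U.zero_mem
      smul_mem' := by
        rintro a c ⟨x, hx, h, hU⟩
        rcases key2 a with h' | h'
        · rw [h', zero_smul]
          refine ⟨0, fun i => by simp, by simp, ?_⟩
          have : four 0 (by simp) = 0 := by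
            apply Subtype.ext; funext i; show 4 * (0 : ℤ) = 0; norm_num
          rw [this]; exact U.zero_mem
        · rw [h', one_smul]; exact ⟨x, hx, h, hU⟩ }
  have hW2inv : ∀ σ ∈ M24, ∀ w ∈ W2, (fun p => w (σ.symm p)) ∈ W2 := by
    rintro σ hσ w ⟨x, hx, h, hU⟩
    obtain ⟨p, hp⟩ := exists_P hσ
    have hpP : P p σ := fun i => Or.inl (hp i)
    have h3 : (2 : ℤ) ∣ ∑ i, x (σ.symm i) := by
      rw [Equiv.sum_comp σ.symm x]; exact h
    refine ⟨fun i => x (σ.symm i), fun i => hx _, h3, ?_⟩
    have h4 : four (fun i => x (σ.symm i)) h3 = p • four x h := by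
      apply Subtype.ext
      funext i
      have h5 := P_coord hpP (four x h) (σ.symm i)
      have h6 : ¬ (p • fr (σ.symm i) = -fr (σ (σ.symm i))) := fun h' => fr_ne_neg ((hp _).symm.trans h')
      rw [if_neg h6, Equiv.apply_symm_apply] at h5
      rw [h5]; rfl
    rw [h4]
    exact hinv p σ hpP _ hU
  -- `4x ∈ U` if `x mod 2` is a code word
  have hcode : ∀ (x : GolayPt → ℤ) (h : (2 : ℤ) ∣ ∑ i, x i), (fun i => ((x i : ℤ) : ZMod 2)) ∈ golayCode →
      (∃ y : leechLattice, four x h = y + y) ∨ ∃ y : leechLattice, four x h = fr none + (y + y) := by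
    intro x h hx
    have h3 : ∀ i, ∃ y : ℤ, x i = (if i ∈ support₂ (fun i => ((x i : ℤ) : ZMod 2)) then 1 else 0) + 2 * y := by
      intro i
      by_cases h4 : (2 : ℤ) ∣ x i
      · obtain ⟨y, hy⟩ := h4
        refine ⟨y, ?_⟩
        have : ((x i : ℤ) : ZMod 2) = 0 := even_cast.2 ⟨y, hy⟩
        rw [if_neg (by simp [support₂, this]), zero_add]; exact hy
      · have h5 : ((x i : ℤ) : ZMod 2) ≠ 0 := fun h' => h4 (even_cast.1 h')
        refine ⟨(x i - 1) / 2, ?_⟩
        rw [if_pos (by simpa [support₂] using h5)]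
        omega
    choose y hy using h3
    have hS : support₂ (fun i => ((x i : ℤ) : ZMod 2)) ∈ GS := ⟨_, hx, rfl⟩
    have h4 : four x h = (tw hS + tw hS) + ∑ i, y i • fr i := by
      apply Subtype.ext
      funext i
      rw [AddSubgroup.coe_add, AddSubgroup.coe_add, Pi.add_apply, Pi.add_apply, coe_sum_fr, coe_tw]
      show 4 * x i = _
      rw [hy i]
      split_ifs <;> ring
    rcases sum_fr_congr y with ⟨w, hw⟩ | ⟨w, hw⟩
    · left
      refine ⟨tw hS + w, ?_⟩
      rw [h4, hw]; abel
    · right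
      refine ⟨tw hS + w, ?_⟩
      rw [h4, hw]; abel
  have hgol : golayCode ≤ W2 := by
    intro c hc
    have h3 : (2 : ℤ) ∣ ∑ i, (if i ∈ support₂ c then (1 : ℤ) else 0) := by
      rw [Finset.sum_ite_mem, Finset.univ_inter, Finset.sum_const, nsmul_eq_mul, mul_one]
      have := H10.GolayBasic.four_dvd_card_supports (s := support₂ c) ⟨c, hc, rfl⟩
      omega
    refine ⟨fun i => if i ∈ support₂ c then (1 : ℤ) else 0, fun i => ?_, h3, ?_⟩
    · show (((if i ∈ support₂ c then (1 : ℤ) else 0) : ℤ) : ZMod 2) = c i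
      rcases key2 (c i) with h | h
      · rw [if_neg (by simp [support₂, h]), h]; rfl
      · rw [if_pos (by simp [support₂, h]), h]; rfl
    · rcases hcode _ h3 (by
        have : (fun i => (((if i ∈ support₂ c then (1 : ℤ) else 0) : ℤ) : ZMod 2)) = c := by
          funext i
          rcases key2 (c i) with h | h
          · rw [if_neg (by simp [support₂, h]), h]; rfl
          · rw [if_pos (by simp [support₂, h]), h]; rfl
        rw [this]; exact hc) with ⟨y, hy⟩ | ⟨y, hy⟩
      · rw [hy]; exact h2 y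
      · rw [hy]; exact U.add_mem hfr (h2 y)
  -- an element of `W2` outside the code
  obtain ⟨a, haW, hac⟩ : ∃ a ∈ W2, a ∉ golayCode := by
    obtain ⟨w, hw, hw1, hw2⟩ := hne
    obtain ⟨w', hw', h4, hw1', hw2'⟩ : ∃ w' ∈ U, (∀ i, (4 : ℤ) ∣ (w' : GolayPt → ℤ) i) ∧ (¬ ∃ x, w' = x + x) ∧
        (¬ ∃ x, w' = fr none + (x + x)) := by
      rcases hmod w hw with h | h
      · exact ⟨w, hw, h, hw1, hw2⟩
      · refine ⟨w + (oddv none + oddv none), U.add_mem hw (h2 _), fun i => ?_, ?_, ?_⟩
        · rw [AddSubgroup.coe_add, AddSubgroup.coe_add, Pi.add_apply, Pi.add_apply, coe_oddv]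
          have := h i
          split_ifs <;> omega
        · rintro ⟨x, hx⟩
          exact hw1 ⟨x - oddv none, by
            have : w = (w + (oddv none + oddv none)) - (oddv none + oddv none) := by abel
            rw [this, hx]; abel⟩
        · rintro ⟨x, hx⟩
          exact hw2 ⟨x - oddv none, by
            have : w = (w + (oddv none + oddv none)) - (oddv none + oddv none) := by abel
            rw [this, hx]; abel⟩
    choose x hx using h4
    have hsum : (2 : ℤ) ∣ ∑ i, x i := by
      obtain ⟨r, D, hr, hD, h5, h6⟩ := exists_nf w'.2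
      have h7 : ∑ i, (w' : GolayPt → ℤ) i = 4 * ∑ i, x i := by
        rw [Finset.mul_sum]; exact Finset.sum_congr rfl fun i _ => hx i
      rw [h7] at h6
      have h8 := h5 none
      rw [hx none] at h8
      have hr0 : r = 0 := by
        rcases hr with h | h
        · exact h
        · rw [h] at h8
          split_ifs at h8 <;> simp only [Int.ModEq] at h8 <;> omega
      rw [hr0] at h6
      simp only [Int.ModEq] at h6
      omega
    have hwx : w' = four x hsum := by
      apply Subtype.ext; funext i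
      exact hx i
    refine ⟨fun i => ((x i : ℤ) : ZMod 2), ⟨x, fun i => rfl, hsum, by rw [← hwx]; exact hw'⟩, ?_⟩
    intro h5
    rcases hcode x hsum h5 with ⟨y, hy⟩ | ⟨y, hy⟩
    · exact hw1' ⟨y, by rw [hwx, hy]⟩
    · exact hw2' ⟨y, by rw [hwx, hy]⟩
  have hpair : (fun i => if i = none ∨ i = pt 0 then (1 : ZMod 2) else 0) ∈ W2 := by
    have h1g : (fun _ => 1 : GolayPt → ZMod 2) ∈ golayCode := Submodule.subset_span (Or.inr rfl)
    rcases Cfsg.Agent.S5548.result W2 hW2inv with h | h | h | h | h
    · exfalso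
      have := hgol h1g
      rw [h, Submodule.mem_bot] at this
      exact one_ne_zero (congrFun this none)
    · exfalso
      apply hac
      rw [h] at haW
      exact (Submodule.span_singleton_le_iff_mem _ _).2 h1g haW
    · exfalso
      apply hac
      rw [← h]; exact haW
    · show _ ∈ (W2 : Set (GolayPt → ZMod 2))
      rw [h]; decide +kernel
    · rw [h]; trivial
  obtain ⟨x, hx, hs, hU⟩ := hpair
  have h3 : ∀ i, ∃ y : ℤ, x i = ((if i = none then 1 else 0) + (if i = pt 0 then 1 else 0)) + 2 * y := by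
    intro i
    have h4 : ((x i : ℤ) : ZMod 2) = if i = none ∨ i = pt 0 then 1 else 0 := hx i
    by_cases h5 : i = none
    · have h6 : i ≠ pt 0 := by rw [h5]; decide
      rw [if_pos (Or.inl h5)] at h4
      rw [if_pos h5, if_neg h6]
      have h7 : ((x i - 1 : ℤ) : ZMod 2) = 0 := by rw [Int.cast_sub, h4]; simp
      obtain ⟨y, hy⟩ := even_cast.1 h7
      exact ⟨y, by omega⟩
    · by_cases h6 : i = pt 0
      · rw [if_pos (Or.inr h6)] at h4
        rw [if_neg h5, if_pos h6]
        have h7 : ((x i - 1 : ℤ) : ZMod 2) = 0 := by rw [Int.cast_sub, h4]; simp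
        obtain ⟨y, hy⟩ := even_cast.1 h7
        exact ⟨y, by omega⟩
      · rw [if_neg (by tauto)] at h4
        rw [if_neg h5, if_neg h6]
        obtain ⟨y, hy⟩ := even_cast.1 h4
        exact ⟨y, by omega⟩
  choose y hy using h3
  have h5 : pl none (pt 0) = four x hs - ∑ i, y i • fr i := by
    apply Subtype.ext
    funext i
    rw [AddSubgroup.coe_sub, Pi.sub_apply, coe_sum_fr, coe_pl]
    show _ = 4 * x i - _
    rw [hy i]; ring
  rw [h5]
  exact U.sub_mem hU (sum_fr_mem hfrU y)

end H91.FrameSub
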