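import Cfsg.Agent.Lib.H91.MonCross
import Cfsg.Agent.Lib.H91.FrameSub

/-!
Groups of Monster type: `C(t)` fuses `z` in `Q ∩ C(t)`.
-/

set_option autoImplicit false

namespace H91.BabyFuse

open Cfsg H8.GolayCode H91.MonsterForm H91.LargePair H91.Setting H91.InvForm H91.LeechTools H91.MonData H91.Co2Core
  H91.MonType H91.MonPair H91.MonConj H91.MonCross H91.Cross

variable {G : Type*} [Group G] {z : G} {Q : Subgroup G} {Lab : leechLattice → G → Prop}
    {R : G → Co0 → Prop} {q : leechLattice → ZMod 2} {b : leechLattice → leechLattice → ZMod 2}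

/-- `Q ∩ Q^g` contains an involution of minimal type -/
theorem exists_min [Finite G] (L : LF) (M : MonData z Q Lab R q b) {Q1 : Subgroup G} {s : G} (P1 : Pack Q1 s)
    (h2 : IsPGroup 2 Q1) (hcard : Nat.card Q1 = 2 ^ 25) (hz1 : z ∈ Q1) (hsz : s ≠ z) (hsQ : s ∈ Q) {v : leechLattice}
    (hv : Lab v s) (hn : sqNorm (v : GolayPt → ℤ) = 64) :
    ∃ x ∈ Q ⊓ Q1, ∃ w : leechLattice, Lab w x ∧ sqNorm (w : GolayPt → ℤ) = 32 := by
  have h0 : (none : GolayPt) ≠ pt 0 := by decide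
  obtain ⟨k, u0, hk⟩ := L.h64 v (fr none) hn (norm_fr none)
  have hcard8 : 8 < Nat.card Q1 := by rw [hcard]; norm_num
  have hkv : k⁻¹ • fr none = v + (-(k⁻¹ • u0) + -(k⁻¹ • u0)) := by
    rw [inv_smul_eq_iff, H91.LeechTools.smul_add, hk, H91.LeechTools.smul_add, H91.LeechTools.smul_neg, smul_inv_smul]
    abel
  let U : AddSubgroup leechLattice :=
    { carrier := {w | ∃ x ∈ Q ⊓ Q1, Lab (k⁻¹ • w) x}
      add_mem' := by
        rintro v w ⟨x, hx, h1⟩ ⟨y, hy, h3⟩
        exact ⟨x * y, Subgroup.mul_mem _ hx hy, by rw [H91.LeechTools.smul_add]; exact M.lab_mul h1 h3⟩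
      zero_mem' := ⟨1, Subgroup.one_mem _, by rw [H91.LeechTools.smul_zero]; exact M.lab_zero.2 (Or.inl rfl)⟩
      neg_mem' := by
        rintro w ⟨x, hx, h1⟩
        exact ⟨x⁻¹, Subgroup.inv_mem _ hx, by rw [H91.LeechTools.smul_neg]; exact lab_inv M h1⟩ }
  have hpl : pl none (pt 0) ∈ U := by
    apply H91.FrameSub.pl_mem
    · intro w
      refine ⟨1, Subgroup.one_mem _, ?_⟩
      rw [H91.LeechTools.smul_add]
      exact M.lab_one.2 ⟨_, rfl⟩
    · rintro g σ hσ w ⟨x, hx, h1⟩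
      obtain ⟨y, hy⟩ := P_congr hσ
      have h3 : (k⁻¹ * g * k) • v = v + ((k⁻¹ • y + k⁻¹ • (g • u0) - k⁻¹ • u0) + (k⁻¹ • y + k⁻¹ • (g • u0) - k⁻¹ • u0)) := by
        rw [mul_smul, mul_smul, hk, H91.LeechTools.smul_add, hy, H91.LeechTools.smul_add, H91.LeechTools.smul_add,
          H91.LeechTools.smul_add, hkv, H91.LeechTools.smul_add, H91.LeechTools.smul_add]
        abel
      obtain ⟨c, hc, hcs⟩ := exists_R_comm M hv P1.z1 hsz h3
      have h4 := M.R_conj hc h1
      refine ⟨c * x * c⁻¹, ⟨M.pack.N c (M.R_comm hc) x hx.1, P1.N c hcs x hx.2⟩, ?_⟩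
      have h5 : k⁻¹ • (g • w) = (k⁻¹ * g * k) • (k⁻¹ • w) := by
        rw [← mul_smul, ← mul_smul]; congr 1; group
      rw [h5]; exact h4
    · rintro g hg w ⟨x, hx, h1⟩
      have h3 : k⁻¹ * g * k ∈ EE M Q1 := by
        rw [EE_eq M P1 h2 hcard8 hz1 hsz hv hk]
        have : k * (k⁻¹ * g * k) * k⁻¹ = g := by group
        rw [this]; exact hg
      obtain ⟨c, hc, hR⟩ := h3
      have h4 := M.R_conj hR h1
      have h5 : (k⁻¹ * g * k) • (k⁻¹ • w) = k⁻¹ • (g • w) := by
        rw [← mul_smul, ← mul_smul]; congr 1; group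
      rw [h5] at h4
      rcases P1.comm c hc x hx.2 with h6 | h6
      · left
        rw [mul_inv_eq_one] at h6
        rw [h6] at h4
        obtain ⟨y, hy⟩ := lab_congr M h4 h1
        refine ⟨k • y, ?_⟩
        rw [inv_smul_eq_iff] at hy
        rw [hy, H91.LeechTools.smul_add, H91.LeechTools.smul_add, smul_inv_smul]
      · right
        rw [mul_inv_eq_iff_eq_mul] at h6
        rw [h6] at h4
        obtain ⟨y, hy⟩ := lab_congr M h4 (M.lab_mul hv h1)
        refine ⟨k • y + u0, ?_⟩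
        rw [inv_smul_eq_iff] at hy
        rw [hy, H91.LeechTools.smul_add, H91.LeechTools.smul_add, H91.LeechTools.smul_add, smul_inv_smul, hk]
        abel
    · refine ⟨s, ⟨hsQ, P1.zQ⟩, ?_⟩
      rw [hkv]
      exact lab_add_double M hv
    · -- an element outside
      have hc13 := card_inter M P1 h2 hcard hz1 hsz hv hk
      obtain ⟨x, hx, hx1, hx2, hx3, hx4⟩ : ∃ x ∈ Q ⊓ Q1, x ≠ 1 ∧ x ≠ z ∧ x ≠ s ∧ x ≠ s * z := by
        by_contra hcon
        push Not at hcon
        have hsub : ((Q ⊓ Q1 : Subgroup G) : Set G) ⊆ {1, z, s, s * z} := by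
          intro x hx
          by_cases a1 : x = 1
          · exact Or.inl a1
          · by_cases a2 : x = z
            · exact Or.inr (Or.inl a2)
            · by_cases a3 : x = s
              · exact Or.inr (Or.inr (Or.inl a3))
              · exact Or.inr (Or.inr (Or.inr (hcon x hx a1 a2 a3)))
        have h3 : ((Q ⊓ Q1 : Subgroup G) : Set G).ncard ≤ 4 := by
          refine (Set.ncard_le_ncard hsub (Set.toFinite _)).trans ?_
          refine (Set.ncard_insert_le _ _).trans ?_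
          have := Set.ncard_insert_le z {s, s * z}
          have := Set.ncard_insert_le s {s * z}
          have := Set.ncard_singleton (s * z)
          omega
        have h4 : Nat.card (Q ⊓ Q1 : Subgroup G) = ((Q ⊓ Q1 : Subgroup G) : Set G).ncard := rfl
        rw [← h4, hc13] at h3
        norm_num at h3
      obtain ⟨w, hw⟩ := M.lab_surj hx.1
      refine ⟨k • w, ⟨x, hx, by rw [inv_smul_smul]; exact hw⟩, ?_, ?_⟩
      · rintro ⟨y, hy⟩
        have h3 : w = k⁻¹ • y + k⁻¹ • y := by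
          rw [← H91.LeechTools.smul_add, ← hy, inv_smul_smul]
        have h4 : Lab 0 x := by
          have := lab_add_double M (u := -(k⁻¹ • y)) hw
          have e : w + (-(k⁻¹ • y) + -(k⁻¹ • y)) = 0 := by rw [h3]; abel
          rwa [e] at this
        rcases M.lab_zero.1 h4 with h | h
        · exact hx1 h
        · exact hx2 h
      · rintro ⟨y, hy⟩
        have h3 : w = v + ((k⁻¹ • y - k⁻¹ • u0) + (k⁻¹ • y - k⁻¹ • u0)) := by
          have : w = k⁻¹ • (k • w) := by rw [inv_smul_smul]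
          rw [this, hy, H91.LeechTools.smul_add, H91.LeechTools.smul_add, hkv]; abel
        have h4 : Lab v x := by
          have := lab_add_double M (u := -(k⁻¹ • y - k⁻¹ • u0)) hw
          have e : w + (-(k⁻¹ • y - k⁻¹ • u0) + -(k⁻¹ • y - k⁻¹ • u0)) = v := by rw [h3]; abel
          rwa [e] at this
        rcases lab_eq M hv h4 with h | h
        · exact hx3 h
        · exact hx4 h
  obtain ⟨x, hx, h1⟩ := hpl
  exact ⟨x, hx, _, h1, by rw [H91.LeechTools.norm_smul, norm_pl h0]⟩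

/-- `z` is moved inside `Q` by an element centralising `t` -/
theorem exists_move [Finite G] (L : LF) (M : MonData z Q Lab R q b) {t : G} {u : leechLattice} (htu : Lab u t)
    (hu : sqNorm (u : GolayPt → ℤ) = 32) (hnc : ¬ IsConj z t) {g : G} (hsQ : g * z * g⁻¹ ∈ Q)
    (hsz : g * z * g⁻¹ ≠ z) : ∃ y : G, y * t = t * y ∧ y * z * y⁻¹ ∈ Q ∧ y * z * y⁻¹ ≠ z := by
  obtain ⟨P1, h2, h3, h4⟩ := basic M hsQ hsz
  obtain ⟨v, hv, hn⟩ := conj_label L M (isConj_iff.2 ⟨g, rfl⟩) hsQ hsz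
  obtain ⟨x1, hx1, w1, hw1, hn1⟩ := exists_min L M P1 h2 (by rw [card_conj, M.card]) h4 hsz hsQ hv hn
  obtain ⟨c, hc, hct⟩ := trans32 L M hw1 htu hn1 hu
  -- `t ∈ Q ∩ Q^{cg}`
  have htt : t * t = 1 := (M.q_lab htu).1 (q32 L M.form hu)
  obtain ⟨ht1, htz⟩ := ne_of_short M htu (ne_zero_of_norm (by norm_num) hu) (by rw [hu]; norm_num)
  set t' := (c * g)⁻¹ * t * (c * g) with ht'
  have ht'Q : t' ∈ Q := by
    have h5 := mem_map_conj.1 hx1.2
    have : t' = g⁻¹ * x1 * g := by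
      rw [ht', ← hct]; group
    rw [this]; exact h5
  have ht'conj : IsConj t t' := isConj_iff.2 ⟨(c * g)⁻¹, by rw [ht']; group⟩
  have ht'1 : t' ≠ 1 := by
    intro h
    apply ht1
    have : t = (c * g) * t' * (c * g)⁻¹ := by rw [ht']; group
    rw [this, h]; group
  have ht'z : t' ≠ z := fun h => hnc (by rw [← h]; exact ht'conj.symm)
  have ht't : t' * t' = 1 := by
    have : t' * t' = (c * g)⁻¹ * (t * t) * (c * g) := by rw [ht']; group
    rw [this, htt]; group
  obtain ⟨w, hw, hw' | hw'⟩ := exists_label L M ht'Q ht't ht'1 ht'z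
  · obtain ⟨d, hd, hdt⟩ := trans32 L M hw htu hw' hu
    have e1 : (c * g * d⁻¹) * z * (c * g * d⁻¹)⁻¹ = c * (g * z * g⁻¹) * c⁻¹ := by
      have : d⁻¹ * z * d = z := by
        rw [mul_assoc, ← hd]; group
      calc (c * g * d⁻¹) * z * (c * g * d⁻¹)⁻¹ = (c * g) * (d⁻¹ * z * d) * (c * g)⁻¹ := by group
        _ = c * (g * z * g⁻¹) * c⁻¹ := by rw [this]; group
    refine ⟨c * g * d⁻¹, ?_, ?_, ?_⟩
    · have h6 : (c * g * d⁻¹) * t * (c * g * d⁻¹)⁻¹ = t := by
        calc (c * g * d⁻¹) * t * (c * g * d⁻¹)⁻¹ = (c * g) * (d⁻¹ * t * d) * (c * g)⁻¹ := by group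
          _ = (c * g) * (d⁻¹ * (d * t' * d⁻¹) * d) * (c * g)⁻¹ := by rw [hdt]
          _ = (c * g) * t' * (c * g)⁻¹ := by group
          _ = t := by rw [ht']; group
      exact mul_inv_eq_iff_eq_mul.1 h6
    · rw [e1]
      exact M.pack.N c hc _ hsQ
    · rw [e1]
      intro h
      apply hsz
      calc g * z * g⁻¹ = c⁻¹ * (c * (g * z * g⁻¹) * c⁻¹) * c := by group
        _ = c⁻¹ * (z * c) := by rw [h]; group
        _ = z := by rw [← hc]; group
  · exfalso
    apply hnc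
    have h6 := ((conj_iff L M (isConj_iff.2 ⟨g, rfl⟩) hsQ hsz ht'Q).2 ⟨w, hw', hw⟩).1
    exact h6.trans ht'conj.symm

end H91.BabyFuse
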