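import Cfsg.Agent.Lib.H91.BabyFit
import Cfsg.Agent.Lib.H91.FrameSub

/-!
The module isomorphism, and fusion, for the group of Baby Monster type.
-/

set_option autoImplicit false

namespace H91.BabyPsi

open Cfsg H8.GolayCode H91.MonsterForm H91.LargePair H91.Setting H91.InvForm H91.LeechTools H91.MonData H91.Co2Core
  H91.MonType H91.MonPair H91.MonConj H91.MonCross H91.BabyCore H91.BabyFit

variable {G : Type*} [Group G] {z : G} {Q : Subgroup G} {Lab : leechLattice → G → Prop}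
    {R : G → Co0 → Prop} {q : leechLattice → ZMod 2} {b : leechLattice → leechLattice → ZMod 2}
    {t : G} {u : leechLattice} {K : Type*} [Group K] (ρ : D t z →* K)
    (hsurj : Function.Surjective ρ) (hker : ∀ x : D t z, ρ x = 1 ↔ (x : G) = 1 ∨ (x : G) = t)

theorem norm_leechU : sqNorm (Spor.leechU : GolayPt → ℤ) = 32 := by
  show sqNorm Spor.vecU = 32
  decide +kernel

include hker in
theorem mk_eq_iff (M : MonData z Q Lab R q b) (htu : Lab u t) (hu : sqNorm (u : GolayPt → ℤ) = 32) (htt : t * t = 1)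
    {v w : leechLattice} {a c : D t z} (ha : Lab v (a : G)) (hc : Lab w (c : G)) :
    (QuotientGroup.mk (⟨ρ a, (mem_Qb ρ hker M (M.lab_mem htu) a).2 (M.lab_mem ha)⟩ : Qb Q ρ) :
      Qb Q ρ ⧸ Subgroup.center (Qb Q ρ)) =
      QuotientGroup.mk ⟨ρ c, (mem_Qb ρ hker M (M.lab_mem htu) c).2 (M.lab_mem hc)⟩ ↔
      (∃ x, w = v + (x + x)) ∨ ∃ x, w = v + u + (x + x) := by
  have ht := M.lab_mem htu
  obtain ⟨ht1, htz⟩ := ne_of_short M htu (ne_zero_of_norm (by norm_num) hu) (by rw [hu]; norm_num)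
  have X := Qb_XS ρ hker M ht ht1 htz htt
  rw [QuotientGroup.eq, X.center]
  have e1 : ((⟨ρ a, (mem_Qb ρ hker M (M.lab_mem htu) a).2 (M.lab_mem ha)⟩ : Qb Q ρ)⁻¹ *
      ⟨ρ c, (mem_Qb ρ hker M (M.lab_mem htu) c).2 (M.lab_mem hc)⟩ = 1) ↔ ((a⁻¹ * c : D t z) : G) = 1 ∨
      ((a⁻¹ * c : D t z) : G) = t := by
    rw [← hker, Subtype.ext_iff]
    show (ρ a)⁻¹ * ρ c = 1 ↔ ρ (a⁻¹ * c) = 1
    rw [map_mul, map_inv]
  have e2 : ((⟨ρ a, (mem_Qb ρ hker M (M.lab_mem htu) a).2 (M.lab_mem ha)⟩ : Qb Q ρ)⁻¹ *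
      ⟨ρ c, (mem_Qb ρ hker M (M.lab_mem htu) c).2 (M.lab_mem hc)⟩ =
      ⟨ρ ⟨z, zD M ht⟩, (mem_Qb ρ hker M ht _).2 M.pack.zQ⟩) ↔
      ((⟨z, zD M ht⟩⁻¹ * (a⁻¹ * c) : D t z) : G) = 1 ∨ ((⟨z, zD M ht⟩⁻¹ * (a⁻¹ * c) : D t z) : G) = t := by
    rw [← hker, Subtype.ext_iff]
    show (ρ a)⁻¹ * ρ c = ρ ⟨z, zD M ht⟩ ↔ ρ (⟨z, zD M ht⟩⁻¹ * (a⁻¹ * c)) = 1
    rw [map_mul, map_mul, map_inv, map_inv, inv_mul_eq_one, eq_comm]
  rw [e1, e2]
  have f1 : ((a⁻¹ * c : D t z) : G) = (a : G)⁻¹ * c := rfl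
  have f2 : ((⟨z, zD M ht⟩⁻¹ * (a⁻¹ * c) : D t z) : G) = z⁻¹ * ((a : G)⁻¹ * c) := rfl
  rw [f1, f2]
  constructor
  · rintro ((h | h) | (h | h))
    · rw [inv_mul_eq_one] at h
      left; rw [← h] at hc; exact lab_congr M hc ha
    · rw [inv_mul_eq_iff_eq_mul] at h
      right; rw [h] at hc; exact lab_congr M hc (M.lab_mul ha htu)
    · rw [inv_mul_eq_iff_eq_mul, mul_one, inv_mul_eq_iff_eq_mul] at h
      left; rw [h] at hc; exact lab_congr M hc (lab_mul_z M ha)
    · rw [inv_mul_eq_iff_eq_mul, inv_mul_eq_iff_eq_mul] at h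
      right
      rw [h, ← M.pack.zc t ht, ← mul_assoc] at hc
      exact lab_congr M hc (lab_mul_z M (M.lab_mul ha htu))
  · rintro (⟨x, hx⟩ | ⟨x, hx⟩)
    · have h1 := lab_add_double M (u := x) ha
      rw [← hx] at h1
      rcases lab_eq M h1 hc with h | h
      · left; left; rw [h, inv_mul_cancel]
      · right; left
        rw [h]; group
    · have h1 := lab_add_double M (u := x) (M.lab_mul ha htu)
      rw [← hx] at h1
      rcases lab_eq M h1 hc with h | h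
      · left; right; rw [h]; group
      · right; right
        rw [h]
        calc z⁻¹ * ((a : G)⁻¹ * ((a : G) * t * z)) = z⁻¹ * (t * z) := by group
          _ = z⁻¹ * (z * t) := by rw [M.pack.zc t ht]
          _ = t := by group

include hsurj hker in
theorem exists_psi [Finite G] (L : LF) (M : MonData z Q Lab R q b) (htu : Lab u t) (hu : sqNorm (u : GolayPt → ℤ) = 32)
    (htt : t * t = 1) {k : Co0} (hk : k • u = Spor.leechU) [hn : (Qb Q ρ).Normal] (e : K ⧸ Qb Q ρ ≃* Spor.Co2)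
    (he : ∀ (x : D t z) (γ : Co0), R x γ → γ • u = u →
      ((e (QuotientGroup.mk (ρ x)) : Spor.Co2) : Equiv.Perm leechLattice) =
        ((k * γ * k⁻¹ : Co0) : Equiv.Perm leechLattice)) :
    ∃ ψ : leechPerpU → Qb Q ρ ⧸ Subgroup.center (Qb Q ρ),
      (∀ x y : leechPerpU, ψ (x + y) = ψ x * ψ y) ∧ Function.Surjective ψ ∧
      (∀ x : leechPerpU, ψ x = 1 ↔
        (∃ w : leechLattice, (x : leechLattice) = w + w) ∨ ∃ w : leechLattice, (x : leechLattice) = Spor.leechU + (w + w)) ∧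
      ∀ (h : K) (g : Spor.Co2), e (QuotientGroup.mk h) = g →
        ∀ (x y : leechPerpU), g • (x : leechLattice) = (y : leechLattice) →
          ∀ q : Qb Q ρ, ψ x = QuotientGroup.mk q →
            ψ y = QuotientGroup.mk ⟨h * q * h⁻¹, hn.conj_mem (q : K) q.2 h⟩ := by
  have ht := M.lab_mem htu
  have hk' : k⁻¹ • Spor.leechU = u := by rw [inv_smul_eq_iff, hk]
  have hne := exists_q_ne M
  have hex : ∀ x : leechPerpU, ∃ a : D t z, Lab (k⁻¹ • (x : leechLattice)) (a : G) := by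
    intro x
    obtain ⟨a, ha⟩ := M.lab_ex (k⁻¹ • (x : leechLattice))
    have h1 : b (k⁻¹ • (x : leechLattice)) u = 0 := by
      rw [b_iff L M.form hne]
      have h2 := dot_smul k (k⁻¹ • (x : leechLattice)) u
      rw [smul_inv_smul, hk] at h2
      rw [← h2]
      exact x.2
    exact ⟨⟨a, mem_D.2 ⟨(M.b_lab ha htu).1 h1, M.pack.zc a (M.lab_mem ha)⟩⟩, ha⟩
  choose f hf using hex
  let ψ : leechPerpU → Qb Q ρ ⧸ Subgroup.center (Qb Q ρ) := fun x =>
    QuotientGroup.mk ⟨ρ (f x), (mem_Qb ρ hker M ht (f x)).2 (M.lab_mem (hf x))⟩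
  -- the value of `ψ` from any element with the right label
  have hψ : ∀ (x : leechPerpU) (c : D t z) (w : leechLattice) (hc : Lab w (c : G)),
      ((∃ y, w = k⁻¹ • (x : leechLattice) + (y + y)) ∨ ∃ y, w = k⁻¹ • (x : leechLattice) + u + (y + y)) →
      ψ x = QuotientGroup.mk ⟨ρ c, (mem_Qb ρ hker M ht c).2 (M.lab_mem hc)⟩ := by
    intro x c w hc h
    exact (mk_eq_iff ρ hker M htu hu htt (hf x) hc).2 h
  refine ⟨ψ, ?_, ?_, ?_, ?_⟩
  · intro x y
    have h1 := M.lab_mul (hf x) (hf y)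
    have h2 := hψ (x + y) (f x * f y) _ h1 (Or.inl ⟨0, by
      rw [AddSubgroup.coe_add, H91.LeechTools.smul_add]; simp⟩)
    rw [h2]
    show _ = QuotientGroup.mk _
    congr 1
    apply Subtype.ext
    exact map_mul ρ _ _
  · intro y
    obtain ⟨⟨y', hy'⟩, rfl⟩ := QuotientGroup.mk_surjective y
    obtain ⟨c, hc, rfl⟩ := hy'
    obtain ⟨w, hw⟩ := M.lab_surj (show (c : G) ∈ Q from hc)
    have h1 : b w u = 0 := (M.b_lab hw htu).2 (mem_D.1 c.2).1
    rw [b_iff L M.form hne, ← dot_smul k, hk] at h1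
    refine ⟨⟨k • w, h1⟩, ?_⟩
    exact hψ ⟨k • w, h1⟩ c w hw (Or.inl ⟨0, by simp⟩)
  · intro x
    have h1 : ψ x = 1 ↔ ψ x = QuotientGroup.mk ⟨ρ 1, (mem_Qb ρ hker M ht 1).2 Q.one_mem⟩ := by
      have : (⟨ρ 1, (mem_Qb ρ hker M ht 1).2 Q.one_mem⟩ : Qb Q ρ) = 1 := Subtype.ext (map_one ρ)
      rw [this]; rfl
    have h0 : Lab 0 ((1 : D t z) : G) := M.lab_zero.2 (Or.inl rfl)
    rw [h1]
    have h2 := mk_eq_iff ρ hker M htu hu htt (hf x) h0
    rw [h2]
    have e1 : ∀ y : leechLattice, (0 : leechLattice) = k⁻¹ • (x : leechLattice) + (y + y) ↔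
        (x : leechLattice) = -(k • y) + -(k • y) := by
      intro y
      constructor
      · intro h
        have h3 : k⁻¹ • (x : leechLattice) = -y + -y := by
          have : k⁻¹ • (x : leechLattice) = (k⁻¹ • (x : leechLattice) + (y + y)) + (-y + -y) := by abel
          rw [this, ← h, zero_add]
        rw [inv_smul_eq_iff] at h3
        rw [h3, H91.LeechTools.smul_add, H91.LeechTools.smul_neg]
      · intro h
        rw [h, H91.LeechTools.smul_add, H91.LeechTools.smul_neg, inv_smul_smul]; abel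
    have e2 : ∀ y : leechLattice, (0 : leechLattice) = k⁻¹ • (x : leechLattice) + u + (y + y) ↔
        (x : leechLattice) = Spor.leechU + ((-(k • y) - Spor.leechU) + (-(k • y) - Spor.leechU)) := by
      intro y
      constructor
      · intro h
        have h3 : k⁻¹ • (x : leechLattice) = -u + (-y + -y) := by
          have : k⁻¹ • (x : leechLattice) = (k⁻¹ • (x : leechLattice) + u + (y + y)) + (-u + (-y + -y)) := by abel
          rw [this, ← h, zero_add]
        rw [inv_smul_eq_iff] at h3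
        rw [h3, H91.LeechTools.smul_add, H91.LeechTools.smul_add, H91.LeechTools.smul_neg, H91.LeechTools.smul_neg, hk]
        abel
      · intro h
        rw [h]
        simp only [H91.LeechTools.smul_add, H91.LeechTools.smul_neg, H91.LeechTools.smul_sub, inv_smul_smul, hk']
        abel
    constructor
    · rintro (⟨y, hy⟩ | ⟨y, hy⟩)
      · left; exact ⟨_, (e1 y).1 hy⟩
      · right; exact ⟨_, (e2 y).1 hy⟩
    · rintro (⟨w, hw⟩ | ⟨w, hw⟩)
      · left
        refine ⟨-(k⁻¹ • w), (e1 _).2 ?_⟩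
        rw [H91.LeechTools.smul_neg, smul_inv_smul, neg_neg, hw]
      · right
        refine ⟨-(k⁻¹ • (w + Spor.leechU)), (e2 _).2 ?_⟩
        rw [H91.LeechTools.smul_neg, smul_inv_smul, neg_neg, hw]; abel
  · intro h g hg x y hxy q' hq'
    obtain ⟨c0, rfl⟩ := hsurj h
    obtain ⟨γ, hγ, hγu⟩ := exists_fix M htu hu c0.2
    have h1 := he c0 γ hγ hγu
    rw [hg] at h1
    have h2 : (y : leechLattice) = (k * γ * k⁻¹ : Co0) • (x : leechLattice) := by
      rw [← hxy]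
      show (g : Equiv.Perm leechLattice) (x : leechLattice) = _
      rw [h1]; rfl
    obtain ⟨y', hy'⟩ := q'
    obtain ⟨d, hd, rfl⟩ := hy'
    obtain ⟨v, hv⟩ := M.lab_surj (show (d : G) ∈ Q from hd)
    have h3 := (mk_eq_iff ρ hker M htu hu htt (hf x) hv).1 hq'
    have h4 := M.R_conj hγ hv
    have h5 : Lab (γ • v) ((c0 * d * c0⁻¹ : D t z) : G) := h4
    have h6 : k⁻¹ • (y : leechLattice) = γ • (k⁻¹ • (x : leechLattice)) := by
      rw [h2, ← mul_smul, ← mul_smul]; congr 1; group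
    have h7 := hψ y (c0 * d * c0⁻¹) _ h5 (by
      rcases h3 with ⟨w, hw⟩ | ⟨w, hw⟩
      · left
        refine ⟨γ • w, ?_⟩
        rw [hw, h6, H91.LeechTools.smul_add, H91.LeechTools.smul_add]
      · right
        refine ⟨γ • w, ?_⟩
        rw [hw, h6, H91.LeechTools.smul_add, H91.LeechTools.smul_add, H91.LeechTools.smul_add, hγu])
    rw [h7]
    congr 1
    apply Subtype.ext
    show ρ (c0 * d * c0⁻¹) = ρ c0 * ρ d * (ρ c0)⁻¹
    rw [map_mul, map_mul, map_inv]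

end H91.BabyPsi
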