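import Cfsg.Agent.Lib.H91.BabyFit
import Cfsg.Agent.Lib.H91.BabyPsi
import Cfsg.Agent.Lib.H91.BabyFuse

/-!
Groups of Monster type: the centralizer of an involution of minimal type modulo the involution is of Baby Monster type.
-/

set_option autoImplicit false

namespace H91.BabyEnd

open Cfsg H8.GolayCode H91.MonsterForm H91.LargePair H91.Setting H91.InvForm H91.LeechTools H91.MonData H91.Co2Core
  H91.MonType H91.MonPair H91.MonConj H91.MonCross H91.BabyCore H91.BabyFit H91.BabyPsi H91.BabyFuse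

variable {G : Type*} [Group G] {z : G} {Q : Subgroup G} {Lab : leechLattice → G → Prop}
    {R : G → Co0 → Prop} {q : leechLattice → ZMod 2} {b : leechLattice → leechLattice → ZMod 2}

theorem mem_T {t : G} (htt : t * t = 1) (c : Subgroup.centralizer ({t} : Set G)) :
    c ∈ (Subgroup.zpowers t).subgroupOf (Subgroup.centralizer ({t} : Set G)) ↔ (c : G) = 1 ∨ (c : G) = t := by
  rw [Subgroup.mem_subgroupOf, Subgroup.mem_zpowers_iff]
  constructor
  · rintro ⟨k, hk⟩
    rcases Int.even_or_odd' k with ⟨m, rfl | rfl⟩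
    · left
      rw [zpow_mul, zpow_two, htt, one_zpow] at hk
      exact hk.symm
    · right
      rw [zpow_add, zpow_mul, zpow_two, htt, one_zpow, one_mul, zpow_one] at hk
      exact hk.symm
  · rintro (h | h)
    · exact ⟨0, by rw [h, zpow_zero]⟩
    · exact ⟨1, by rw [h, zpow_one]⟩

theorem zt_conj (M : MonData z Q Lab R q b) {t : G} {u : leechLattice} (htu : Lab u t)
    (ht1 : t ≠ 1) (htz : t ≠ z) (hnc : ¬ IsConj z t) : ¬ IsConj z (t * z) := by
  intro h
  obtain ⟨c, -, hc⟩ := lab_conj M htu (lab_mul_z M htu) ht1 htz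
  exact hnc (h.trans (isConj_iff.2 ⟨c, hc⟩).symm)

theorem baby_type [Finite G] (L : LF) (M : MonData z Q Lab R q b) {t : G} {u : leechLattice} (htu : Lab u t)
    (hu : sqNorm (u : GolayPt → ℤ) = 32) (hnc : ¬ IsConj z t) {g : G} (hsQ : g * z * g⁻¹ ∈ Q) (hsz : g * z * g⁻¹ ≠ z)
    [hn : ((Subgroup.zpowers t).subgroupOf (Subgroup.centralizer ({t} : Set G))).Normal] :
    IsOfBabyMonsterType (↥(Subgroup.centralizer ({t} : Set G)) ⧸
      (Subgroup.zpowers t).subgroupOf (Subgroup.centralizer ({t} : Set G))) := by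
  have ht : t ∈ Q := M.lab_mem htu
  have htt : t * t = 1 := (M.q_lab htu).1 (q32 L M.form hu)
  obtain ⟨ht1, htz⟩ := ne_of_short M htu (ne_zero_of_norm (by norm_num) hu) (by rw [hu]; norm_num)
  have hztz := zt_conj M htu ht1 htz hnc
  have hzt : z * t = t * z := (M.pack.zc t ht).symm
  let C := Subgroup.centralizer ({t} : Set G)
  let T := (Subgroup.zpowers t).subgroupOf (Subgroup.centralizer ({t} : Set G))
  have mkeq : ∀ c d : C, (QuotientGroup.mk c : C ⧸ T) = QuotientGroup.mk d ↔ (d : G) = c ∨ (d : G) = c * t := by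
    intro c d
    rw [QuotientGroup.eq, mem_T htt]
    constructor
    · rintro (h | h)
      · left
        have : (c : G)⁻¹ * d = 1 := h
        rw [inv_mul_eq_one] at this; exact this.symm
      · right
        have : (c : G)⁻¹ * d = t := h
        rw [inv_mul_eq_iff_eq_mul] at this; exact this
    · rintro (h | h)
      · left
        show (c : G)⁻¹ * d = 1
        rw [h, inv_mul_cancel]
      · right
        show (c : G)⁻¹ * d = t
        rw [h]; group
  let zC : C := ⟨z, Subgroup.mem_centralizer_singleton_iff.2 hzt⟩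
  let z' : C ⧸ T := QuotientGroup.mk zC
  let ρ : D t z →* Subgroup.centralizer ({z'} : Set (C ⧸ T)) :=
    { toFun := fun x => ⟨QuotientGroup.mk (⟨x, x.2.1⟩ : C), by
        rw [Subgroup.mem_centralizer_singleton_iff]
        show QuotientGroup.mk ((⟨x, x.2.1⟩ : C) * zC) = QuotientGroup.mk (zC * (⟨x, x.2.1⟩ : C))
        congr 1
        exact Subtype.ext (mem_D.1 x.2).2⟩
      map_one' := rfl
      map_mul' := fun x y => rfl }
  have hsurj : Function.Surjective ρ := by
    rintro ⟨y, hy⟩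
    obtain ⟨c, rfl⟩ := QuotientGroup.mk_surjective y
    rw [Subgroup.mem_centralizer_singleton_iff] at hy
    have h1 : (QuotientGroup.mk (c * zC) : C ⧸ T) = QuotientGroup.mk (zC * c) := hy
    rw [mkeq] at h1
    have hct : (c : G) * t = t * c := Subgroup.mem_centralizer_singleton_iff.1 c.2
    rcases h1 with h2 | h2
    · have h3 : z * (c : G) = c * z := h2
      exact ⟨⟨c, mem_D.2 ⟨hct, h3.symm⟩⟩, rfl⟩
    · exfalso
      have h3 : z * (c : G) = c * z * t := h2
      apply hztz
      have h4 : (c : G)⁻¹ * z * ((c : G)⁻¹)⁻¹ = t * z := by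
        rw [inv_inv, mul_assoc, h3, mul_assoc, hzt]; group
      exact isConj_iff.2 ⟨_, h4⟩
  have hker : ∀ x : D t z, ρ x = 1 ↔ (x : G) = 1 ∨ (x : G) = t := by
    intro x
    rw [← mem_T htt (⟨x, x.2.1⟩ : C), ← QuotientGroup.eq_one_iff]
    constructor
    · intro h
      exact congrArg Subtype.val h
    · intro h
      exact Subtype.ext h
  have hQn : (Qb Q ρ).Normal := Qb_normal ρ hsurj M
  have hzne : ¬ ((zC : G) = 1 ∨ (zC : G) = t) := by
    rintro (h | h)
    · exact M.pack.z1 h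
    · exact htz h.symm
  obtain ⟨k, hk⟩ := L.h32 u Spor.leechU hu norm_leechU
  obtain ⟨e, he⟩ := exists_iso ρ hsurj hker M htu hu hk
  obtain ⟨ψ, hψ⟩ := exists_psi ρ hsurj hker L M htu hu htt hk e he
  refine ⟨z', Qb Q ρ, hQn, ⟨?_, ?_, ?_, ?_, ?_⟩, e, ψ, hψ⟩
  · apply orderOf_eq_prime
    · show QuotientGroup.mk (zC ^ 2) = (1 : C ⧸ T)
      have : zC ^ 2 = 1 := by
        apply Subtype.ext
        show z ^ 2 = 1
        rw [pow_two, M.pack.zz]
      rw [this]; rfl
    · intro h
      exact hzne ((mem_T htt zC).1 ((QuotientGroup.eq_one_iff _).1 h))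
  · exact gFitting_eq ρ hsurj hker L M htu hu
  · exact Qb_extraspecial ρ hker M ht ht1 htz htt
  · exact card_Qb ρ hker M ht ht1 htz htt
  · obtain ⟨y, hyt, hyQ, hyz⟩ := exists_move L M htu hu hnc hsQ hsz
    let yC : C := ⟨y, Subgroup.mem_centralizer_singleton_iff.2 hyt⟩
    have hyc : (QuotientGroup.mk yC : C ⧸ T) * z' * (QuotientGroup.mk yC)⁻¹ = QuotientGroup.mk (yC * zC * yC⁻¹) := rfl
    have hsD : y * z * y⁻¹ ∈ D t z := by
      rw [mem_D]
      refine ⟨?_, M.pack.zc _ hyQ⟩
      have h1 : y⁻¹ * t = t * y⁻¹ := by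
        rw [inv_mul_eq_iff_eq_mul, ← mul_assoc, hyt]; group
      calc y * z * y⁻¹ * t = y * z * (y⁻¹ * t) := by group
        _ = y * (z * t) * y⁻¹ := by rw [h1]; group
        _ = (y * t) * z * y⁻¹ := by rw [hzt]; group
        _ = t * (y * z * y⁻¹) := by rw [hyt]; group
    refine ⟨QuotientGroup.mk yC, ⟨?_, ?_⟩, ?_⟩
    · exact (ρ ⟨_, hsD⟩).2
    · exact (mem_Qb ρ hker M ht ⟨_, hsD⟩).2 hyQ
    · rw [hyc]
      intro h
      have h2 : (QuotientGroup.mk zC : C ⧸ T) = QuotientGroup.mk (yC * zC * yC⁻¹) := h.symm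
      rw [mkeq] at h2
      rcases h2 with h3 | h3
      · exact hyz h3
      · have h4 : y * z * y⁻¹ = z * t := h3
        apply hztz
        rw [← hzt]
        exact isConj_iff.2 ⟨y, h4⟩

end H91.BabyEnd
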