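import Cfsg.Agent.Lib.H91.BabyCore

/-!
The generalized Fitting subgroup of the involution centralizer in the group of Baby Monster type, and its quotient.
-/

set_option autoImplicit false

namespace H91.BabyFit

open Cfsg H8.GolayCode H91.MonsterForm H91.LargePair H91.Setting H91.InvForm H91.LeechTools H91.MonData H91.Co2Core
  H91.MonType H91.MonPair H91.MonConj H91.MonCross H91.BabyCore

variable {G : Type*} [Group G] {z : G} {Q : Subgroup G} {Lab : leechLattice → G → Prop}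
    {R : G → Co0 → Prop} {q : leechLattice → ZMod 2} {b : leechLattice → leechLattice → ZMod 2}
    {t : G} {u : leechLattice} {K : Type*} [Group K] (ρ : D t z →* K)
    (hsurj : Function.Surjective ρ) (hker : ∀ x : D t z, ρ x = 1 ↔ (x : G) = 1 ∨ (x : G) = t)

include hsurj hker in
theorem centralizer_le (L : LF) (M : MonData z Q Lab R q b) (htu : Lab u t) (hu : sqNorm (u : GolayPt → ℤ) = 32) :
    Subgroup.centralizer (Qb Q ρ : Set K) ≤ Qb Q ρ := by
  have ht : t ∈ Q := M.lab_mem htu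
  intro y hy
  obtain ⟨x, rfl⟩ := hsurj y
  rw [mem_Qb ρ hker M ht]
  obtain ⟨γ, hγ, hγu⟩ := exists_fix M htu hu x.2
  rw [mem_Q_iff M hu hγ hγu]
  apply eq_one_of_perp L hu hγu
  intro w hw hd
  obtain ⟨a, ha⟩ := M.lab_ex w
  have hbw : b w u = 0 := by
    rw [b_iff L M.form (exists_q_ne M), dot_comm, hd]; simp
  have hat : a * t = t * a := (M.b_lab ha htu).1 hbw
  have haD : a ∈ D t z := mem_D.2 ⟨hat, M.pack.zc a (M.lab_mem ha)⟩
  have h1 := Subgroup.mem_centralizer_iff.1 hy (ρ ⟨a, haD⟩) ((mem_Qb ρ hker M ht _).2 (M.lab_mem ha))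
  have h2 : ρ ((x * ⟨a, haD⟩ * x⁻¹) * ⟨a, haD⟩⁻¹) = 1 := by
    rw [map_mul, map_mul, map_mul, map_inv, map_inv, ← h1]; group
  have h3 : (((x * ⟨a, haD⟩ * x⁻¹) * ⟨a, haD⟩⁻¹ : D t z) : G) = (x : G) * a * (x : G)⁻¹ * a⁻¹ := rfl
  have h4 := M.R_conj hγ ha
  rcases (hker _).1 h2 with h5 | h5
  · rw [h3, mul_inv_eq_one] at h5
    rw [h5] at h4
    left
    exact lab_congr M h4 ha
  · rw [h3, mul_inv_eq_iff_eq_mul] at h5
    rw [h5] at h4
    right
    have h6 := M.lab_mul ha htu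
    rw [hat] at h6
    exact lab_congr M h4 h6

include hsurj hker in
theorem pCore_le [Finite G] [Finite K] (L : LF) (M : MonData z Q Lab R q b) (htu : Lab u t)
    (hu : sqNorm (u : GolayPt → ℤ) = 32) : pCore 2 K ≤ Qb Q ρ := by
  have ht : t ∈ Q := M.lab_mem htu
  have hfact : Fact (Nat.Prime 2) := ⟨Nat.prime_two⟩
  have hN2 : IsPGroup 2 (pCore 2 K) := H91.LargeExtra.isPGroup_pCore
  have hNn : (pCore 2 K).Normal := by
    unfold pCore
    exact Subgroup.sSup_normal _ (fun N hN => hN.1)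
  let E : Subgroup Co0 :=
    { carrier := {γ | γ • u = u ∧ ∃ x : D t z, ρ x ∈ pCore 2 K ∧ R x γ}
      one_mem' := ⟨one_smul _ _, 1, by rw [map_one]; exact Subgroup.one_mem _, M.R_one Q.one_mem⟩
      mul_mem' := by
        rintro γ δ ⟨h1, x, hx, h2⟩ ⟨h3, y, hy, h4⟩
        exact ⟨by rw [mul_smul, h3, h1], x * y, by rw [map_mul]; exact Subgroup.mul_mem _ hx hy, M.R_mul h2 h4⟩
      inv_mem' := by
        rintro γ ⟨h1, x, hx, h2⟩
        exact ⟨by rw [inv_smul_eq_iff, h1], x⁻¹, by rw [map_inv]; exact Subgroup.inv_mem _ hx, M.R_inv h2⟩ }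
  have hE : E = ⊥ := by
    apply core L.h64 L.h32 hu
    · rintro ⟨γ, h1, x, hx, h2⟩
      obtain ⟨k, hk⟩ := hN2 ⟨ρ x, hx⟩
      have hk' : ρ (x ^ 2 ^ k) = 1 := by
        rw [map_pow]
        have := congrArg Subtype.val hk
        simpa using this
      have hpow : ∀ n : ℕ, R ((x : G) ^ n) (γ ^ n) ∧ (γ ^ n) • u = u := by
        intro n
        induction n with
        | zero => rw [pow_zero, pow_zero]; exact ⟨M.R_one Q.one_mem, one_smul _ _⟩
        | succ n ih =>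
          rw [pow_succ, pow_succ]
          exact ⟨M.R_mul ih.1 h2, by rw [mul_smul, h1, ih.2]⟩
      refine ⟨k, ?_⟩
      apply Subtype.ext
      show γ ^ 2 ^ k = 1
      rw [← mem_Q_iff M hu (hpow _).1 (hpow _).2]
      rcases (hker _).1 hk' with h | h
      · have : (x : G) ^ 2 ^ k = 1 := h
        rw [this]; exact Q.one_mem
      · have : (x : G) ^ 2 ^ k = t := h
        rw [this]; exact ht
    · intro g hg; exact hg.1
    · rintro h hh γ ⟨h1, x, hx, h2⟩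
      have h0 : t ≠ 1 ∧ t ≠ z := ne_of_short M htu (ne_zero_of_norm (by norm_num) hu) (by rw [hu]; norm_num)
      obtain ⟨c, hc, hct⟩ := exists_R_comm M htu h0.1 h0.2 (u := 0) (γ := h) (by rw [hh]; simp)
      have hcD : c ∈ D t z := mem_D.2 ⟨hct, M.R_comm hc⟩
      refine ⟨?_, ⟨c, hcD⟩ * x * ⟨c, hcD⟩⁻¹, ?_, M.R_mul (M.R_mul hc h2) (M.R_inv hc)⟩
      · have hh' : h⁻¹ • u = u := by rw [inv_smul_eq_iff, hh]
        rw [mul_smul, mul_smul, hh', h1, hh]
      · rw [map_mul, map_mul, map_inv]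
        exact hNn.conj_mem _ hx _
  intro y hy
  obtain ⟨x, rfl⟩ := hsurj y
  rw [mem_Qb ρ hker M ht]
  obtain ⟨γ, hγ, hγu⟩ := exists_fix M htu hu x.2
  rw [mem_Q_iff M hu hγ hγu]
  have : γ ∈ E := ⟨hγu, x, hy, hγ⟩
  rwa [hE, Subgroup.mem_bot] at this

include hsurj hker in
theorem gFitting_eq [Finite G] [Finite K] (L : LF) (M : MonData z Q Lab R q b) (htu : Lab u t)
    (hu : sqNorm (u : GolayPt → ℤ) = 32) : generalizedFittingSubgroup K = Qb Q ρ :=
  H91.XSExtra.gFitting_eq_of (Qb_normal ρ hsurj M) (Qb_isPGroup ρ M) (centralizer_le ρ hsurj hker L M htu hu)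
    (pCore_le ρ hsurj hker L M htu hu)

/-- the homomorphism to `Co2` -/
theorem exists_sigma (M : MonData z Q Lab R q b) (htu : Lab u t) (hu : sqNorm (u : GolayPt → ℤ) = 32) {k : Co0}
    (hk : k • u = Spor.leechU) : ∃ σ : D t z →* Spor.Co2, ∀ (x : D t z) (γ : Co0), R x γ → γ • u = u →
      ((σ x : Spor.Co2) : Equiv.Perm leechLattice) = ((k * γ * k⁻¹ : Co0) : Equiv.Perm leechLattice) := by
  have h1 : ∀ x : D t z, ∃ γ, R x γ ∧ γ • u = u := fun x => exists_fix M htu hu x.2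
  choose f hf using h1
  have hk' : k⁻¹ • Spor.leechU = u := by rw [inv_smul_eq_iff, hk]
  have hmem : ∀ γ : Co0, γ • u = u → ((k * γ * k⁻¹ : Co0) : Equiv.Perm leechLattice) ∈ Spor.Co2 := by
    intro γ hγ
    refine ⟨(k * γ * k⁻¹ : Co0).2, ?_⟩
    show (k * γ * k⁻¹ : Co0) • Spor.leechU = Spor.leechU
    rw [mul_smul, mul_smul, hk', hγ, hk]
  refine ⟨MonoidHom.mk' (fun x => ⟨((k * f x * k⁻¹ : Co0) : Equiv.Perm leechLattice), hmem _ (hf x).2⟩) ?_, ?_⟩
  · intro x y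
    have h2 : f (x * y) = f x * f y :=
      fix_unique M hu (hf (x * y)).1 (M.R_mul (hf x).1 (hf y).1) (hf (x * y)).2 (by rw [mul_smul, (hf y).2, (hf x).2])
    apply Subtype.ext
    show ((k * f (x * y) * k⁻¹ : Co0) : Equiv.Perm leechLattice) = ((k * f x * k⁻¹ : Co0) : Equiv.Perm leechLattice) *
      ((k * f y * k⁻¹ : Co0) : Equiv.Perm leechLattice)
    rw [h2, ← Subgroup.coe_mul]
    congr 1
    group
  · intro x γ hγ hγu
    have h2 : f x = γ := fix_unique M hu (hf x).1 hγ (hf x).2 hγu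
    rw [← h2]; rfl

include hsurj hker in
theorem exists_iso (M : MonData z Q Lab R q b) (htu : Lab u t) (hu : sqNorm (u : GolayPt → ℤ) = 32) {k : Co0}
    (hk : k • u = Spor.leechU) [hn : (Qb Q ρ).Normal] : ∃ e : K ⧸ Qb Q ρ ≃* Spor.Co2, ∀ (x : D t z) (γ : Co0),
      R x γ → γ • u = u →
      ((e (QuotientGroup.mk (ρ x)) : Spor.Co2) : Equiv.Perm leechLattice) =
        ((k * γ * k⁻¹ : Co0) : Equiv.Perm leechLattice) := by
  have ht : t ∈ Q := M.lab_mem htu
  obtain ⟨σ, hσ⟩ := exists_sigma M htu hu hk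
  have hσ1 : ∀ x : D t z, σ x = 1 ↔ (x : G) ∈ Q := by
    intro x
    obtain ⟨γ, hγ, hγu⟩ := exists_fix M htu hu x.2
    rw [mem_Q_iff M hu hγ hγu]
    constructor
    · intro h
      have h1 := hσ x γ hγ hγu
      rw [h] at h1
      have h2 : k * γ * k⁻¹ = 1 := Subtype.ext h1.symm
      calc γ = k⁻¹ * (k * γ * k⁻¹) * k := by group
        _ = 1 := by rw [h2]; group
    · intro h
      apply Subtype.ext
      rw [hσ x γ hγ hγu, h]
      simp
  have hle : ρ.ker ≤ σ.ker := by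
    intro x hx
    rw [MonoidHom.mem_ker, hσ1]
    rcases (hker x).1 hx with h | h
    · rw [h]; exact Q.one_mem
    · rw [h]; exact ht
  let τ : K →* Spor.Co2 := ρ.liftOfSurjective hsurj ⟨σ, hle⟩
  have hτ : ∀ x, τ (ρ x) = σ x := fun x => MonoidHom.liftOfRightInverse_comp_apply _ _ _ _ x
  have hτs : Function.Surjective τ := by
    rintro ⟨g, hg0, hg⟩
    have hk' : k⁻¹ • Spor.leechU = u := by rw [inv_smul_eq_iff, hk]
    have hfix : (k⁻¹ * ⟨g, hg0⟩ * k : Co0) • u = u := by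
      rw [mul_smul, mul_smul, hk]
      have : (⟨g, hg0⟩ : Co0) • Spor.leechU = Spor.leechU := hg
      rw [this, hk']
    have h0 : t ≠ 1 ∧ t ≠ z := ne_of_short M htu (ne_zero_of_norm (by norm_num) hu) (by rw [hu]; norm_num)
    obtain ⟨c, hc, hct⟩ := exists_R_comm M htu h0.1 h0.2 (u := 0) (γ := k⁻¹ * ⟨g, hg0⟩ * k) (by rw [hfix]; simp)
    refine ⟨ρ ⟨c, mem_D.2 ⟨hct, M.R_comm hc⟩⟩, ?_⟩
    apply Subtype.ext
    rw [hτ, hσ _ _ hc hfix]
    have : k * (k⁻¹ * ⟨g, hg0⟩ * k) * k⁻¹ = (⟨g, hg0⟩ : Co0) := by group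
    rw [this]
  have hτker : τ.ker = Qb Q ρ := by
    ext y
    obtain ⟨x, rfl⟩ := hsurj y
    rw [MonoidHom.mem_ker, hτ, hσ1, mem_Qb ρ hker M ht]
  refine ⟨(QuotientGroup.quotientMulEquivOfEq hτker.symm).trans (QuotientGroup.quotientKerEquivOfSurjective τ hτs), ?_⟩
  intro x γ hγ hγu
  rw [← hσ x γ hγ hγu, ← hτ]
  rfl

end H91.BabyFit
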