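import Cfsg.Agent.Lib.H91.CAD0
import Cfsg.Agent.Lib.H18.OddOrder

/-!
# S4369, piece D
-/

set_option autoImplicit false

namespace H91.CAD

open Subgroup H4.CA

universe u

variable {G : Type u} [Group G]

theorem g3 (h : Frame G) (N : Subgroup (G ⧸ center G)) (hN : N.Normal) (hs : Group.IsSolvable N) : N = ⊥ :=
  H91.CAD0.g3 h N hN hs

theorem zprinc [Finite G] (h : Frame G) {z : G} (hb : Bad z) (h2 : ∃ k : ℕ, z ^ 2 ^ k = 1) (hz2 : z ^ 2 ∈ center G)
    (iso : ∀ g : G, Commute z (g * z * g⁻¹) → g * z * g⁻¹ = z) : False :=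
  H91.CAD0.zprinc_of (fun H _ _ hH => H18.OddOrder.solvable hH) h hb h2 hz2 iso

end H91.CAD
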