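import Cfsg.Agent.Lib.H4.CA0
import Cfsg.Agent.Lib.H5.ZStar

/-!
# S4369, piece D (modulo the odd order theorem as a hypothesis)
-/

set_option autoImplicit false
set_option linter.unusedVariables false

namespace H91.CAD0

open Subgroup H4.CA

universe u

variable {G : Type u} [Group G]

/-- solvable normal subgroups of the central quotient are trivial -/
theorem g3 (h : Frame G) (N : Subgroup (G ⧸ center G)) (hN : N.Normal) (hs : Group.IsSolvable N) : N = ⊥ := by
  set R : Subgroup G := N.comap (QuotientGroup.mk' (center G)) with hR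
  have hRn : R.Normal := hN.comap _
  have hRs : Group.IsSolvable R := by
    let f : center G →* R := Subgroup.inclusion (by
      intro x hx
      show QuotientGroup.mk' (center G) x ∈ N
      rw [(QuotientGroup.eq_one_iff (N := center G) x).2 hx |> fun e => (e : QuotientGroup.mk' (center G) x = 1)]
      exact N.one_mem)
    let g : R →* N := ((QuotientGroup.mk' (center G)).comp R.subtype).codRestrict N (fun x => x.2)
    have : Group.IsSolvable (center G) := Group.isSolvable_of_comm fun a b => by
      apply Subtype.ext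
      exact (Subgroup.mem_center_iff.1 b.2 a)
    refine Group.isSolvable_of_ker_le_range f g ?_
    intro x hx
    have h1 : QuotientGroup.mk' (center G) (x : G) = 1 := congrArg Subtype.val (MonoidHom.mem_ker.1 hx)
    have h2 : (x : G) ∈ center G := (QuotientGroup.eq_one_iff (N := center G) (x : G)).1 h1
    exact ⟨⟨x, h2⟩, Subtype.ext rfl⟩
  have h1 := h.solv R hRn hRs
  rw [eq_bot_iff]
  intro n hn
  obtain ⟨x, rfl⟩ := QuotientGroup.mk'_surjective (center G) n
  rw [Subgroup.mem_bot]
  exact (QuotientGroup.eq_one_iff (N := center G) x).2 (h1 hn)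

theorem zprinc_of [Finite G] (ft : ∀ (H : Type u) [Group H] [Finite H], Odd (Nat.card H) → Group.IsSolvable H)
    (h : Frame G) {z : G} (hb : Bad z) (h2 : ∃ k : ℕ, z ^ 2 ^ k = 1) (hz2 : z ^ 2 ∈ center G)
    (iso : ∀ g : G, Commute z (g * z * g⁻¹) → g * z * g⁻¹ = z) : False := by
  have : Fact (Nat.Prime 2) := ⟨Nat.prime_two⟩
  let π : G →* G ⧸ center G := QuotientGroup.mk' (center G)
  have hπ : ∀ x : G, π x = 1 ↔ x ∈ center G := fun x => QuotientGroup.eq_one_iff (N := center G) x
  have hsur : Function.Surjective π := QuotientGroup.mk'_surjective (center G)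
  have ht1 : π z ≠ 1 := fun e => hb.1 ((hπ z).1 e)
  have htt : π z * π z = 1 := by rw [← map_mul, hπ, ← pow_two]; exact hz2
  have ht : orderOf (π z) = 2 := H5.Dihedral.orderOf_eq_two htt ht1
  -- commuting conjugates are equal
  have hcc : ∀ g : G ⧸ center G, Commute (π z) (g * π z * g⁻¹) → g * π z * g⁻¹ = π z := by
    intro g' hg
    obtain ⟨g, rfl⟩ := hsur g'
    rw [← map_inv, ← map_mul, ← map_mul] at hg ⊢
    set w := g * z * g⁻¹ with hw
    have hc : w * z * w⁻¹ * z⁻¹ ∈ center G := by
      rw [← hπ, map_mul, map_mul, map_mul, map_inv, map_inv, ← hg.eq]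
      group
    have hcw : Commute z w := by
      refine h.norm z hb w fun y hy => ?_
      -- w y w⁻¹ commutes with w z w⁻¹ = c z
      have h3 : Commute (w * z * w⁻¹) (w * y * w⁻¹) := by
        have := hy.eq
        show w * z * w⁻¹ * (w * y * w⁻¹) = w * y * w⁻¹ * (w * z * w⁻¹)
        calc w * z * w⁻¹ * (w * y * w⁻¹) = w * (z * y) * w⁻¹ := by group
          _ = w * (y * z) * w⁻¹ := by rw [this]
          _ = _ := by group
      have h4 : z = (w * z * w⁻¹ * z⁻¹)⁻¹ * (w * z * w⁻¹) := by group
      have h5 : Commute (w * z * w⁻¹ * z⁻¹)⁻¹ (w * y * w⁻¹) :=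
        ((Subgroup.mem_center_iff.1 ((center G).inv_mem hc) (w * y * w⁻¹)).symm)
      rw [h4]
      exact h5.mul_left h3
    exact congrArg π (iso g hcw)
  -- Sylow form
  have h1 : IsPGroup 2 (Subgroup.zpowers (π z)) := by
    rw [IsPGroup.iff_card]
    exact ⟨1, by rw [Nat.card_zpowers, ht, pow_one]⟩
  obtain ⟨P, hP⟩ := h1.exists_le_sylow
  have htP : π z ∈ (P : Subgroup (G ⧸ center G)) := hP (Subgroup.mem_zpowers _)
  have hcen : ∀ p ∈ (P : Subgroup (G ⧸ center G)), Commute (π z) p := by
    intro p hp
    let t : (P : Subgroup (G ⧸ center G)) := ⟨π z, htP⟩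
    have : Group.IsNilpotent (P : Subgroup (G ⧸ center G)) := P.2.isNilpotent
    have hC : centralizer ({t} : Set (P : Subgroup (G ⧸ center G))) = ⊤ := by
      by_contra hne
      have hlt := Group.normalizerCondition_of_isNilpotent (G := (P : Subgroup (G ⧸ center G))) _ (lt_top_iff_ne_top.2 hne)
      obtain ⟨g, hg, hgn⟩ := SetLike.exists_of_lt hlt
      apply hgn
      have htC : t ∈ centralizer ({t} : Set (P : Subgroup (G ⧸ center G))) :=
        Subgroup.mem_centralizer_singleton_iff.2 rfl
      have h3 : g * t * g⁻¹ ∈ centralizer ({t} : Set (P : Subgroup (G ⧸ center G))) :=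
        (Subgroup.mem_normalizer_iff.1 hg t).1 htC
      have h4 := congrArg Subtype.val (Subgroup.mem_centralizer_singleton_iff.1 h3)
      have h5 := hcc (g : G ⧸ center G) h4.symm
      rw [Subgroup.mem_centralizer_singleton_iff]
      apply Subtype.ext
      show (g : G ⧸ center G) * π z = π z * g
      calc (g : G ⧸ center G) * π z = g * π z * (g : G ⧸ center G)⁻¹ * g := by group
        _ = π z * g := by rw [h5]
    have h3 : (⟨p, hp⟩ : (P : Subgroup (G ⧸ center G))) ∈ centralizer ({t} : Set (P : Subgroup (G ⧸ center G))) := by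
      rw [hC]; exact Subgroup.mem_top _
    exact (congrArg Subtype.val (Subgroup.mem_centralizer_singleton_iff.1 h3)).symm
  have hiso : H5.ZStar1.IsoInv (π z) := by
    refine H5.ZStar1.IsoInv.of_sylow P ht fun g hg => ?_
    exact hcc g (hcen _ hg)
  -- the core
  have hcore : Cfsg.pPrimeCore 2 (G ⧸ center G) = ⊥ := by
    refine g3 h _ (by infer_instance) ?_
    exact ft _ (Nat.coprime_two_right.mp (H1.Cores.coprime_card_pPrimeCore 2))
  have hctr : π z ∈ center (G ⧸ center G) := by
    rw [Subgroup.mem_center_iff]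
    intro g
    have h3 := H5.ZStar.zstar hiso g
    rw [hcore, Subgroup.mem_bot] at h3
    have h4 : g * π z * g⁻¹ = π z := by
      have h5 := eq_inv_of_mul_eq_one_right h3
      rw [h5, hiso.inv_eq]
    calc g * π z = g * π z * g⁻¹ * g := by group
      _ = π z * g := by rw [h4]
  have h6 : center (G ⧸ center G) = ⊥ := g3 h _ inferInstance (Group.isSolvable_of_comm fun a b => by
      apply Subtype.ext
      exact (Subgroup.mem_center_iff.1 b.2 a))
  rw [h6, Subgroup.mem_bot] at hctr
  exact ht1 hctr

end H91.CAD0
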