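import Mathlib
import Cfsg.Agent.Lib.H91.MulFib
import Cfsg.Agent.Lib.H91.MulL34

/-!
# Uniqueness of the covering group 2².L3(4)
-/

set_option autoImplicit false

namespace H91.CoverL34

open Subgroup H91.Mul

/-- an image of `Z3 × Z4 × Z4` of exponent two has order at most four -/
theorem card_le_four {K : Type*} [Group K] (π : Multiplicative (ZMod 3 × ZMod 4 × ZMod 4) →* K)
    (hπ : Function.Surjective π) (h2 : ∀ z : K, z ^ 2 = 1) : Nat.card K ≤ 4 := by
  have key : ∀ a : ZMod 3 × ZMod 4 × ZMod 4, ∃ b : ZMod 3 × ZMod 4 × ZMod 4, ∃ c : Fin 2 × Fin 2,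
      a = 2 • b + (0, ((c.1.val : ℕ) : ZMod 4), ((c.2.val : ℕ) : ZMod 4)) := by decide
  have hs : Function.Surjective (fun c : Fin 2 × Fin 2 => π (Multiplicative.ofAdd
      ((0, ((c.1.val : ℕ) : ZMod 4), ((c.2.val : ℕ) : ZMod 4)) : ZMod 3 × ZMod 4 × ZMod 4))) := by
    intro k
    obtain ⟨a, rfl⟩ := hπ k
    obtain ⟨b, c, h⟩ := key a.toAdd
    refine ⟨c, ?_⟩
    have h3 : a = (Multiplicative.ofAdd b) ^ 2 * Multiplicative.ofAdd
        ((0, ((c.1.val : ℕ) : ZMod 4), ((c.2.val : ℕ) : ZMod 4)) : ZMod 3 × ZMod 4 × ZMod 4) := h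
    change π _ = π a
    rw [h3, map_mul, map_pow, h2, one_mul]
  have h4 := Nat.card_le_card_of_surjective _ hs
  have h5 : Nat.card (Fin 2 × Fin 2) = 4 := by simp [Nat.card_prod]
  rwa [h5] at h4

theorem psl_perfect {F : Type} [Field F] [Fintype F] (hF : Fintype.card F = 4) :
    commutator (Matrix.ProjectiveSpecialLinearGroup (Fin 3) F) = ⊤ := by
  obtain ⟨φ⟩ := H9.M21.main (p := H8.GolayCode.pt 21) (q := H8.GolayCode.pt 22) (r := H8.GolayCode.pt 23)
    (by decide +kernel) (by decide +kernel) (by decide +kernel) F hF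
  have e := MulL34.isoG0.symm.trans φ
  have h := congrArg (Subgroup.map e.toMonoidHom) MulL34.perf
  have hr : e.toMonoidHom.range = ⊤ := MonoidHom.range_eq_top.2 e.surjective
  rw [_root_.commutator_def, Subgroup.map_commutator, ← MonoidHom.range_eq_map, hr, ← _root_.commutator_def] at h
  exact h

/-- version in the lowest universe -/
theorem unique0 {L₁ L₂ : Type} [Group L₁] [Finite L₁] [Group L₂] [Finite L₂] (F : Type) [Field F] [Fintype F]
    (hF : Fintype.card F = 4) (h₁ : Cfsg.IsQuasisimple L₁) (h₂ : Cfsg.IsQuasisimple L₂)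
    (hc₁ : Nat.card (Subgroup.center L₁) = 4) (hc₂ : Nat.card (Subgroup.center L₂) = 4)
    (he₁ : ∀ x ∈ Subgroup.center L₁, x * x = 1) (he₂ : ∀ x ∈ Subgroup.center L₂, x * x = 1)
    (e₁ : L₁ ⧸ Subgroup.center L₁ ≃* Matrix.ProjectiveSpecialLinearGroup (Fin 3) F)
    (e₂ : L₂ ⧸ Subgroup.center L₂ ≃* Matrix.ProjectiveSpecialLinearGroup (Fin 3) F) : Nonempty (L₁ ≃* L₂) := by
  obtain ⟨s1, k1⟩ := stem_of_quasisimple h₁ e₁
  obtain ⟨s2, k2⟩ := stem_of_quasisimple h₂ e₂
  have hfin : Finite (Matrix.ProjectiveSpecialLinearGroup (Fin 3) F) := Finite.of_equiv _ e₁.toEquiv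
  refine iso_of_bound (m := 4) (e := 2) (psl_perfect hF) s1 s2 (by rw [k1, hc₁]) (by rw [k2, hc₂])
    (fun z hz => by rw [pow_two]; exact he₁ z (by rwa [k1] at hz)) (fun z hz => by rw [pow_two]; exact he₂ z (by rwa [k2] at hz)) ?_
  intro D _ _ ρ hρ h2
  obtain ⟨π, hπ⟩ := (MulL34.mult hF).2 D ρ hρ
  exact card_le_four π hπ (fun z => Subtype.ext (h2 z.1 z.2))

theorem quasi_congr {L : Type*} {L' : Type*} [Group L] [Group L'] (f : L ≃* L') (h : Cfsg.IsQuasisimple L) :
    Cfsg.IsQuasisimple L' ∧ (Subgroup.center L').comap (f : L →* L') = Subgroup.center L := by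
  have hc : (Subgroup.center L').comap (f : L →* L') = Subgroup.center L := by
    ext x
    rw [mem_comap, mem_center_iff, mem_center_iff]
    constructor
    · intro h g
      apply f.injective
      have := h (f g)
      rw [map_mul, map_mul]
      exact this
    · intro h g
      have := congrArg f (h (f.symm g))
      rw [map_mul, map_mul, MulEquiv.apply_symm_apply] at this
      exact this
  have hm : (Subgroup.center L).map (f : L →* L') = Subgroup.center L' := by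
    rw [← hc, Subgroup.map_comap_eq_self_of_surjective f.surjective]
  refine ⟨⟨?_, ?_⟩, hc⟩
  · have := h.1
    exact Group.IsPerfect.ofSurjective (f := (f : L →* L')) f.surjective
  · have hs := h.2
    have e : L ⧸ Subgroup.center L ≃* L' ⧸ Subgroup.center L' := QuotientGroup.congr _ _ f hm
    have : Nontrivial (L' ⧸ Subgroup.center L') := e.toEquiv.symm.nontrivial
    exact IsSimpleGroup.isSimpleGroup_of_surjective e.toMonoidHom e.surjective

theorem down {L : Type*} [Group L] [Finite L] (F : Type) [Field F] (h : Cfsg.IsQuasisimple L)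
    (hc : Nat.card (Subgroup.center L) = 4) (he : ∀ x ∈ Subgroup.center L, x * x = 1)
    (e : L ⧸ Subgroup.center L ≃* Matrix.ProjectiveSpecialLinearGroup (Fin 3) F) :
    ∃ (L' : Type) (_ : Group L') (_ : Finite L'), Nonempty (L ≃* L') ∧ Cfsg.IsQuasisimple L' ∧
      Nat.card (Subgroup.center L') = 4 ∧ (∀ x ∈ Subgroup.center L', x * x = 1) ∧
      Nonempty (L' ⧸ Subgroup.center L' ≃* Matrix.ProjectiveSpecialLinearGroup (Fin 3) F) := by
  obtain ⟨L', _, _, ⟨f⟩⟩ := H40.StemFinish.exists_copy.{_, 0} L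
  obtain ⟨q, hcm⟩ := quasi_congr f h
  have hm : (Subgroup.center L).map (f : L →* L') = Subgroup.center L' := by
    rw [← hcm, Subgroup.map_comap_eq_self_of_surjective f.surjective]
  refine ⟨L', inferInstance, inferInstance, ⟨f⟩, q, ?_, ?_, ⟨(QuotientGroup.congr _ _ f hm).symm.trans e⟩⟩
  · rw [← hm, Nat.card_congr ((Subgroup.center L).equivMapOfInjective (f : L →* L') f.injective).symm.toEquiv, hc]
  · intro x hx
    rw [← hm] at hx
    obtain ⟨y, hy, rfl⟩ := hx
    have := he y hy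
    change f y * f y = 1
    rw [← map_mul, this, map_one]

/-- **uniqueness of 2².L3(4)** -/
theorem unique {L₁ : Type*} {L₂ : Type*} [Group L₁] [Finite L₁] [Group L₂] [Finite L₂] (F : Type) [Field F] [Fintype F]
    (hF : Fintype.card F = 4) (h₁ : Cfsg.IsQuasisimple L₁) (h₂ : Cfsg.IsQuasisimple L₂)
    (hc₁ : Nat.card (Subgroup.center L₁) = 4) (hc₂ : Nat.card (Subgroup.center L₂) = 4)
    (he₁ : ∀ x ∈ Subgroup.center L₁, x * x = 1) (he₂ : ∀ x ∈ Subgroup.center L₂, x * x = 1)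
    (e₁ : L₁ ⧸ Subgroup.center L₁ ≃* Matrix.ProjectiveSpecialLinearGroup (Fin 3) F)
    (e₂ : L₂ ⧸ Subgroup.center L₂ ≃* Matrix.ProjectiveSpecialLinearGroup (Fin 3) F) : Nonempty (L₁ ≃* L₂) := by
  obtain ⟨M₁, _, _, ⟨f₁⟩, a1, a2, a3, ⟨a4⟩⟩ := down F h₁ hc₁ he₁ e₁
  obtain ⟨M₂, _, _, ⟨f₂⟩, b1, b2, b3, ⟨b4⟩⟩ := down F h₂ hc₂ he₂ e₂
  obtain ⟨k⟩ := unique0 F hF a1 b1 a2 b2 a3 b3 a4 b4
  exact ⟨(f₁.trans k).trans f₂.symm⟩

end H91.CoverL34
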