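import Cfsg.Agent.Lib.H90.ThreeTrans
import Cfsg.Agent.Lib.H47.SymCox
import Cfsg.Prelude.Def_SporadicB

/-!
3-transposition sets whose commuting graph is cubic and triangle-free.
-/

set_option autoImplicit false

namespace H91.CubicTT

open Cfsg H90.ThreeTrans

variable {G : Type*} [Group G] {D : Set G}

/-- adjacency in the commuting graph -/
def Adj (D : Set G) (x y : G) : Prop := x ∈ D ∧ y ∈ D ∧ x ≠ y ∧ Commute x y

theorem Adj.symm {x y : G} (h : Adj D x y) : Adj D y x := ⟨h.2.1, h.1, h.2.2.1.symm, h.2.2.2.symm⟩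

theorem perm3' : ∀ α β γ : Equiv.Perm (Fin 3), (α * α = 1 ∧ β * β = 1 ∧ γ * γ = 1 ∧ α ≠ 1 ∧ β ≠ 1 ∧ γ ≠ 1 ∧
    α * β ≠ β * α) → (γ = α ∨ γ = β ∨ γ = α * β * α) := by decide +kernel

theorem perm3 (α β γ : Equiv.Perm (Fin 3)) (h1 : α * α = 1) (h2 : β * β = 1) (h3 : γ * γ = 1) (h4 : α ≠ 1)
    (h5 : β ≠ 1) (h6 : γ ≠ 1) (h7 : α * β ≠ β * α) : γ = α ∨ γ = β ∨ γ = α * β * α :=
  perm3' α β γ ⟨h1, h2, h3, h4, h5, h6, h7⟩

theorem perm3c : ∀ α : Equiv.Perm (Fin 3), (∀ β, α * β = β * α) → α = 1 := by decide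

theorem loc_of_iso (hD : IsThreeTranspositionSet D) {d : G} (hd : d ∈ D)
    (e : ↥(Subgroup.closure {y : G | y ∈ D ∧ y ≠ d ∧ Commute d y}) ≃* Equiv.Perm (Fin 3)) :
    ∃ a b, Adj D d a ∧ Adj D d b ∧ ¬ Commute a b ∧ ∀ y, Adj D d y → y = a ∨ y = b ∨ y = a * b * a := by
  set S : Set G := {y : G | y ∈ D ∧ y ≠ d ∧ Commute d y} with hS
  have hadj : ∀ {y}, y ∈ S → Adj D d y := fun hy => ⟨hd, hy.1, hy.2.1.symm, hy.2.2⟩
  have hadj' : ∀ {y}, Adj D d y → y ∈ S := fun hy => ⟨hy.2.1, hy.2.2.1.symm, hy.2.2.2⟩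
  have hne : S.Nonempty := by
    rw [Set.nonempty_iff_ne_empty]
    intro h0
    have h1 : Nat.card ↥(Subgroup.closure S) = 6 := by
      rw [Nat.card_congr e.toEquiv, Nat.card_perm, Nat.card_fin]; rfl
    rw [h0, Subgroup.closure_empty, Subgroup.card_bot] at h1
    exact absurd h1 (by norm_num)
  obtain ⟨a, ha⟩ := hne
  have mc : ∀ {y}, y ∈ S → y ∈ Subgroup.closure S := fun hy => Subgroup.subset_closure hy
  have hE1 : ∀ {y} (hy : y ∈ S), e ⟨y, mc hy⟩ * e ⟨y, mc hy⟩ = 1 := by
    intro y hy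
    rw [← map_mul]
    have : (⟨y, mc hy⟩ : ↥(Subgroup.closure S)) * ⟨y, mc hy⟩ = 1 := Subtype.ext (mul_self hD hy.1)
    rw [this, map_one]
  have hE2 : ∀ {y} (hy : y ∈ S), e ⟨y, mc hy⟩ ≠ 1 := by
    intro y hy h
    have : (⟨y, mc hy⟩ : ↥(Subgroup.closure S)) = 1 := e.injective (h.trans (map_one e).symm)
    exact ne_one hD hy.1 (congrArg Subtype.val this)
  obtain ⟨b, hb, hab⟩ : ∃ b ∈ S, ¬ Commute a b := by
    by_contra hcon
    push Not at hcon
    apply hE2 ha
    apply perm3c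
    intro β
    have h1 : ∀ g ∈ Subgroup.closure S, a * g = g * a := by
      intro g hg
      have h2 : Subgroup.closure S ≤ Subgroup.centralizer {a} := by
        rw [Subgroup.closure_le]
        intro y hy
        exact Subgroup.mem_centralizer_singleton_iff.2 (hcon y hy).symm.eq
      exact (Subgroup.mem_centralizer_singleton_iff.1 (h2 hg)).symm
    rw [← e.apply_symm_apply β, ← map_mul, ← map_mul]
    congr 1
    exact Subtype.ext (h1 _ (e.symm β).2)
  refine ⟨a, b, hadj ha, hadj hb, hab, fun y hy => ?_⟩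
  have hy' := hadj' hy
  have h1 : e ⟨a, mc ha⟩ * e ⟨b, mc hb⟩ ≠ e ⟨b, mc hb⟩ * e ⟨a, mc ha⟩ := by
    rw [← map_mul, ← map_mul]
    intro h
    exact hab (congrArg Subtype.val (e.injective h))
  rcases perm3 _ _ _ (hE1 ha) (hE1 hb) (hE1 hy') (hE2 ha) (hE2 hb) (hE2 hy') h1 with h | h | h
  · exact Or.inl (congrArg Subtype.val (e.injective h))
  · exact Or.inr (Or.inl (congrArg Subtype.val (e.injective h)))
  · rw [← map_mul, ← map_mul] at h
    exact Or.inr (Or.inr (congrArg Subtype.val (e.injective h)))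

/-- the hypothesis on the commuting graph -/
structure Hyp (D : Set G) : Prop where
  tt : IsThreeTranspositionSet D
  conj : ∀ g : G, ∀ d ∈ D, g * d * g⁻¹ ∈ D
  loc : ∀ d ∈ D, ∃ a b, Adj D d a ∧ Adj D d b ∧ ¬ Commute a b ∧ ∀ y, Adj D d y → y = a ∨ y = b ∨ y = a * b * a

variable (H : Hyp D)
include H

theorem Hyp.adj_conj {x y : G} (g : G) (h : Adj D x y) : Adj D (g * x * g⁻¹) (g * y * g⁻¹) := by
  refine ⟨H.conj g x h.1, H.conj g y h.2.1, fun he => h.2.2.1 ?_, ?_⟩
  · simpa using he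
  · have := h.2.2.2.eq
    show g * x * g⁻¹ * (g * y * g⁻¹) = g * y * g⁻¹ * (g * x * g⁻¹)
    calc g * x * g⁻¹ * (g * y * g⁻¹) = g * (x * y) * g⁻¹ := by group
      _ = g * (y * x) * g⁻¹ := by rw [this]
      _ = _ := by group

omit H in
/-- the six relations between the involutions of a symmetric group of degree 3 -/
theorem rels {a b : G} (ha : a * a = 1) (hb : b * b = 1) (hab : a * b * a = b * a * b) :
    b * a * b = a * b * a ∧ a * (a * b * a) * a = b ∧ b * (a * b * a) * b = a ∧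
      (a * b * a) * a * (a * b * a) = b ∧ (a * b * a) * b * (a * b * a) = a := by
  refine ⟨hab.symm, ?_, ?_, ?_, ?_⟩
  · calc a * (a * b * a) * a = (a * a) * b * (a * a) := by group
      _ = b := by rw [ha]; group
  · calc b * (a * b * a) * b = b * (b * a * b) * b := by rw [hab]
      _ = (b * b) * a * (b * b) := by group
      _ = a := by rw [hb]; group
  · calc (a * b * a) * a * (a * b * a) = a * b * (a * a) * (a * b * a) := by group
      _ = a * (b * a * b) * a := by rw [ha]; group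
      _ = a * (a * b * a) * a := by rw [hab]
      _ = (a * a) * b * (a * a) := by group
      _ = b := by rw [ha]; group
  · calc (a * b * a) * b * (a * b * a) = (b * a * b) * b * (b * a * b) := by rw [hab]
      _ = b * a * (b * b) * (b * a * b) := by group
      _ = b * (a * b * a) * b := by rw [hb]; group
      _ = b * (b * a * b) * b := by rw [hab]
      _ = (b * b) * a * (b * b) := by group
      _ = a := by rw [hb]; group

theorem Hyp.tri {d p q : G} (hp : Adj D d p) (hq : Adj D d q) (hpq : Commute p q) : p = q := by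
  obtain ⟨a, b, ha, hb, hab, hall⟩ := H.loc d hp.1
  have aa := mul_self H.tt ha.2.1
  have bb := mul_self H.tt hb.2.1
  obtain ⟨r1, r2, r3, r4, r5⟩ := rels aa bb (braid H.tt ha.2.1 hb.2.1 hab)
  have hac : ¬ Commute a (a * b * a) := by
    intro h
    apply hab
    have h1 : a * (a * b * a) * a = a * b * a := by rw [h.eq, mul_assoc, aa, mul_one]
    rw [r2] at h1
    show a * b = b * a
    calc a * b = a * b * a * a := by rw [mul_assoc (a * b), aa, mul_one]
      _ = b * a := by rw [← h1]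
  have hbc : ¬ Commute b (a * b * a) := by
    intro h
    apply hab
    have h1 : b * (a * b * a) * b = a * b * a := by rw [h.eq, mul_assoc, bb, mul_one]
    rw [r3] at h1
    have h2 : a * b = 1 := by
      calc a * b = a * b * a * a := by rw [mul_assoc (a * b), aa, mul_one]
        _ = a * a := by rw [← h1]
        _ = 1 := aa
    show a * b = b * a
    rw [h2]
    calc (1 : G) = a * a := aa.symm
      _ = a * (a * b) * a := by rw [h2, mul_one]
      _ = b * a := by rw [← mul_assoc, aa, one_mul]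
  rcases hall p hp with rfl | rfl | rfl <;> rcases hall q hq with rfl | rfl | rfl
  · rfl
  · exact absurd hpq hab
  · exact absurd hpq hac
  · exact absurd hpq.symm hab
  · rfl
  · exact absurd hpq hbc
  · exact absurd hpq.symm hac
  · exact absurd hpq.symm hbc
  · rfl

theorem Hyp.loc2 {d p q r : G} (hp : Adj D d p) (hq : Adj D d q) (hpq : ¬ Commute p q) (hr : Adj D d r) :
    r = p ∨ r = q ∨ r = p * q * p := by
  obtain ⟨a, b, ha, hb, hab, hall⟩ := H.loc d hp.1
  have aa := mul_self H.tt ha.2.1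
  have bb := mul_self H.tt hb.2.1
  obtain ⟨r1, r2, r3, r4, r5⟩ := rels aa bb (braid H.tt ha.2.1 hb.2.1 hab)
  have hne : p ≠ q := by rintro rfl; exact hpq (Commute.refl _)
  rcases hall p hp with rfl | rfl | rfl <;> rcases hall q hq with rfl | rfl | rfl <;>
    rcases hall r hr with rfl | rfl | rfl <;> simp_all

theorem Hyp.adj_third {d p q : G} (hp : Adj D d p) (hq : Adj D d q) : Adj D d (p * q * p) := by
  have hpi := inv_eq H.tt hp.2.1
  have h1 : p * q * p = p * q * p⁻¹ := by rw [hpi]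
  rw [h1]
  have h2 : d = p * d * p⁻¹ := by
    rw [hp.2.2.2.symm.eq, mul_assoc, mul_inv_cancel, mul_one]
  have h3 := H.adj_conj p hq
  rwa [← h2] at h3

/-- the product of two adjacent elements moves an element not commuting with them to a neighbour -/
theorem Hyp.move {x d a : G} (hx : x ∈ D) (hda : Adj D d a) (hxd : ¬ Commute x d) (hxa : ¬ Commute x a) :
    Adj D x (d * a * x * (d * a)⁻¹) := by
  have hd := hda.1
  have ha := hda.2.1
  have dd := mul_self H.tt hd
  have aa := mul_self H.tt ha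
  have xx := mul_self H.tt hx
  have b1 := braid H.tt hx hd hxd
  have b2 := braid H.tt hx ha hxa
  have c1 := hda.2.2.2.eq
  have hinv : (d * a)⁻¹ = a * d := by rw [mul_inv_rev, inv_eq H.tt hd, inv_eq H.tt ha]
  refine ⟨hx, H.conj _ x hx, ?_, ?_⟩
  · intro h
    rw [hinv] at h
    apply hda.2.2.1
    -- `x = d a x a d`
    have h1 : d * x * d = a * x * a := by
      calc d * x * d = d * (d * a * x * (a * d)) * d := by rw [← h]
        _ = (d * d) * a * x * a * (d * d) := by group
        _ = a * x * a := by rw [dd]; group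
    rw [← b1, ← b2] at h1
    have h2 : x * (x * d * x) * x = x * (x * a * x) * x := by rw [h1]
    calc d = (x * x) * d * (x * x) := by rw [xx]; group
      _ = x * (x * d * x) * x := by group
      _ = x * (x * a * x) * x := h2
      _ = (x * x) * a * (x * x) := by group
      _ = a := by rw [xx]; group
  · rw [hinv]
    show x * (d * a * x * (a * d)) = d * a * x * (a * d) * x
    calc x * (d * a * x * (a * d)) = x * d * (a * x * a) * d := by group
      _ = x * d * (x * a * x) * d := by rw [b2]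
      _ = (x * d * x) * a * (x * d) := by group
      _ = (d * x * d) * a * (x * d) := by rw [b1]
      _ = d * x * (d * a) * x * d := by group
      _ = d * x * (a * d) * x * d := by rw [c1]
      _ = d * (x * a) * (d * x * d) := by group
      _ = d * (x * a) * (x * d * x) := by rw [b1]
      _ = d * (x * a * x) * d * x := by group
      _ = d * (a * x * a) * d * x := by rw [b2]
      _ = d * a * x * (a * d) * x := by group

/-! ### the Petersen graph -/

omit H in
theorem swap_dec : ∀ i j : Fin 5, i ≠ j → ∃ k l m : Fin 5, k ≠ l ∧ l ≠ m ∧ k ≠ m ∧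
    Equiv.swap i j ≠ Equiv.swap k l ∧ Equiv.swap i j ≠ Equiv.swap l m ∧
    Equiv.swap i j * Equiv.swap k l = Equiv.swap k l * Equiv.swap i j ∧
    Equiv.swap i j * Equiv.swap l m = Equiv.swap l m * Equiv.swap i j ∧
    Equiv.swap k l * Equiv.swap l m ≠ Equiv.swap l m * Equiv.swap k l ∧
    Equiv.swap k l * Equiv.swap l m * Equiv.swap k l = Equiv.swap k m := by decide +kernel

theorem Hyp.exists_nc {a d : G} (h : Adj D a d) : ∃ e, Adj D a e ∧ ¬ Commute d e := by
  obtain ⟨p, q, hp, hq, hpq, -⟩ := H.loc a h.1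
  by_cases hdp : d = p
  · exact ⟨q, hq, by rw [hdp]; exact hpq⟩
  · exact ⟨p, hp, fun hc => hdp (H.tri h hp hc)⟩

theorem Hyp.petersen {d a b : G} (ha : Adj D d a) (hb : Adj D d b) (hab : ¬ Commute a b)
    (hno : ∀ e ∈ D, e ≠ d → Commute e a → ¬ Commute e b) :
    ∃ φ : Equiv.Perm (Fin 5) →* G, Function.Injective φ ∧ φ.range = Subgroup.closure D := by
  obtain ⟨e, hae, hde⟩ := H.exists_nc ha.symm
  have hed : e ≠ d := by rintro rfl; exact hde (Commute.refl _)
  have heb : ¬ Commute e b := hno e hae.2.1 hed hae.2.2.2.symm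
  have rel : H47.SymCox.RelF (![d, e, b, a] : Fin 4 → G) := by
    refine ⟨?_, ?_, ?_⟩
    · intro i
      fin_cases i
      · exact mul_self H.tt ha.1
      · exact mul_self H.tt hae.2.1
      · exact mul_self H.tt hb.2.1
      · exact mul_self H.tt ha.2.1
    · intro i j hij
      fin_cases i <;> fin_cases j <;> first
        | exact absurd hij (by decide)
        | exact hb.2.2.2.eq
        | exact ha.2.2.2.eq
        | exact hae.2.2.2.symm.eq
    · intro i j hij
      fin_cases i <;> fin_cases j <;> first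
        | exact absurd hij (by decide)
        | exact braid H.tt ha.1 hae.2.1 hde
        | exact braid H.tt hae.2.1 hb.2.1 heb
        | exact braid H.tt hb.2.1 ha.2.1 (fun h => hab h.symm)
  obtain ⟨φ, hφ⟩ := H47.SymCox.exists_hom _ rel
  have h01 : φ (Equiv.swap 0 1) = d := hφ 0
  have h12 : φ (Equiv.swap 1 2) = e := hφ 1
  have hinj : Function.Injective φ := by
    rw [← MonoidHom.ker_eq_bot_iff]
    by_contra hne
    have hnt : Nontrivial φ.ker := (Subgroup.nontrivial_iff_ne_bot _).2 hne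
    have h1 := Equiv.Perm.alternatingGroup_le_of_normal (α := Fin 5) (by rw [Nat.card_fin]) hnt
    have h2 : Equiv.swap (0 : Fin 5) 1 * Equiv.swap 1 2 ∈ alternatingGroup (Fin 5) := by
      rw [Equiv.Perm.mem_alternatingGroup]; decide
    have h3 := h1 h2
    rw [MonoidHom.mem_ker, map_mul, h01, h12] at h3
    apply hde
    have h4 : e = d := by
      rw [← inv_eq H.tt ha.1]; exact (inv_eq_of_mul_eq_one_right h3).symm
    rw [h4]
  have hsub : ∀ i j : Fin 5, i ≠ j → φ (Equiv.swap i j) ∈ D := by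
    intro i j hij
    obtain ⟨g, hg⟩ := isConj_iff.1 (Equiv.Perm.isConj_swap (show (0 : Fin 5) ≠ 1 by decide) hij)
    rw [← hg, map_mul, map_mul, map_inv, h01]
    exact H.conj _ d ha.1
  have hnb : ∀ i j : Fin 5, i ≠ j → ∀ z, Adj D (φ (Equiv.swap i j)) z → ∃ k l : Fin 5, k ≠ l ∧ φ (Equiv.swap k l) = z := by
    intro i j hij z hz
    obtain ⟨k, l, m, kl, lm, km, n1, n2, c1, c2, nc, e3⟩ := swap_dec i j hij
    have a1 : Adj D (φ (Equiv.swap i j)) (φ (Equiv.swap k l)) := by
      refine ⟨hsub _ _ hij, hsub _ _ kl, fun h => n1 (hinj h), ?_⟩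
      show _ * _ = _ * _
      rw [← map_mul, c1, map_mul]
    have a2 : Adj D (φ (Equiv.swap i j)) (φ (Equiv.swap l m)) := by
      refine ⟨hsub _ _ hij, hsub _ _ lm, fun h => n2 (hinj h), ?_⟩
      show _ * _ = _ * _
      rw [← map_mul, c2, map_mul]
    have a3 : ¬ Commute (φ (Equiv.swap k l)) (φ (Equiv.swap l m)) := by
      intro h
      apply nc
      apply hinj
      rw [map_mul, map_mul]
      exact h
    rcases H.loc2 a1 a2 a3 hz with h | h | h
    · exact ⟨k, l, kl, h.symm⟩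
    · exact ⟨l, m, lm, h.symm⟩
    · exact ⟨k, m, km, by rw [h, ← map_mul, ← map_mul, e3]⟩
  have hD : ∀ x ∈ D, ∃ i j : Fin 5, i ≠ j ∧ φ (Equiv.swap i j) = x := by
    intro x hx
    by_contra hcon
    have hnc : ∀ {x}, x ∈ D → (¬ ∃ i j : Fin 5, i ≠ j ∧ φ (Equiv.swap i j) = x) → ∀ i j : Fin 5, i ≠ j →
        ¬ Commute x (φ (Equiv.swap i j)) := by
      intro x hx hcon i j hij h
      apply hcon
      by_cases he : x = φ (Equiv.swap i j)
      · exact ⟨i, j, hij, he.symm⟩
      · exact hnb i j hij x ⟨hsub _ _ hij, hx, fun h => he h.symm, h.symm⟩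
    have hmv : ∀ {x}, x ∈ D → (¬ ∃ i j : Fin 5, i ≠ j ∧ φ (Equiv.swap i j) = x) → ∀ i j k l : Fin 5, i ≠ j → k ≠ l →
        Equiv.swap i j ≠ Equiv.swap k l → Equiv.swap i j * Equiv.swap k l = Equiv.swap k l * Equiv.swap i j →
        Adj D x (φ (Equiv.swap i j * Equiv.swap k l) * x * (φ (Equiv.swap i j * Equiv.swap k l))⁻¹) := by
      intro x hx hcon i j k l hij hkl hne hc
      rw [map_mul]
      apply H.move hx ?_ (hnc hx hcon i j hij) (hnc hx hcon k l hkl)
      refine ⟨hsub _ _ hij, hsub _ _ hkl, fun h => hne (hinj h), ?_⟩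
      show _ * _ = _ * _
      rw [← map_mul, hc, map_mul]
    have m1 := hmv hx hcon 0 1 2 3 (by decide) (by decide) (by decide) (by decide)
    set x1 := φ (Equiv.swap 0 1 * Equiv.swap 2 3) * x * (φ (Equiv.swap 0 1 * Equiv.swap 2 3))⁻¹ with hx1
    have hcon1 : ¬ ∃ i j : Fin 5, i ≠ j ∧ φ (Equiv.swap i j) = x1 := by
      rintro ⟨i, j, hij, he⟩
      rw [← he] at m1
      exact hcon (hnb i j hij x m1.symm)
    have m2 := hmv m1.2.1 hcon1 0 2 1 3 (by decide) (by decide) (by decide) (by decide)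
    have m3 := hmv hx hcon 0 3 1 2 (by decide) (by decide) (by decide) (by decide)
    have e3 : φ (Equiv.swap 0 3 * Equiv.swap 1 2) * x * (φ (Equiv.swap 0 3 * Equiv.swap 1 2))⁻¹ =
        φ (Equiv.swap 0 2 * Equiv.swap 1 3) * x1 * (φ (Equiv.swap 0 2 * Equiv.swap 1 3))⁻¹ := by
      have e4 : Equiv.swap (0 : Fin 5) 3 * Equiv.swap 1 2 = (Equiv.swap 0 2 * Equiv.swap 1 3) *
        (Equiv.swap 0 1 * Equiv.swap 2 3) := by decide
      rw [e4, map_mul φ (Equiv.swap 0 2 * Equiv.swap 1 3), hx1]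
      group
    rw [e3] at m3
    exact m2.2.2.1 (H.tri m1 m3 m2.2.2.2)
  refine ⟨φ, hinj, ?_⟩
  rw [MonoidHom.range_eq_map, ← Equiv.Perm.closure_isSwap, MonoidHom.map_closure]
  congr 1
  ext x
  constructor
  · rintro ⟨τ, ⟨i, j, hij, rfl⟩, rfl⟩
    exact hsub i j hij
  · intro hx
    obtain ⟨i, j, hij, rfl⟩ := hD x hx
    exact ⟨_, ⟨i, j, hij, rfl⟩, rfl⟩

end H91.CubicTT
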