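import Mathlib
import Cfsg.Prelude.Def_FischerSpaces
import Cfsg.Agent.Lib.H92.LGAll
import Cfsg.Agent.Lib.H91.FourGroup
import Cfsg.Agent.Lib.H5.ZStar
import Cfsg.Agent.Lib.H5.ZStar1
import Cfsg.Agent.Lib.H25.Isolated
import Cfsg.Agent.Lib.H1.Cores
import Cfsg.Agent.Lib.H1.SZ

/-!
A class `D` of involutions and a connected set `Γ ⊆ D` of 3-transpositions closed under commuting members of `D`:
under suitable hypotheses `D = Γ`.
-/

set_option autoImplicit false
set_option linter.dupNamespace false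
set_option linter.unusedSectionVars false
set_option linter.style.haveILetI false
set_option linter.unusedVariables false
open Cfsg

namespace H91.FiEmb
open H92.Tri H92.Lev H92.Geo

universe u
variable {G : Type u} [Group G]

structure Emb (n : ℕ) (D Γ : Set G) (H : Subgroup G) : Prop where
  conj : ∀ g : G, ∀ x ∈ D, g * x * g⁻¹ ∈ D
  sq : ∀ x ∈ D, x * x = 1
  sub : Γ ⊆ D
  lev : Lev (n + 1) Γ
  nb : ∀ x ∈ Γ, ∀ y ∈ D, Commute x y → y ∈ Γ
  mv : ∀ g : G, ∀ y ∈ Γ, g * y * g⁻¹ ∈ Γ → g ∈ H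
  mem : ∀ g ∈ H, ∀ y ∈ Γ, g * y * g⁻¹ ∈ Γ
  fp : ∀ w ∈ H, w * w = 1 → ∃ x ∈ Γ, Commute w x
  inv : ∀ x ∈ Γ, ∀ w, w * w = 1 → Commute w x → ∃ l : List G, l.Nodup ∧ l.length ≤ 3 ∧ (∀ a ∈ l, a ∈ C Γ x) ∧
    (∀ a ∈ l, ∀ b ∈ l, Commute a b) ∧ (w = l.prod ∨ w = x * l.prod)
  odd7 : ∀ a ∈ Γ, ∀ c ∈ Γ, a ≠ c → Commute a c → ∃ e1 ∈ Γ, ∃ e2 ∈ Γ, ∃ e3 ∈ Γ, ∃ e4 ∈ Γ, ∃ e5 ∈ Γ,
    (∀ x ∈ [e1, e2, e3, e4, e5], Commute x a ∧ Commute x c) ∧ (∀ x ∈ [e1, e2, e3, e4, e5], ∀ y ∈ [e1, e2, e3, e4, e5], Commute x y) ∧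
    a * c * e1 * e2 * e3 * e4 * e5 = 1
  four : ∀ x ∈ Γ, ∀ l : List G, l.Nodup → l.length = 3 → (∀ a ∈ l, a ∈ C Γ x) → (∀ a ∈ l, ∀ b ∈ l, Commute a b) →
    ∃ l' : List G, l'.Nodup ∧ l'.length ≤ 3 ∧ (∀ a ∈ l', a ∈ Γ) ∧ (∀ a ∈ l', ∀ b ∈ l', Commute a b) ∧ x * l.prod = l'.prod
  sep : ∀ x ∈ Γ, ∀ a ∈ Γ, ∀ c ∈ Γ, x ≠ a → x ≠ c → a ≠ c → Commute x a → Commute x c → Commute a c →
    ∃ x' ∈ Γ, x' ≠ x ∧ x' ≠ a ∧ x' ≠ c ∧ Commute x' x ∧ Commute x' a ∧ Commute x' c ∧
      (n = 0 → ∃ e ∈ C Γ x', Commute e x ∧ Commute e a ∧ ¬ Commute e c)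

/-- splitting a central subgroup of order two off a normal subgroup -/
theorem odd_complement {N : Type*} [Group N] [Finite N] (K Z : Subgroup N) (hK : K.Normal) (hZ : Z ≤ Subgroup.center N) (hZK : Z ≤ K)
    (hZ2 : Nat.card Z = 2) (hodd : Odd (Z.relIndex K)) :
    ∃ K0 : Subgroup N, K0.Normal ∧ Odd (Nat.card K0) ∧ ∀ k ∈ K, ∃ z ∈ Z, ∃ k0 ∈ K0, k = z * k0 := by
  haveI : (Z.subgroupOf K).Normal := by
    refine ⟨fun z hz g => ?_⟩
    have hz' : (z : N) ∈ Z := Subgroup.mem_subgroupOf.1 hz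
    rw [Subgroup.mem_subgroupOf]
    have := Subgroup.mem_center_iff.1 (hZ hz') (g : N)
    show (g : N) * z * (g : N)⁻¹ ∈ Z
    rw [this, mul_inv_cancel_right]; exact hz'
  have hZc : Nat.card (Z.subgroupOf K) = 2 := by rw [H1.SZ.card_subgroupOf_of_le hZK, hZ2]
  have hidx : Odd (Z.subgroupOf K).index := hodd
  have hcop : (Nat.card (Z.subgroupOf K)).Coprime (Z.subgroupOf K).index := by
    rw [hZc]; exact (Nat.coprime_two_left).2 hidx
  obtain ⟨L, hL⟩ := Subgroup.exists_right_complement'_of_coprime hcop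
  have hLcard : Nat.card L = (Z.subgroupOf K).index := by
    have h1 := hL.card_mul
    have h2 := Subgroup.card_mul_index (Z.subgroupOf K)
    rw [hZc] at h1 h2
    omega
  have hLodd : Odd (Nat.card (L.map K.subtype)) := by
    rw [Subgroup.card_map_of_injective K.subtype_injective, hLcard]; exact hidx
  have hdec : ∀ k ∈ K, ∃ z ∈ Z, ∃ k0 ∈ L.map K.subtype, k = z * k0 := by
    intro k hk
    obtain ⟨⟨z, l⟩, hzk, -⟩ := hL.existsUnique ⟨k, hk⟩
    refine ⟨((z : K) : N), Subgroup.mem_subgroupOf.1 z.2, ((l : K) : N), ⟨l, l.2, rfl⟩, ?_⟩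
    exact (congrArg Subtype.val hzk).symm
  refine ⟨L.map K.subtype, ⟨fun k hk g => ?_⟩, hLodd, hdec⟩
  have hkK : k ∈ K := by obtain ⟨l, _, rfl⟩ := hk; exact l.2
  obtain ⟨z, hz, k0, hk0, e⟩ := hdec _ (hK.conj_mem k hkK g)
  have hzz : z * z = 1 := by
    have := pow_card_eq_one' (x := (⟨z, hz⟩ : Z))
    rw [hZ2, pow_two] at this
    exact congrArg Subtype.val this
  have hzc := Subgroup.mem_center_iff.1 (hZ hz)
  set m := Nat.card (L.map K.subtype) with hm
  have h1 : (g * k * g⁻¹) ^ m = 1 := by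
    rw [conj_pow]
    have : k ^ m = 1 := by
      have := pow_card_eq_one' (x := (⟨k, hk⟩ : ↥(L.map K.subtype)))
      exact congrArg Subtype.val this
    rw [this]; group
  have h2 : k0 ^ m = 1 := by
    have := pow_card_eq_one' (x := (⟨k0, hk0⟩ : ↥(L.map K.subtype)))
    exact congrArg Subtype.val this
  rw [e, (show Commute z k0 from (hzc k0).symm).mul_pow, h2, mul_one] at h1
  obtain ⟨j, hj⟩ := hLodd
  rw [hj, pow_succ, pow_mul, pow_two, hzz, one_pow, one_mul] at h1
  rw [e, h1, one_mul]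
  exact hk0

/-- dihedral identities -/
theorem dih1 {x y : G} (hx : x * x = 1) (hy : y * y = 1) (j : ℕ) : (y * x) ^ j * x * ((y * x) ^ j)⁻¹ = x * (x * y) ^ (2 * j) := by
  have hxi : x⁻¹ = x := inv_eq_of_mul_eq_one_left hx
  have hyi : y⁻¹ = y := inv_eq_of_mul_eq_one_left hy
  have h0 : (y * x)⁻¹ = x * y := by rw [mul_inv_rev, hxi, hyi]
  have h1 : (y * x) ^ j * x = x * (x * y) ^ j := by
    have : y * x = x * (x * y) * x⁻¹ := by rw [← mul_assoc x x y, hx, one_mul, hxi]
    rw [this, conj_pow]; group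
  rw [← inv_pow, h0, h1, mul_assoc, ← pow_add, two_mul]

theorem dih2 {x y : G} (hx : x * x = 1) (hy : y * y = 1) (j : ℕ) : (y * x) ^ j * y * ((y * x) ^ j)⁻¹ = x * (x * y) ^ (2 * j + 1) := by
  have hxi : x⁻¹ = x := inv_eq_of_mul_eq_one_left hx
  have hyi : y⁻¹ = y := inv_eq_of_mul_eq_one_left hy
  have h0 : (y * x)⁻¹ = x * y := by rw [mul_inv_rev, hxi, hyi]
  have h1 : (y * x) ^ j * x = x * (x * y) ^ j := by
    have : y * x = x * (x * y) * x⁻¹ := by rw [← mul_assoc x x y, hx, one_mul, hxi]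
    rw [this, conj_pow]; group
  have h2 : y = x * (x * y) := by rw [← mul_assoc, hx, one_mul]
  calc (y * x) ^ j * y * ((y * x) ^ j)⁻¹ = (y * x) ^ j * (x * (x * y)) * ((y * x) ^ j)⁻¹ := by rw [← h2]
    _ = (y * x) ^ j * x * (x * y) * ((y * x)⁻¹) ^ j := by rw [inv_pow]; group
    _ = x * (x * y) ^ j * (x * y) * (x * y) ^ j := by rw [h0, h1]
    _ = x * (x * y) ^ (2 * j + 1) := by
        rw [mul_assoc, mul_assoc, ← pow_succ', ← pow_add]
        congr 2; ring

/-- odd order of the product: conjugate -/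
theorem conj_of_odd {x y : G} (hx : x * x = 1) (hy : y * y = 1) (h : Odd (orderOf (x * y))) : ∃ j : ℕ, (y * x) ^ j * x * ((y * x) ^ j)⁻¹ = y := by
  obtain ⟨k, hk⟩ := h
  refine ⟨k + 1, ?_⟩
  rw [dih1 hx hy]
  have h1 : (x * y) ^ (2 * (k + 1)) = x * y := by
    rw [show 2 * (k + 1) = (2 * k + 1) + 1 by ring, pow_succ, ← hk, pow_orderOf_eq_one, one_mul]
  rw [h1, ← mul_assoc, hx, one_mul]

/-- even order of the product: the central involution -/
theorem central_inv {x y : G} (hx : x * x = 1) (hy : y * y = 1) (hfin : 0 < orderOf (x * y)) (h : Even (orderOf (x * y))) :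
    ∃ v : G, v * v = 1 ∧ v ≠ 1 ∧ Commute v x ∧ Commute v y ∧ ∃ m : ℕ, v = (x * y) ^ m := by
  obtain ⟨m, hm⟩ := h
  have hxi : x⁻¹ = x := inv_eq_of_mul_eq_one_left hx
  have hyi : y⁻¹ = y := inv_eq_of_mul_eq_one_left hy
  have hv2 : (x * y) ^ m * (x * y) ^ m = 1 := by rw [← pow_add, ← hm, pow_orderOf_eq_one]
  have hv : ((x * y) ^ m)⁻¹ = (x * y) ^ m := inv_eq_of_mul_eq_one_left hv2
  have hvx : Commute ((x * y) ^ m) x := by
    show (x * y) ^ m * x = x * (x * y) ^ m
    have h1 : x * (x * y) ^ m * x⁻¹ = (x * y) ^ m := by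
      rw [← conj_pow]
      have : x * (x * y) * x⁻¹ = (x * y)⁻¹ := by rw [mul_inv_rev, hxi, hyi, ← mul_assoc, hx, one_mul]
      rw [this, inv_pow, hv]
    calc (x * y) ^ m * x = (x * (x * y) ^ m * x⁻¹) * x := by rw [h1]
      _ = x * (x * y) ^ m := by group
  have hvy : Commute ((x * y) ^ m) y := by
    have h1 : Commute ((x * y) ^ m) (x * y) := Commute.pow_self _ _
    have h2 : Commute ((x * y) ^ m) (x * (x * y)) := hvx.mul_right h1
    rwa [← mul_assoc, hx, one_mul] at h2
  refine ⟨(x * y) ^ m, hv2, ?_, hvx, hvy, m, rfl⟩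
  intro h1
  have := orderOf_dvd_of_pow_eq_one h1
  have h2 := Nat.le_of_dvd (by omega) this
  omega

variable {n : ℕ} {D Γ : Set G} {H : Subgroup G}

section
variable (h : Emb n D Γ H)
include h

theorem Emb.tri : Tri Γ := h.lev.tri

theorem Emb.cen {x g : G} (hx : x ∈ Γ) (hg : Commute g x) : g ∈ H := by
  apply h.mv g x hx
  rw [hg.eq, mul_inv_cancel_right]; exact hx

theorem Emb.subH {x : G} (hx : x ∈ Γ) : x ∈ H := h.cen hx (Commute.refl x)

/-- `D ∩ H = Γ` -/
theorem Emb.DH {e : G} (he : e ∈ D) (heH : e ∈ H) : e ∈ Γ := by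
  obtain ⟨x, hx, hc⟩ := h.fp e heH (h.sq e he)
  exact h.nb x hx e he hc.symm

theorem Emb.ne_one {x : G} (hx : x ∈ Γ) : x ≠ 1 := h.lev.ne_one hx

/-- uniqueness of the factors of a product of two -/
theorem Emb.two {r s r' s' : G} (hr : r ∈ Γ) (hs : s ∈ Γ) (hr' : r' ∈ Γ) (hs' : s' ∈ Γ) (hrs : Commute r s) (hrs' : Commute r' s')
    (hne : r ≠ s) (hne' : r' ≠ s') (he : r * s = r' * s') : r' = r ∨ r' = s := by
  have hT := h.tri
  by_contra hcon
  push Not at hcon
  obtain ⟨n1, n2⟩ := hcon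
  have c1 : Commute r (r * s) := (Commute.refl r).mul_right hrs
  have c2 : Commute s (r * s) := hrs.symm.mul_right (Commute.refl s)
  rw [he] at c1 c2
  obtain ⟨d1, d2⟩ := comm_two hT hr' hs' hr hrs' hne' c1
  obtain ⟨d3, d4⟩ := comm_two hT hr' hs' hs hrs' hne' c2
  have n3 : s' ≠ r := by
    rintro rfl
    apply n2
    have : s' * s = s' * r' := by rw [he, hrs'.eq]
    exact (mul_left_cancel this).symm
  have n4 : s' ≠ s := by
    rintro rfl
    exact n1 (mul_right_cancel he).symm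
  have hl := (h.lev.C hr).rel_min [s, r', s'] (by
    simp only [List.nodup_cons, List.mem_cons, List.not_mem_nil, or_false, not_or, List.nodup_nil, and_true, not_false_eq_true]
    exact ⟨⟨fun e => n2 e.symm, fun e => n4 e.symm⟩, hne'⟩) (by
    intro x hx
    simp only [List.mem_cons, List.not_mem_nil, or_false] at hx
    rcases hx with rfl | rfl | rfl
    · exact ⟨hs, hne.symm, hrs⟩
    · exact ⟨hr', n1, d1⟩
    · exact ⟨hs', n3, d2⟩) (by
    intro x hx y hy
    simp only [List.mem_cons, List.not_mem_nil, or_false] at hx hy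
    rcases hx with rfl | rfl | rfl <;> rcases hy with rfl | rfl | rfl
    · exact Commute.refl _
    · exact d3
    · exact d4
    · exact d3.symm
    · exact Commute.refl _
    · exact hrs'
    · exact d4.symm
    · exact hrs'.symm
    · exact Commute.refl _) (by
    intro e hee
    have : [s, r', s'].prod = r := by
      simp only [List.prod_cons, List.prod_nil, mul_one]
      rw [← he, ← mul_assoc, ← hrs.eq, mul_assoc, hT.sq s hs, mul_one]
    rw [this]; exact hee.2.2)
  rcases hl with h1 | h1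
  · cases h1
  · simp only [List.length_cons, List.length_nil] at h1; omega

end

/-- the centralizer of a product of two commuting members -/
theorem Emb.wt2 [Finite G] (h : Emb n D Γ H) {a c : G} (ha : a ∈ Γ) (hc : c ∈ Γ) (hne : a ≠ c) (hac : Commute a c) {g : G}
    (hg : Commute g (a * c)) : g ∈ H := by
  have hT := h.tri
  set w := a * c with hw
  have haa := hT.sq a ha
  have hcc := hT.sq c hc
  have hww : w * w = 1 := by
    rw [hw]
    calc a * c * (a * c) = a * (c * a) * c := by group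
      _ = a * (a * c) * c := by rw [← hac.eq]
      _ = (a * a) * (c * c) := by group
      _ = 1 := by rw [haa, hcc, one_mul]
  have hw1 : w ≠ 1 := by
    intro h1
    apply hne
    have : a * c = c * c := by rw [hcc]; exact h1
    exact mul_right_cancel this
  have haw : Commute a w := (Commute.refl a).mul_right hac
  have hcw : Commute c w := hac.symm.mul_right (Commute.refl c)
  have hc_eq : a * w = c := by rw [hw, ← mul_assoc, haa, one_mul]
  let N : Subgroup G := Subgroup.centralizer {w}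
  have mN : ∀ x, x ∈ N ↔ Commute x w := fun x => by
    rw [Subgroup.mem_centralizer_singleton_iff]
    rfl
  -- conjugates of `a` in `N`
  have key : ∀ x ∈ N, (Commute a (x * a * x⁻¹) → x * a * x⁻¹ = a ∨ x * a * x⁻¹ = c) ∧ a * (x * a * x⁻¹) * a * (x * a * x⁻¹) ≠ w := by
    intro x hx
    have hxw := (mN x).1 hx
    set a' := x * a * x⁻¹ with ha'
    have haD : a' ∈ D := h.conj x a (h.sub ha)
    have haw' : Commute a' w := by
      have : Commute (x * a * x⁻¹) (x * w * x⁻¹) := (Commute.conj_iff x).2 haw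
      rwa [hxw.eq, mul_inv_cancel_right] at this
    constructor
    · intro hcomm
      have ha'Γ : a' ∈ Γ := h.nb a ha a' haD hcomm
      have hc'D : x * c * x⁻¹ ∈ D := h.conj x c (h.sub hc)
      have hc'eq : x * c * x⁻¹ = a' * w := by
        rw [← hc_eq, ha']
        have : x * w * x⁻¹ = w := by rw [hxw.eq, mul_inv_cancel_right]
        calc x * (a * w) * x⁻¹ = (x * a * x⁻¹) * (x * w * x⁻¹) := by group
          _ = _ := by rw [this]
      have hac' : Commute a (x * c * x⁻¹) := by rw [hc'eq]; exact hcomm.mul_right haw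
      have hc'Γ : x * c * x⁻¹ ∈ Γ := h.nb a ha _ hc'D hac'
      have hcc' : Commute a' (x * c * x⁻¹) := (Commute.conj_iff x).2 hac
      have hne' : a' ≠ x * c * x⁻¹ := by
        intro e
        apply hne
        have : x * a * x⁻¹ = x * c * x⁻¹ := e
        exact mul_left_cancel (mul_right_cancel this)
      apply h.two ha hc ha'Γ hc'Γ hac hcc' hne hne'
      rw [hc'eq, ← mul_assoc, h.sq a' haD, one_mul]
    · intro hsw
      have ha'sq := h.sq a' haD
      -- `a'` swaps `a` and `c`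
      have h1 : a' * a * a' = c := by
        rw [← hc_eq, ← hsw]
        calc a' * a * a' = (a * a) * a' * a * a' := by rw [haa, one_mul]
          _ = a * (a * a' * a * a') := by group
      have hinv : a'⁻¹ = a' := inv_eq_of_mul_eq_one_left ha'sq
      have ha'H : a' ∈ H := h.mv a' a ha (by rw [hinv, h1]; exact hc)
      have ha'Γ := h.DH haD ha'H
      have hnc : ¬ Commute a a' := by
        intro hcm
        apply hne
        rw [← h1, ← hcm.eq, mul_assoc, ha'sq, mul_one]
      have hb := braid hT ha ha'Γ hnc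
      apply hnc
      -- `c = a' a a' = a a' a` commutes with `a`
      have h2 : Commute a (a * a' * a) := by
        rw [hb, h1]; exact hac
      have h3 : Commute a (a * (a * a' * a) * a) := ((Commute.refl a).mul_right h2).mul_right (Commute.refl a)
      have h4 : a * (a * a' * a) * a = a' := by
        calc a * (a * a' * a) * a = (a * a) * a' * (a * a) := by group
          _ = a' := by rw [haa, one_mul, mul_one]
      rwa [h4] at h3
  -- the quotient
  let wN : ↥N := ⟨w, (mN w).2 (Commute.refl w)⟩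
  let Z : Subgroup ↥N := Subgroup.zpowers wN
  have hZc : Z ≤ Subgroup.center ↥N := by
    rw [Subgroup.zpowers_le]
    rw [Subgroup.mem_center_iff]
    intro x
    exact Subtype.ext ((mN x).1 x.2).eq
  haveI hZn : Z.Normal := by
    refine ⟨fun z hz x => ?_⟩
    rw [Subgroup.mem_center_iff.1 (hZc hz) x, mul_inv_cancel_right]; exact hz
  have hwo : orderOf wN = 2 := by
    apply orderOf_eq_prime
    · rw [pow_two]; exact Subtype.ext hww
    · intro e; exact hw1 (congrArg Subtype.val e)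
  have hZ2 : Nat.card Z = 2 := by rw [Nat.card_zpowers, hwo]
  have mZ : ∀ z : ↥N, z ∈ Z ↔ z = 1 ∨ z = wN := by
    intro z
    constructor
    · intro hz
      obtain ⟨k, rfl⟩ := Subgroup.mem_zpowers_iff.1 hz
      rcases Int.even_or_odd' k with ⟨j, rfl | rfl⟩
      · left
        rw [zpow_mul, show wN ^ (2 : ℤ) = 1 from by rw [zpow_ofNat, ← hwo]; exact pow_orderOf_eq_one _, one_zpow]
      · right
        rw [zpow_add, zpow_mul, show wN ^ (2 : ℤ) = 1 from by rw [zpow_ofNat, ← hwo]; exact pow_orderOf_eq_one _, one_zpow, one_mul, zpow_one]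
    · rintro (rfl | rfl)
      · exact one_mem _
      · exact Subgroup.mem_zpowers _
  let aN : ↥N := ⟨a, (mN a).2 haw⟩
  let π : ↥N →* ↥N ⧸ Z := QuotientGroup.mk' Z
  have hπ : ∀ z, π z = 1 ↔ z ∈ Z := fun z => QuotientGroup.eq_one_iff z
  have hiso : IsIsolatedInvolution (π aN) := by
    constructor
    · apply orderOf_eq_prime
      · rw [pow_two, ← map_mul]
        have : aN * aN = 1 := Subtype.ext haa
        rw [this, map_one]
      · intro e
        rw [hπ, mZ] at e
        rcases e with e | e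
        · exact h.ne_one ha (congrArg Subtype.val e)
        · have : a = w := congrArg Subtype.val e
          apply h.ne_one hc
          rw [← hc_eq, ← this, haa]
    · intro q hq
      obtain ⟨x, rfl⟩ := QuotientGroup.mk'_surjective Z q
      have e1 : (QuotientGroup.mk' Z) x * π aN * ((QuotientGroup.mk' Z) x)⁻¹ = π (x * aN * x⁻¹) := by
        rw [map_mul, map_mul, map_inv]
      rw [e1] at hq ⊢
      have h2 : π (aN * (x * aN * x⁻¹) * aN * (x * aN * x⁻¹)) = 1 := by
        rw [map_mul, map_mul, map_mul]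
        have h3 : π aN * π aN = 1 := by
          rw [← map_mul]
          have : aN * aN = 1 := Subtype.ext haa
          rw [this, map_one]
        have h4 : π (x * aN * x⁻¹) * π (x * aN * x⁻¹) = 1 := by
          rw [← map_mul]
          have : x * aN * x⁻¹ * (x * aN * x⁻¹) = 1 := by
            calc x * aN * x⁻¹ * (x * aN * x⁻¹) = x * (aN * aN) * x⁻¹ := by group
              _ = 1 := by
                have : aN * aN = 1 := Subtype.ext haa
                rw [this]; group
          rw [this, map_one]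
        have h5 := hq.eq
        calc π aN * π (x * aN * x⁻¹) * π aN * π (x * aN * x⁻¹) = π aN * (π (x * aN * x⁻¹) * π aN) * π (x * aN * x⁻¹) := by group
          _ = π aN * (π aN * π (x * aN * x⁻¹)) * π (x * aN * x⁻¹) := by rw [← h5]
          _ = (π aN * π aN) * (π (x * aN * x⁻¹) * π (x * aN * x⁻¹)) := by group
          _ = 1 := by rw [h3, h4, one_mul]
      rw [hπ, mZ] at h2
      have hk := key x x.2
      rcases h2 with h2 | h2
      · have h3 : a * (x * a * (x : G)⁻¹) * a * (x * a * (x : G)⁻¹) = 1 := congrArg Subtype.val h2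
        have hcomm : Commute a (x * a * (x : G)⁻¹) := by
          have ha's : (x * a * (x : G)⁻¹) * (x * a * (x : G)⁻¹) = 1 := h.sq _ (h.conj x a (h.sub ha))
          show a * (x * a * (x : G)⁻¹) = (x * a * (x : G)⁻¹) * a
          have e2 : (a * (x * a * (x : G)⁻¹)) * (a * (x * a * (x : G)⁻¹)) = 1 := by rw [← h3]; group
          have e3 : (a * (x * a * (x : G)⁻¹))⁻¹ = a * (x * a * (x : G)⁻¹) := inv_eq_of_mul_eq_one_left e2
          have e4 : (a * (x * a * (x : G)⁻¹))⁻¹ = (x * a * (x : G)⁻¹) * a := by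
            rw [mul_inv_rev, inv_eq_of_mul_eq_one_left haa, inv_eq_of_mul_eq_one_left ha's]
          rw [← e3, e4]
        rcases hk.1 hcomm with h4 | h4
        · have : x * aN * x⁻¹ = aN := Subtype.ext h4
          rw [this]
        · have : x * aN * x⁻¹ = aN * wN := Subtype.ext (by
            show x * a * (x : G)⁻¹ = a * w
            rw [h4, hc_eq])
          rw [this, map_mul, (hπ wN).2 (Subgroup.mem_zpowers _), mul_one]
      · exact absurd (congrArg Subtype.val h2) hk.2
  have hII : H5.ZStar1.IsoInv (π aN) := ⟨hiso.1, fun q => H25.Isolated.odd_orderOf_mul_conj hiso q⟩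
  have hzs := H5.ZStar.zstar hII
  set O := pPrimeCore 2 (↥N ⧸ Z) with hO
  haveI hOn : O.Normal := H1.Cores.pPrimeCore_normal 2
  have hOodd : Odd (Nat.card O) := Nat.coprime_two_right.mp (H1.Cores.coprime_card_pPrimeCore 2)
  have hKn : (O.comap π).Normal := inferInstance
  have hZK : Z ≤ O.comap π := by
    intro z hz
    rw [Subgroup.mem_comap, (hπ z).2 hz]; exact one_mem _
  have hrel : Odd (Z.relIndex (O.comap π)) := by
    have h1 : Nat.card Z * Z.relIndex (O.comap π) = Nat.card (O.comap π) := by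
      rw [← H1.SZ.card_subgroupOf_of_le hZK]
      exact Subgroup.card_mul_index _
    have h2 : Nat.card (O.comap π) = Nat.card Z * Nat.card O := H1.Cores.card_comap_mk' Z O
    rw [h2] at h1
    have := Nat.eq_of_mul_eq_mul_left Nat.card_pos h1
    rw [this]; exact hOodd
  obtain ⟨K0, hK0n, hK0odd, hK0⟩ := odd_complement (O.comap π) Z hKn hZc hZK hZ2 hrel
  -- the odd group in `G`
  let L := K0.map N.subtype
  have hLodd : Odd (Nat.card L) := by
    show Odd (Nat.card (K0.map N.subtype))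
    rw [Subgroup.card_map_of_injective N.subtype_injective]; exact hK0odd
  have hLN : ∀ k ∈ L, Commute k w := by
    rintro _ ⟨k, _, rfl⟩
    exact (mN k).1 k.2
  have hLconj : ∀ x ∈ N, ∀ k ∈ L, x * k * x⁻¹ ∈ L := by
    rintro x hx _ ⟨k, hk, rfl⟩
    exact ⟨⟨x, hx⟩ * k * ⟨x, hx⟩⁻¹, hK0n.conj_mem k hk ⟨x, hx⟩, rfl⟩
  have hnorm : ∀ (M : Subgroup G) (x : G), x * x = 1 → (∀ k ∈ M, x * k * x⁻¹ ∈ M) → x ∈ Subgroup.normalizer (M : Set G) := by
    intro M x hxx hM
    rw [Subgroup.mem_normalizer_iff]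
    intro k
    refine ⟨fun hk => hM k hk, fun hk => ?_⟩
    have h1 := hM _ hk
    have hxi : x⁻¹ = x := inv_eq_of_mul_eq_one_left hxx
    rw [hxi] at h1
    have : x * (x * k * x) * x = k := by
      calc x * (x * k * x) * x = (x * x) * k * (x * x) := by group
        _ = k := by rw [hxx, one_mul, mul_one]
    rwa [this] at h1
  obtain ⟨e1, h1, e2, h2, e3, h3, e4, h4, e5, h5, hcm, hee, hprod⟩ := h.odd7 a ha c hc hne hac
  have hmem1 : e1 ∈ [e1, e2, e3, e4, e5] := by simp
  have hmem2 : e2 ∈ [e1, e2, e3, e4, e5] := by simp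
  have hmem3 : e3 ∈ [e1, e2, e3, e4, e5] := by simp
  have hmem4 : e4 ∈ [e1, e2, e3, e4, e5] := by simp
  have hmem5 : e5 ∈ [e1, e2, e3, e4, e5] := by simp
  have hN : ∀ x ∈ [e1, e2, e3, e4, e5], x ∈ N := fun x hx => (mN x).2 ((hcm x hx).1.mul_right (hcm x hx).2)
  have hLH : L ≤ H := by
    apply H91.FourGroup.le_of_centralizers (K := L) (C := H) hLodd (a := e1) (b := e2) (hT.sq _ h1) (hT.sq _ h2) (hee _ hmem1 _ hmem2).eq
      (hnorm L e1 (hT.sq _ h1) (hLconj e1 (hN _ hmem1))) (hnorm L e2 (hT.sq _ h2) (hLconj e2 (hN _ hmem2)))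
    · intro k _ hk
      exact h.cen h1 (show Commute k e1 from hk.symm)
    · intro k _ hk
      exact h.cen h2 (show Commute k e2 from hk.symm)
    · intro k hkL hk
      have hL1 : L ⊓ Subgroup.centralizer {e1 * e2} ≤ H := by
        have hsub : (L ⊓ Subgroup.centralizer {e1 * e2} : Subgroup G) ≤ L := inf_le_left
        have hodd1 : Odd (Nat.card (L ⊓ Subgroup.centralizer {e1 * e2} : Subgroup G)) :=
          hLodd.of_dvd_nat (Subgroup.card_dvd_of_le hsub)
        have hcj : ∀ x ∈ [e1, e2, e3, e4, e5], ∀ k ∈ L ⊓ Subgroup.centralizer {e1 * e2}, x * k * x⁻¹ ∈ L ⊓ Subgroup.centralizer {e1 * e2} := by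
          intro x hx k hk
          refine ⟨hLconj x (hN x hx) k hk.1, ?_⟩
          show x * k * x⁻¹ ∈ Subgroup.centralizer {e1 * e2}
          rw [Subgroup.mem_centralizer_singleton_iff]
          have q1 : Commute k (e1 * e2) := (Subgroup.mem_centralizer_singleton_iff.1 hk.2)
          have q2 : Commute x (e1 * e2) := (hee _ hx _ hmem1).mul_right (hee _ hx _ hmem2)
          exact ((q2.mul_left q1).mul_left q2.inv_left).eq
        apply H91.FourGroup.le_of_centralizers (K := L ⊓ Subgroup.centralizer {e1 * e2}) (C := H) hodd1 (a := e3) (b := e4) (hT.sq _ h3) (hT.sq _ h4)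
          (hee _ hmem3 _ hmem4).eq (hnorm _ e3 (hT.sq _ h3) (hcj e3 hmem3)) (hnorm _ e4 (hT.sq _ h4) (hcj e4 hmem4))
        · intro k _ hk
          exact h.cen h3 (show Commute k e3 from hk.symm)
        · intro k _ hk
          exact h.cen h4 (show Commute k e4 from hk.symm)
        · intro k hkL1 hk34
          have q1 : Commute k (e1 * e2) := (Subgroup.mem_centralizer_singleton_iff.1 hkL1.2)
          have q2 : Commute k (e3 * e4) := hk34.symm
          have q3 : Commute k w := hLN k hkL1.1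
          have q4 : Commute k (w * (e1 * e2) * (e3 * e4)) := (q3.mul_right q1).mul_right q2
          have e5i : w * (e1 * e2) * (e3 * e4) = e5⁻¹ := by
            rw [eq_inv_iff_mul_eq_one, ← hprod, hw]; group
          rw [e5i, inv_eq_of_mul_eq_one_left (hT.sq _ h5)] at q4
          exact h.cen h5 q4
      exact hL1 ⟨hkL, Subgroup.mem_centralizer_singleton_iff.2 hk.symm⟩
  -- conclusion
  have hgN : g ∈ N := (mN g).2 hg
  have hzg := hzs (π ⟨g, hgN⟩)
  have e1' : π aN * (π ⟨g, hgN⟩ * π aN * (π ⟨g, hgN⟩)⁻¹) = π (aN * (⟨g, hgN⟩ * aN * ⟨g, hgN⟩⁻¹)) := by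
    rw [map_mul, map_mul, map_mul, map_inv]
  rw [e1'] at hzg
  obtain ⟨z, hz, k0, hk0, hzk⟩ := hK0 _ (Subgroup.mem_comap.2 hzg)
  have hzk' : a * (g * a * g⁻¹) = (z : G) * (k0 : G) := congrArg Subtype.val hzk
  have hga : g * a * g⁻¹ = a * (z : G) * (k0 : G) := by
    calc g * a * g⁻¹ = (a * a) * (g * a * g⁻¹) := by rw [haa, one_mul]
      _ = a * (a * (g * a * g⁻¹)) := by group
      _ = a * ((z : G) * (k0 : G)) := by rw [hzk']
      _ = a * (z : G) * (k0 : G) := by group
  have hzH : (z : G) ∈ H := by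
    rcases (mZ z).1 hz with rfl | rfl
    · exact one_mem _
    · exact Subgroup.mul_mem _ (h.subH ha) (h.subH hc)
  have hgaH : g * a * g⁻¹ ∈ H := by
    rw [hga]
    exact Subgroup.mul_mem _ (Subgroup.mul_mem _ (h.subH ha) hzH) (hLH ⟨k0, hk0, rfl⟩)
  exact h.mv g a ha (h.DH (h.conj g a (h.sub ha)) hgaH)

end H91.FiEmb
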