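import Mathlib
import Cfsg.Prelude.Def_FischerSpaces
import Cfsg.Agent.Lib.H91.FiEmb
import Cfsg.Agent.Lib.H92.Uniq
import Cfsg.Agent.Lib.H92.Hyper
import Cfsg.Agent.Lib.H92.Simple

/-!
Components of a class of involutions which is locally a set of 3-transpositions.
-/

set_option autoImplicit false
set_option linter.dupNamespace false
set_option linter.unusedSectionVars false
set_option linter.style.haveILetI false
set_option linter.unusedVariables false
open Cfsg

namespace H91.FiComp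
open H92.Tri H92.Lev H92.Geo

variable {G : Type*} [Group G]

structure Loc (n : ℕ) (D : Set G) : Prop where
  conj : ∀ g : G, ∀ x ∈ D, g * x * g⁻¹ ∈ D
  sq : ∀ x ∈ D, x * x = 1
  lg : ∀ x ∈ D, LG n (C D x)
  nbr : ∀ x ∈ D, ∀ y ∈ D, ¬ Commute x y → (C D x ∩ C D y).Nonempty → ∀ u ∈ C D y, ∃ w ∈ C D x ∩ C D y, Commute w u

variable {n : ℕ} {D : Set G} (L : Loc n D)
include L

theorem near {x y : G} (hx : x ∈ D) (hy : y ∈ comp D x) : ∃ z ∈ D, Commute z x ∧ Commute z y := by
  induction hy with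
  | refl => exact ⟨x, hx, Commute.refl _, Commute.refl _⟩
  | @tail y y' hxy hyy ih =>
    obtain ⟨z, hz, hzx, hzy⟩ := ih
    by_cases c1 : Commute y x
    · exact ⟨y, hyy.1, c1, hyy.2.2⟩
    by_cases c2 : Commute y' x
    · exact ⟨x, hx, Commute.refl _, c2.symm⟩
    by_cases c3 : y' = y
    · subst c3; exact ⟨z, hz, hzx, hzy⟩
    have n1 : z ≠ x := by rintro rfl; exact c1 hzy.symm
    have n2 : z ≠ y := by rintro rfl; exact c1 hzx
    obtain ⟨w, hw, hwu⟩ := L.nbr x hx y hyy.1 (fun h => c1 h.symm) ⟨z, ⟨hz, n1, hzx.symm⟩, ⟨hz, n2, hzy.symm⟩⟩ y' ⟨hyy.2.1, c3, hyy.2.2⟩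
    exact ⟨w, hw.1.1, hw.1.2.2.symm, hwu⟩

theorem tri_comp {x : G} (hx : x ∈ D) : Tri (comp D x) := by
  refine ⟨fun y hy => L.sq y (comp_subset hx hy), ?_, ?_⟩
  · intro a ha b hb
    have haD := comp_subset hx ha
    have hbD := comp_subset hx hb
    obtain ⟨z, hz, hza, hzb⟩ := near L haD (comp_trans (comp_symm ha) hb)
    by_cases n1 : z = a
    · left; rw [← n1]; exact hzb
    by_cases n2 : z = b
    · left; rw [← n2]; exact hza.symm
    exact (L.lg z hz).lev.tri.three a ⟨haD, fun h => n1 h.symm, hza⟩ b ⟨hbD, fun h => n2 h.symm, hzb⟩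
  · intro a ha b hb
    have haD := comp_subset hx ha
    have hai : a⁻¹ = a := inv_eq_of_mul_eq_one_left (L.sq a haD)
    have h1 : b ∈ comp D a := comp_trans (comp_symm ha) hb
    have h2 := comp_conj (g := a) (fun y hy => L.conj a y hy) h1
    rw [mul_inv_cancel_right, hai] at h2
    exact comp_trans ha h2

theorem trans_comp {x : G} (hx : x ∈ D) : ∀ a ∈ comp D x, ∀ b ∈ comp D x, ∃ g ∈ Subgroup.closure (comp D x), g * a * g⁻¹ = b := by
  intro a ha b hb
  have hT := tri_comp L hx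
  by_cases hne : a = b
  · exact ⟨1, Subgroup.one_mem _, by simp [hne]⟩
  by_cases hab : Commute a b
  · have haD := comp_subset hx ha
    have hbD := comp_subset hx hb
    have hbC : b ∈ C D a := ⟨hbD, fun h => hne h.symm, hab⟩
    obtain ⟨t, ht, htb, _, hct, _⟩ := (L.lg a haD).lev.common_nbr hbC hbC (Commute.refl b)
    have hta : a ∈ C D t := ⟨haD, fun h => ht.2.1 h.symm, ht.2.2.symm⟩
    have htb' : b ∈ C D t := ⟨hbD, fun h => htb h.symm, hct⟩
    obtain ⟨g, hg, e⟩ := (L.lg t ht.1).lev.trans hta htb'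
    refine ⟨g, Subgroup.closure_mono ?_ hg, e⟩
    intro y hy
    have htc : t ∈ comp D x := comp_closed hx ha ht.1 ht.2.2
    exact comp_closed hx htc hy.1 hy.2.2
  · refine ⟨a * b, Subgroup.mul_mem _ (Subgroup.subset_closure ha) (Subgroup.subset_closure hb), ?_⟩
    rw [_root_.mul_inv_rev, inv_eq hT ha, inv_eq hT hb]
    have h1 := braid hT hb ha (fun h' => hab h'.symm)
    calc a * b * a * (b * a) = a * (b * a * b) * a := by group
      _ = a * (a * b * a) * a := by rw [h1]
      _ = b := conj_conj hT ha b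

theorem lev_comp' {x : G} (hx : x ∈ D) : Lev (n + 1) (comp D x) := by
  refine ⟨tri_comp L hx, ⟨x, mem_comp_self _ _⟩, trans_comp L hx, ?_⟩
  intro y hy
  rw [C_comp hx hy]
  exact (L.lg y (comp_subset hx hy)).lev

theorem lg_comp' {x : G} (hx : x ∈ D) : LG (n + 1) (comp D x) := by
  refine ⟨lev_comp' L hx, ?_, ?_⟩
  · intro a ha b hb
    have haD := comp_subset hx ha
    obtain ⟨z, hz, hza, hzb⟩ := near L haD (comp_trans (comp_symm ha) hb)
    exact ⟨z, comp_closed hx ha hz hza.symm, hza, hzb⟩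
  · intro y hy
    rw [C_comp hx hy]
    exact L.lg y (comp_subset hx hy)

omit L in
/-- the stabilizer of a set -/
def stab (Γ : Set G) : Subgroup G where
  carrier := {g | ∀ y, y ∈ Γ ↔ g * y * g⁻¹ ∈ Γ}
  mul_mem' := by
    intro a b ha hb y
    have e : a * b * y * (a * b)⁻¹ = a * (b * y * b⁻¹) * a⁻¹ := by group
    rw [e, ← ha, ← hb]
  one_mem' := by intro y; simp
  inv_mem' := by
    intro a ha y
    have h := ha (a⁻¹ * y * a⁻¹⁻¹)
    have e : a * (a⁻¹ * y * a⁻¹⁻¹) * a⁻¹ = y := by group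
    rw [e] at h
    exact h.symm

omit L in
theorem mem_stab {Γ : Set G} {g : G} : g ∈ stab Γ ↔ ∀ y, y ∈ Γ ↔ g * y * g⁻¹ ∈ Γ := Iff.rfl

theorem mv_stab {x : G} (hx : x ∈ D) {g y : G} (hy : y ∈ comp D x) (hg : g * y * g⁻¹ ∈ comp D x) : g ∈ stab (comp D x) := by
  have key : ∀ (g y : G), y ∈ comp D x → g * y * g⁻¹ ∈ comp D x → ∀ z ∈ comp D x, g * z * g⁻¹ ∈ comp D x := by
    intro g y hy hg z hz
    have h1 : z ∈ comp D y := comp_trans (comp_symm hy) hz
    have h2 := comp_conj (g := g) (fun y hy => L.conj g y hy) h1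
    exact comp_trans hg h2
  rw [mem_stab]
  intro z
  refine ⟨fun hz => key g y hy hg z hz, fun hz => ?_⟩
  have e1 : g⁻¹ * (g * y * g⁻¹) * g⁻¹⁻¹ = y := by group
  have h := key g⁻¹ (g * y * g⁻¹) hg (by rw [e1]; exact hy) _ hz
  have e2 : g⁻¹ * (g * z * g⁻¹) * g⁻¹⁻¹ = z := by group
  rwa [e2] at h

end H91.FiComp

namespace H91.FiComp
open H92.Tri H92.Lev H92.Geo

universe u
variable {G : Type u} [Group G]

/-- a list of seven distinct commuting members with product one, starting with two given members -/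
theorem odd7_of {n : ℕ} {Γ : Set G} (hL : LG (n + 1) Γ) (zen : ∀ g : G, (∀ y ∈ Γ, Commute g y) → g = 1)
    (h7 : ∃ l : List G, Rel Γ l ∧ l.length = 7) : ∀ a ∈ Γ, ∀ c ∈ Γ, a ≠ c → Commute a c → ∃ e1 ∈ Γ, ∃ e2 ∈ Γ, ∃ e3 ∈ Γ, ∃ e4 ∈ Γ, ∃ e5 ∈ Γ,
    (∀ x ∈ [e1, e2, e3, e4, e5], Commute x a ∧ Commute x c) ∧ (∀ x ∈ [e1, e2, e3, e4, e5], ∀ y ∈ [e1, e2, e3, e4, e5], Commute x y) ∧
    a * c * e1 * e2 * e3 * e4 * e5 = 1 := by
  intro a ha c hc hne hac
  obtain ⟨l, hl, hlen⟩ := h7
  have hT := hL.lev.tri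
  match l, hl, hlen with
  | [y0, y1, y2, y3, y4, y5, y6], hl, _ =>
    have h01 : y0 ≠ y1 := by
      intro e
      have := hl.nodup
      rw [e] at this
      simp at this
    obtain ⟨g, hg, hgl⟩ := H92.Uniq.trans_list2 hL.lev [y0, y1] [a, c] rfl (by simp) (by simp [h01]) (by simp [hne])
      (by
        intro x hx
        apply hl.mem
        simp only [List.mem_cons, List.not_mem_nil, or_false] at hx ⊢
        tauto) (by
        intro x hx
        simp only [List.mem_cons, List.not_mem_nil, or_false] at hx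
        rcases hx with rfl | rfl <;> assumption) (by
        intro x hx y hy
        apply hl.comm
        · simp only [List.mem_cons, List.not_mem_nil, or_false] at hx ⊢
          tauto
        · simp only [List.mem_cons, List.not_mem_nil, or_false] at hy ⊢
          tauto) (by
        intro x hx y hy
        simp only [List.mem_cons, List.not_mem_nil, or_false] at hx hy
        rcases hx with rfl | rfl <;> rcases hy with rfl | rfl
        · exact Commute.refl _
        · exact hac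
        · exact hac.symm
        · exact Commute.refl _)
    simp only [List.map_cons, List.map_nil, List.cons.injEq, and_true] at hgl
    obtain ⟨g0, g1⟩ := hgl
    have hgΓ : ∀ y ∈ Γ, g * y * g⁻¹ ∈ Γ := fun y hy => conj_closure hT hg hy
    have hprod : y0 * y1 * y2 * y3 * y4 * y5 * y6 = 1 := by
      have h1 := zen _ hl.cent
      simp only [List.prod_cons, List.prod_nil, mul_one] at h1
      rw [← h1]; group
    have cc : ∀ x ∈ [y0, y1, y2, y3, y4, y5, y6], ∀ y ∈ [y0, y1, y2, y3, y4, y5, y6], Commute (g * x * g⁻¹) (g * y * g⁻¹) :=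
      fun x hx y hy => (Commute.conj_iff g).2 (hl.comm x hx y hy)
    refine ⟨g * y2 * g⁻¹, hgΓ _ (hl.mem _ (by simp)), g * y3 * g⁻¹, hgΓ _ (hl.mem _ (by simp)), g * y4 * g⁻¹, hgΓ _ (hl.mem _ (by simp)),
      g * y5 * g⁻¹, hgΓ _ (hl.mem _ (by simp)), g * y6 * g⁻¹, hgΓ _ (hl.mem _ (by simp)), ?_, ?_, ?_⟩
    · intro x hx
      rw [← g0, ← g1]
      simp only [List.mem_cons, List.not_mem_nil, or_false] at hx
      rcases hx with rfl | rfl | rfl | rfl | rfl <;> exact ⟨cc _ (by simp) _ (by simp), cc _ (by simp) _ (by simp)⟩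
    · intro x hx y hy
      simp only [List.mem_cons, List.not_mem_nil, or_false] at hx hy
      rcases hx with rfl | rfl | rfl | rfl | rfl <;> rcases hy with rfl | rfl | rfl | rfl | rfl <;> exact cc _ (by simp) _ (by simp)
    · rw [← g0, ← g1]
      calc g * y0 * g⁻¹ * (g * y1 * g⁻¹) * (g * y2 * g⁻¹) * (g * y3 * g⁻¹) * (g * y4 * g⁻¹) * (g * y5 * g⁻¹) * (g * y6 * g⁻¹)
          = g * (y0 * y1 * y2 * y3 * y4 * y5 * y6) * g⁻¹ := by group
        _ = 1 := by rw [hprod]; group

/-- removing three members from a relation -/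
theorem rest {m : List G} (hnd : m.Nodup) (hc : ∀ a ∈ m, ∀ b ∈ m, Commute a b) {c1 c2 c3 : G} (h12 : c1 ≠ c2) (h13 : c1 ≠ c3) (h23 : c2 ≠ c3)
    (h1 : c1 ∈ m) (h2 : c2 ∈ m) (h3 : c3 ∈ m) : ∃ r : List G, r.Nodup ∧ r.length + 3 = m.length ∧ (∀ a ∈ r, a ∈ m) ∧ m.prod = c1 * c2 * c3 * r.prod := by
  classical
  have p1 : m.Perm (c1 :: m.erase c1) := List.perm_cons_erase h1
  have m2 : c2 ∈ m.erase c1 := (List.mem_erase_of_ne h12.symm).2 h2
  have p2 : (m.erase c1).Perm (c2 :: (m.erase c1).erase c2) := List.perm_cons_erase m2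
  have m3 : c3 ∈ (m.erase c1).erase c2 := (List.mem_erase_of_ne h23.symm).2 ((List.mem_erase_of_ne h13.symm).2 h3)
  have p3 : ((m.erase c1).erase c2).Perm (c3 :: ((m.erase c1).erase c2).erase c3) := List.perm_cons_erase m3
  set r := ((m.erase c1).erase c2).erase c3 with hr
  have p : m.Perm (c1 :: c2 :: c3 :: r) := p1.trans ((p2.trans (p3.cons c2)).cons c1)
  refine ⟨r, ?_, ?_, ?_, ?_⟩
  · have := p.nodup_iff.1 hnd
    simp only [List.nodup_cons] at this
    exact this.2.2.2
  · rw [p.length_eq]; simp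
  · intro a ha
    rw [p.mem_iff]; simp [ha]
  · have := p.prod_eq' (List.pairwise_of_forall_mem_list (fun a ha b hb => hc a ha b hb))
    rw [this]
    simp only [List.prod_cons]
    group

theorem mul_eq_of_rel {p q : G} (hp : p * p = 1) (h : p * q = 1) : p = q := by
  have h1 : p * q = p * p := by rw [h, hp]
  exact (mul_left_cancel h1).symm

theorem prod_sq' {Γ : Set G} (hT : Tri Γ) (l : List G) (hm : ∀ a ∈ l, a ∈ Γ) (hc : ∀ a ∈ l, ∀ b ∈ l, Commute a b) : l.prod * l.prod = 1 :=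
  H92.ULift.list_prod_sq l (fun x hx => hT.sq x (hm x hx)) (fun x hx y hy => (hc x hx y hy).eq)

/-- products of four commuting members, level one -/
theorem four_one {Γ : Set G} (hL : LG 1 Γ) (zen : ∀ g : G, (∀ y ∈ Γ, Commute g y) → g = 1) :
    ∀ x ∈ Γ, ∀ l : List G, l.Nodup → l.length = 3 → (∀ a ∈ l, a ∈ C Γ x) → (∀ a ∈ l, ∀ b ∈ l, Commute a b) →
    ∃ l' : List G, l'.Nodup ∧ l'.length ≤ 3 ∧ (∀ a ∈ l', a ∈ Γ) ∧ (∀ a ∈ l', ∀ b ∈ l', Commute a b) ∧ x * l.prod = l'.prod := by
  intro x hx l hnd hlen hm hc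
  have hT := hL.lev.tri
  match l, hnd, hlen, hm, hc with
  | [c1, c2, c3], hnd, _, hm, hc =>
    simp only [List.nodup_cons, List.mem_cons, List.not_mem_nil, or_false, not_or, List.nodup_nil, and_true, not_false_eq_true] at hnd
    obtain ⟨⟨n12, n13⟩, n23⟩ := hnd
    have m1 := hm c1 (by simp)
    have m2 := hm c2 (by simp)
    have m3 := hm c3 (by simp)
    have k12 := hc c1 (by simp) c2 (by simp)
    have k13 := hc c1 (by simp) c3 (by simp)
    have k23 := hc c2 (by simp) c3 (by simp)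
    have hx4 : ∀ a ∈ [x, c1, c2, c3], a ∈ Γ := by
      intro a ha
      simp only [List.mem_cons, List.not_mem_nil, or_false] at ha
      rcases ha with rfl | rfl | rfl | rfl
      exacts [hx, m1.1, m2.1, m3.1]
    have hc4 : ∀ a ∈ [x, c1, c2, c3], ∀ b ∈ [x, c1, c2, c3], Commute a b := by
      intro a ha b hb
      have q1 := m1.2.2
      have q2 := m2.2.2
      have q3 := m3.2.2
      simp only [List.mem_cons, List.not_mem_nil, or_false] at ha hb
      rcases ha with rfl | rfl | rfl | rfl <;> rcases hb with rfl | rfl | rfl | rfl <;>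
        first | exact Commute.refl _ | assumption | (apply Commute.symm; assumption)
    have hsq4 : x * [c1, c2, c3].prod * (x * [c1, c2, c3].prod) = 1 := by
      have := prod_sq' hT _ hx4 hc4
      rwa [List.prod_cons] at this
    -- from a relation containing `x`, `c1`, `c2`, `c3`
    have fin : ∀ m : List G, m.length ≤ 6 → Rel Γ (x :: m) → c1 ∈ m → c2 ∈ m → c3 ∈ m →
        ∃ l' : List G, l'.Nodup ∧ l'.length ≤ 3 ∧ (∀ a ∈ l', a ∈ Γ) ∧ (∀ a ∈ l', ∀ b ∈ l', Commute a b) ∧ x * [c1, c2, c3].prod = l'.prod := by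
      intro m hm6 hr h1 h2 h3
      have hmm : ∀ a ∈ m, a ∈ x :: m := fun a ha => List.mem_cons_of_mem _ ha
      obtain ⟨r, r1, r2, r3, r4⟩ := rest (List.nodup_cons.1 hr.nodup).2 (fun a ha b hb => hr.comm a (hmm a ha) b (hmm b hb)) n12 n13 n23 h1 h2 h3
      refine ⟨r, r1, by omega, fun a ha => hr.mem a (hmm a (r3 a ha)), fun a ha b hb => hr.comm a (hmm a (r3 a ha)) b (hmm b (r3 b hb)), ?_⟩
      apply mul_eq_of_rel hsq4
      have h0 := zen _ hr.cent
      rw [List.prod_cons, r4] at h0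
      rw [← h0]
      simp only [List.prod_cons, List.prod_nil, mul_one]
      group
    obtain ⟨hTx, K, _, _, τ, P⟩ := id (hL.C hx)
    by_cases hline : ∀ z ∈ C Γ x, Commute z c1 → Commute z c2 → Commute z c3
    · obtain ⟨l5, q1, q2, q3, q4, q5, q6, q7, q8⟩ := H92.PolRel.line hTx P m1 m2 n12 k12
      have hrel : Rel (C Γ x) l5 := ⟨q1, q3, q4, q7⟩
      have h3 : c3 ∈ l5 := (q8 c3 m3).2 hline
      rcases rel_lift hL hx hrel with hr | hr
      · exfalso
        rcases hL.lev.rel_min l5 hr.nodup hr.mem hr.comm hr.cent with h5 | h5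
        · rw [h5] at q2; simp at q2
        · omega
      · exact fin l5 (by omega) hr q5 q6 h3
    · push Not at hline
      obtain ⟨z, hz, hz1, hz2, hz3⟩ := hline
      obtain ⟨m, hm1, hm2⟩ := H92.Hyper.hyper hTx P (x := ![c1, c2, c3]) (by
        intro i
        fin_cases i
        exacts [m1, m2, m3]) (by
        intro i j
        fin_cases i <;> fin_cases j
        exacts [Commute.refl _, k12, k13, k12.symm, Commute.refl _, k23, k13.symm, k23.symm, Commute.refl _]) n12 ⟨z, hz, hz1, hz2, hz3⟩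
      have hmem : ∀ c : Fin 3, c1 ∈ m c ∧ c2 ∈ m c ∧ c3 ∈ m c := fun c => ⟨(hm1 c).2.2 0, (hm1 c).2.2 1, (hm1 c).2.2 2⟩
      by_cases hex : ∃ c : Fin 3, Rel Γ (x :: m c)
      · obtain ⟨c, hr⟩ := hex
        exact fin (m c) (by rw [(hm1 c).2.1]) hr (hmem c).1 (hmem c).2.1 (hmem c).2.2
      · exfalso
        push Not at hex
        have hr : ∀ c : Fin 3, Rel Γ (m c) := fun c => (rel_lift hL hx (hm1 c).1).resolve_right (hex c)
        have hu := block_unique hL (hr 0) (hr 1) (hm1 0).2.1 (hm1 1).2.1 [c1, c2, c3] (by simp [n12, n13, n23]) rfl (by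
          intro a ha
          simp only [List.mem_cons, List.not_mem_nil, or_false] at ha
          rcases ha with rfl | rfl | rfl
          exacts [(hmem 0).1, (hmem 0).2.1, (hmem 0).2.2]) (by
          intro a ha
          simp only [List.mem_cons, List.not_mem_nil, or_false] at ha
          rcases ha with rfl | rfl | rfl
          exacts [(hmem 1).1, (hmem 1).2.1, (hmem 1).2.2])
        have hsub : m 0 ⊆ [c1, c2, c3] := by
          intro a ha
          obtain ⟨i, hi⟩ := hm2 0 1 (by decide) a ha ((hu a).1 ha)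
          rw [hi]
          fin_cases i <;> simp
        have h6 := (List.subperm_of_subset (hm1 0).1.nodup hsub).length_le
        rw [(hm1 0).2.1] at h6
        simp at h6

/-- products of four commuting members, level two -/
theorem four_two {Γ : Set G} (hL : LG 2 Γ) (zen : ∀ g : G, (∀ y ∈ Γ, Commute g y) → g = 1) :
    ∀ x ∈ Γ, ∀ l : List G, l.Nodup → l.length = 3 → (∀ a ∈ l, a ∈ C Γ x) → (∀ a ∈ l, ∀ b ∈ l, Commute a b) →
    ∃ l' : List G, l'.Nodup ∧ l'.length ≤ 3 ∧ (∀ a ∈ l', a ∈ Γ) ∧ (∀ a ∈ l', ∀ b ∈ l', Commute a b) ∧ x * l.prod = l'.prod := by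
  intro x hx l hnd hlen hm hc
  have hT := hL.lev.tri
  match l, hnd, hlen, hm, hc with
  | [c1, c2, c3], hnd, _, hm, hc =>
    simp only [List.nodup_cons, List.mem_cons, List.not_mem_nil, or_false, not_or, List.nodup_nil, and_true, not_false_eq_true] at hnd
    obtain ⟨⟨n12, n13⟩, n23⟩ := hnd
    have m1 := hm c1 (by simp)
    have m2 := hm c2 (by simp)
    have m3 := hm c3 (by simp)
    have k12 := hc c1 (by simp) c2 (by simp)
    have k13 := hc c1 (by simp) c3 (by simp)
    have k23 := hc c2 (by simp) c3 (by simp)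
    have hx4 : ∀ a ∈ [x, c1, c2, c3], a ∈ Γ := by
      intro a ha
      simp only [List.mem_cons, List.not_mem_nil, or_false] at ha
      rcases ha with rfl | rfl | rfl | rfl
      exacts [hx, m1.1, m2.1, m3.1]
    have hc4 : ∀ a ∈ [x, c1, c2, c3], ∀ b ∈ [x, c1, c2, c3], Commute a b := by
      intro a ha b hb
      have q1 := m1.2.2
      have q2 := m2.2.2
      have q3 := m3.2.2
      simp only [List.mem_cons, List.not_mem_nil, or_false] at ha hb
      rcases ha with rfl | rfl | rfl | rfl <;> rcases hb with rfl | rfl | rfl | rfl <;>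
        first | exact Commute.refl _ | assumption | (apply Commute.symm; assumption)
    have hsq4 : x * [c1, c2, c3].prod * (x * [c1, c2, c3].prod) = 1 := by
      have := prod_sq' hT _ hx4 hc4
      rwa [List.prod_cons] at this
    obtain ⟨m, hr, hml, hmA, -⟩ := block hL [x, c1, c2, c3] (by
      simp only [List.nodup_cons, List.mem_cons, List.not_mem_nil, or_false, not_or, List.nodup_nil, and_true, not_false_eq_true]
      exact ⟨⟨fun e => m1.2.1 e.symm, fun e => m2.2.1 e.symm, fun e => m3.2.1 e.symm⟩, ⟨n12, n13⟩, n23⟩) rfl hx4 hc4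
    classical
    have hxm : x ∈ m := hmA x (by simp)
    have p1 : m.Perm (x :: m.erase x) := List.perm_cons_erase hxm
    have q1 : c1 ∈ m.erase x := (List.mem_erase_of_ne m1.2.1).2 (hmA c1 (by simp))
    have q2 : c2 ∈ m.erase x := (List.mem_erase_of_ne m2.2.1).2 (hmA c2 (by simp))
    have q3 : c3 ∈ m.erase x := (List.mem_erase_of_ne m3.2.1).2 (hmA c3 (by simp))
    have hmm : ∀ a ∈ m.erase x, a ∈ m := fun a ha => List.mem_of_mem_erase ha
    obtain ⟨r, r1, r2, r3, r4⟩ := rest (hr.nodup.erase x) (fun a ha b hb => hr.comm a (hmm a ha) b (hmm b hb)) n12 n13 n23 q1 q2 q3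
    have hlen := p1.length_eq
    rw [List.length_cons] at hlen
    refine ⟨r, r1, by omega, fun a ha => hr.mem a (hmm a (r3 a ha)), fun a ha b hb => hr.comm a (hmm a (r3 a ha)) b (hmm b (r3 b hb)), ?_⟩
    apply mul_eq_of_rel hsq4
    have h0 := zen _ hr.cent
    rw [p1.prod_eq' (List.pairwise_of_forall_mem_list (fun a ha b hb => hr.comm a ha b hb)), List.prod_cons, r4] at h0
    rw [← h0]
    simp only [List.prod_cons, List.prod_nil, mul_one]
    group

end H91.FiComp
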