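import Mathlib
import Cfsg.Prelude.Def_FischerSpaces
import Cfsg.Agent.Lib.H91.FiComp
import Cfsg.Agent.Lib.H19.UCovO

/-!
Local facts at one member of a class of involutions, and their transport.
-/

set_option autoImplicit false
set_option linter.dupNamespace false
set_option linter.unusedSectionVars false
set_option linter.style.haveILetI false
set_option linter.unusedVariables false
open Cfsg Matrix

namespace H91.FiA
open H92.Tri H92.Lev H92.Geo

variable {G : Type*} [Group G]

structure Pt (n : ℕ) (D : Set G) (x : G) : Prop where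
  lev : Lev n (C D x)
  gen : ∀ c, Commute c x → ∃ k ∈ Subgroup.closure (C D x), c = k ∨ c = k * x
  cen : ∀ g, Commute g x → (∀ y ∈ C D x, Commute g y) → g = 1 ∨ g = x
  perf : ⁅Subgroup.centralizer ({x} : Set G), Subgroup.centralizer ({x} : Set G)⁆ = Subgroup.centralizer ({x} : Set G)
  inv : ∀ w, w * w = 1 → Commute w x → ∃ l : List G, l.Nodup ∧ l.length ≤ 3 ∧ (∀ a ∈ l, a ∈ C D x) ∧
    (∀ a ∈ l, ∀ b ∈ l, Commute a b) ∧ (w = l.prod ∨ w = x * l.prod)

theorem conj_mul' (g a b : G) : g * (a * b) * g⁻¹ = (g * a * g⁻¹) * (g * b * g⁻¹) := by group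

theorem Pt.conj {n : ℕ} {D : Set G} (hD : ∀ g : G, ∀ x ∈ D, g * x * g⁻¹ ∈ D) {x : G} (h : Pt n D x) (g : G) : Pt n D (g * x * g⁻¹) := by
  have hC : C D (g * x * g⁻¹) = (MulAut.conj g).toMonoidHom '' (C D x) := by
    ext y
    constructor
    · rintro ⟨h1, h2, h3⟩
      refine ⟨g⁻¹ * y * g⁻¹⁻¹, ⟨hD _ _ h1, ?_, ?_⟩, ?_⟩
      · intro e; apply h2; rw [← e]; group
      · have := (Commute.conj_iff g⁻¹).2 h3
        have e : g⁻¹ * (g * x * g⁻¹) * g⁻¹⁻¹ = x := by group
        rwa [e] at this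
      · show g * (g⁻¹ * y * g⁻¹⁻¹) * g⁻¹ = y
        group
    · rintro ⟨z, ⟨h1, h2, h3⟩, rfl⟩
      refine ⟨hD g z h1, ?_, (Commute.conj_iff g).2 h3⟩
      intro e
      exact h2 (mul_left_cancel (mul_right_cancel (show g * z * g⁻¹ = g * x * g⁻¹ from e)))
  have hcl : ∀ k ∈ Subgroup.closure (C D x), g * k * g⁻¹ ∈ Subgroup.closure (C D (g * x * g⁻¹)) := by
    intro k hk
    rw [hC, ← MonoidHom.map_closure]
    exact ⟨k, hk, rfl⟩
  refine ⟨?_, ?_, ?_, ?_, ?_⟩
  · rw [hC]
    exact lev_image _ h.lev.tri (fun a _ b _ e => (MulAut.conj g).injective e) h.lev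
  · intro c hc
    have hc' : Commute (g⁻¹ * c * g⁻¹⁻¹) x := by
      have := (Commute.conj_iff g⁻¹).2 hc
      have e : g⁻¹ * (g * x * g⁻¹) * g⁻¹⁻¹ = x := by group
      rwa [e] at this
    obtain ⟨k, hk, hck⟩ := h.gen _ hc'
    refine ⟨g * k * g⁻¹, hcl k hk, ?_⟩
    have e : c = g * (g⁻¹ * c * g⁻¹⁻¹) * g⁻¹ := by group
    rcases hck with h1 | h1
    · left; rw [e, h1]
    · right; rw [e, h1]; group
  · intro c hc hcy
    have hc' : Commute (g⁻¹ * c * g⁻¹⁻¹) x := by
      have := (Commute.conj_iff g⁻¹).2 hc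
      have e : g⁻¹ * (g * x * g⁻¹) * g⁻¹⁻¹ = x := by group
      rwa [e] at this
    have e : c = g * (g⁻¹ * c * g⁻¹⁻¹) * g⁻¹ := by group
    rcases h.cen _ hc' (by
      intro y hy
      have h1 : g * y * g⁻¹ ∈ C D (g * x * g⁻¹) := by rw [hC]; exact ⟨y, hy, rfl⟩
      have := (Commute.conj_iff g⁻¹).2 (hcy _ h1)
      have e : g⁻¹ * (g * y * g⁻¹) * g⁻¹⁻¹ = y := by group
      rwa [e] at this) with h1 | h1
    · left; rw [e, h1]; group
    · right; rw [e, h1]
  · have hmap : (Subgroup.centralizer ({x} : Set G)).map (MulAut.conj g).toMonoidHom = Subgroup.centralizer ({g * x * g⁻¹} : Set G) := by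
      ext y
      rw [Subgroup.mem_map, Subgroup.mem_centralizer_singleton_iff]
      constructor
      · rintro ⟨z, hz, rfl⟩
        rw [Subgroup.mem_centralizer_singleton_iff] at hz
        exact ((Commute.conj_iff g).2 (show Commute z x from hz)).eq
      · intro hy
        refine ⟨g⁻¹ * y * g⁻¹⁻¹, ?_, ?_⟩
        · rw [Subgroup.mem_centralizer_singleton_iff]
          have := (Commute.conj_iff g⁻¹).2 (show Commute y (g * x * g⁻¹) from hy)
          have e : g⁻¹ * (g * x * g⁻¹) * g⁻¹⁻¹ = x := by group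
          rw [e] at this
          exact this.eq
        · show g * (g⁻¹ * y * g⁻¹⁻¹) * g⁻¹ = y
          group
    rw [← hmap, ← Subgroup.map_commutator, h.perf]
  · intro w hww hw
    have hw' : Commute (g⁻¹ * w * g⁻¹⁻¹) x := by
      have := (Commute.conj_iff g⁻¹).2 hw
      have e : g⁻¹ * (g * x * g⁻¹) * g⁻¹⁻¹ = x := by group
      rwa [e] at this
    have hww' : g⁻¹ * w * g⁻¹⁻¹ * (g⁻¹ * w * g⁻¹⁻¹) = 1 := by
      rw [← conj_mul', hww]; group
    obtain ⟨l, l1, l2, l3, l4, l5⟩ := h.inv _ hww' hw'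
    have e : w = g * (g⁻¹ * w * g⁻¹⁻¹) * g⁻¹ := by group
    have hp : (l.map (MulAut.conj g)).prod = g * l.prod * g⁻¹ := by
      rw [← map_list_prod]; rfl
    refine ⟨l.map (MulAut.conj g), l1.map (MulAut.conj g).injective, by rw [List.length_map]; exact l2, ?_, ?_, ?_⟩
    · intro a ha
      obtain ⟨b, hb, rfl⟩ := List.mem_map.1 ha
      rw [hC]; exact ⟨b, l3 b hb, rfl⟩
    · intro a ha b hb
      obtain ⟨a', ha', rfl⟩ := List.mem_map.1 ha
      obtain ⟨b', hb', rfl⟩ := List.mem_map.1 hb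
      exact (Commute.conj_iff g).2 (l4 a' ha' b' hb')
    · rw [hp]
      rcases l5 with h1 | h1
      · left; rw [e, h1]
      · right; rw [e, h1]; group

section base
open H92.Herm H92.UTransv H92.UInvol H92.ULift H92.PV H92.PolPSU H92.Pol H19.UCovA H19.UCovB

universe u
variable {G : Type u} [Group G] [Finite G]

theorem pt0 (d : G) (hd : orderOf d = 2) (C0 : Subgroup G) (hC0 : C0 = Subgroup.centralizer ({d} : Set G)) (hq : Cfsg.IsQuasisimple ↥C0)
    [hzn : ((Subgroup.zpowers d).subgroupOf C0).Normal] (K : Type) [Field K] [Fintype K]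
    (hK : Fintype.card K = 4)
    (e : ↥C0 ⧸ (Subgroup.zpowers d).subgroupOf C0 ≃* Cfsg.PSU 6 K 2)
    (hnwc : ∃ g : G, g * d * g⁻¹ ∈ C0 ∧ g * d * g⁻¹ ≠ d) : Pt 0 (conjugatesOf d) d := by
  obtain ⟨-, -, z, π, hzd, hπ, Hc, x1, hx1, hD⟩ := H19.UCovO.main d hd C0 hC0 hq K hK e hnwc
  have mC : ∀ y : G, y ∈ C0 ↔ Commute y d := fun y => by rw [hC0, Subgroup.mem_centralizer_singleton_iff]; rfl
  have hCD : H92.Tri.C (conjugatesOf d) d = C0.subtype '' (H19.UCovB.D x1) := by
    ext y
    constructor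
    · rintro ⟨h1, h2, h3⟩
      refine ⟨⟨y, (mC y).2 h3.symm⟩, ?_, rfl⟩
      exact ((hD ⟨y, (mC y).2 h3.symm⟩).1 h1).resolve_left h2
    · rintro ⟨y, hy, rfl⟩
      refine ⟨(hD y).2 (Or.inr hy), ?_, ((mC y).1 y.2).symm⟩
      intro h1
      have h2 : y = z := Subtype.ext (by rw [hzd]; exact h1)
      have h3 := Hc.mem_transv hx1 hy
      rw [h2, Hc.pz] at h3
      exact H92.Pol.ne_one (tri_transv Hc.card) (pol_psu Hc.card (closure_transv Hc.card)) h3 rfl
  have hcl : ∀ k ∈ Subgroup.closure (H19.UCovB.D x1), (k : G) ∈ Subgroup.closure (H92.Tri.C (conjugatesOf d) d) := by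
    intro k hk
    rw [hCD, ← MonoidHom.map_closure]
    exact ⟨k, hk, rfl⟩
  refine ⟨?_, ?_, ?_, ?_, ?_⟩
  · rw [hCD]
    refine lev_image _ (Hc.tri hx1) (fun a _ b _ e => Subtype.ext e) ?_
    exact ⟨Hc.tri hx1, K, _, _, tau π x1, Hc.pol hx1⟩
  · intro c hc
    have h1 : π ⟨c, (mC c).2 hc⟩ ∈ (Subgroup.closure (H19.UCovB.D x1)).map π := by rw [Hc.map_closure hx1]; trivial
    obtain ⟨k, hk, hkc⟩ := h1
    refine ⟨k, hcl k hk, ?_⟩
    rcases lift_eq π z Hc.ker hkc.symm with h2 | h2
    · left; exact congrArg Subtype.val h2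
    · right
      have := congrArg Subtype.val h2
      rw [← hzd]; exact this
  · intro g hg hgy
    have h1 : π ⟨g, (mC g).2 hg⟩ ∈ Subgroup.center (PSU 6 K 2) := by
      rw [Subgroup.mem_center_iff]
      have h2 : (⊤ : Subgroup (PSU 6 K 2)) ≤ Subgroup.centralizer {π ⟨g, (mC g).2 hg⟩} := by
        rw [← closure_transv Hc.card, Subgroup.closure_le]
        intro t ht
        obtain ⟨y, hy, rfl⟩ := Hc.exists_lift hx1 ht
        rw [SetLike.mem_coe, Subgroup.mem_centralizer_singleton_iff, ← map_mul, ← map_mul]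
        congr 1
        apply Subtype.ext
        exact (hgy y (by rw [hCD]; exact ⟨y, hy, rfl⟩)).eq.symm
      intro t
      exact Subgroup.mem_centralizer_singleton_iff.1 (h2 (Subgroup.mem_top t))
    rw [H92.Types.center_psu Hc.card, Subgroup.mem_bot] at h1
    rcases Hc.ker _ h1 with h2 | h2
    · left; exact congrArg Subtype.val h2
    · right; rw [← hzd]; exact congrArg Subtype.val h2
  · have h1 : commutator ↥C0 = ⊤ := hq.1.commutator_eq_top
    rw [← hC0, ← Subgroup.map_subtype_commutator, h1, ← MonoidHom.range_eq_map, Subgroup.range_subtype]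
  · intro w hww hw
    set W : ↥C0 := ⟨w, (mC w).2 hw⟩ with hW
    have hWW : W * W = 1 := Subtype.ext hww
    obtain ⟨k, v, hv, hvv, hxv⟩ := decomp_PSU Hc.card (by norm_num) (π W) (by rw [← map_mul, hWW, map_one])
    have hk3 : k ≤ 3 := by
      obtain ⟨f, hf⟩ := exists_dual Hc.card v hv hvv
      have := (H92.Width.li_sum Hc.card hf).fintype_card_le_finrank
      simp at this
      omega
    have hiso : ∀ i, Iso (v i) := fun i => ⟨hv.ne_zero i, hvv i i⟩
    have hspec := fun i => Hc.tau_spec hx1 (hiso i)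
    have hprod : π (List.ofFn (fun i => tau π x1 (v i))).prod = π W := by
      rw [hxv, map_list_prod, List.map_ofFn]
      have e1 : (⇑π ∘ fun i => tau π x1 (v i)) = fun i => t (v i) := by
        funext i; exact (hspec i).2
      rw [e1]
      have := map_t_prod (List.ofFn v)
      rw [List.map_ofFn, List.map_ofFn] at this
      exact this
    have hcomm : ∀ i j, Commute (tau π x1 (v i)) (tau π x1 (v j)) := by
      intro i j
      apply Hc.comm_of (Hc.mem_transv hx1 (hspec i).1) (Hc.mem_transv hx1 (hspec j).1)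
      rw [(hspec i).2, (hspec j).2]
      exact t_comm Hc.card (hiso i).2 (hiso j).2 (hvv i j)
    refine ⟨(List.ofFn (fun i => tau π x1 (v i))).map C0.subtype, ?_, ?_, ?_, ?_, ?_⟩
    · apply List.Nodup.map C0.subtype_injective
      rw [List.nodup_ofFn]
      intro i j hij
      have h1 : t (v i) = t (v j) := by rw [← (hspec i).2, ← (hspec j).2]; exact congrArg π hij
      obtain ⟨a, ha⟩ := (t_inj Hc.card (by norm_num) (hiso i) (hiso j)).1 h1
      by_contra hne
      have h2 : LinearIndependent K ![v i, v j] := by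
        have := hv.comp ![i, j] (by
          intro p q hpq
          fin_cases p <;> fin_cases q
          · rfl
          · exact absurd (show i = j from hpq) hne
          · exact absurd (show j = i from hpq).symm hne
          · rfl)
        convert this using 1
        funext p
        fin_cases p <;> rfl
      rw [LinearIndependent.pair_iff] at h2
      have := h2 1 (-a) (by rw [ha]; simp)
      exact one_ne_zero this.1
    · rw [List.length_map, List.length_ofFn]; exact hk3
    · intro a ha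
      obtain ⟨b, hb, rfl⟩ := List.mem_map.1 ha
      obtain ⟨i, rfl⟩ := List.mem_ofFn.1 hb
      rw [hCD]
      exact ⟨_, (hspec i).1, rfl⟩
    · intro a ha b hb
      obtain ⟨a', ha', rfl⟩ := List.mem_map.1 ha
      obtain ⟨b', hb', rfl⟩ := List.mem_map.1 hb
      obtain ⟨i, rfl⟩ := List.mem_ofFn.1 ha'
      obtain ⟨j, rfl⟩ := List.mem_ofFn.1 hb'
      exact (hcomm i j).map C0.subtype
    · have hmp : ((List.ofFn (fun i => tau π x1 (v i))).map C0.subtype).prod = ((List.ofFn (fun i => tau π x1 (v i))).prod : G) := by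
        rw [← map_list_prod]; rfl
      rw [hmp]
      rcases lift_eq π z Hc.ker hprod.symm with h2 | h2
      · left; exact congrArg Subtype.val h2
      · right
        have h3 := congrArg Subtype.val h2
        have h4 : ((List.ofFn (fun i => tau π x1 (v i))).prod * z : ↥C0) = z * (List.ofFn (fun i => tau π x1 (v i))).prod := Hc.cent _
        rw [h4] at h3
        rw [← hzd]; exact h3

end base
end H91.FiA
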