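import Mathlib
import Cfsg.Prelude.Def_FischerSpaces
import Cfsg.Agent.Lib.H92.Count2
import Cfsg.Agent.Lib.H92.Geo

/-!
More counting in the unitary polar space in dimension 6 over the field with four elements.
-/

set_option autoImplicit false
set_option linter.dupNamespace false
set_option linter.unusedSectionVars false
set_option linter.style.haveILetI false
set_option linter.unusedVariables false
open Cfsg Matrix

namespace H91.FiCount
open H92.Herm H92.UTransv H92.UInvol H92.ULift H92.PV H92.Tri H92.Pol H92.Count H92.Count2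

section vec
variable {K : Type} [Field K] [Fintype K] {n : ℕ}

open Classical in
theorem sum_perp2 (hK : Fintype.card K = 4) {u y : Fin n → K} (hu : Iso u) (hy : Iso y) (huy : B u y = 0) :
    ∑ v ∈ Finset.univ.filter (fun v : Fin n → K => B v y = 0 ∧ B v u = 0), sg (B v v) = (-2) ^ n := by
  rw [← sum_perp (n := n) hK hy]
  rw [← Finset.sum_filter_add_sum_filter_not (Finset.univ.filter (fun v : Fin n → K => B v y = 0)) (fun v : Fin n → K => B v u = 0) (fun v => sg (B v v))]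
  rw [Finset.filter_filter, left_eq_add]
  choose! c hc0 hc using fun (β : K) (hβ : β ≠ 0) => exists_trace_one hK hβ
  refine Finset.sum_involution (fun v _ => v + c (B v u) • u) ?_ ?_ ?_ ?_
  · intro v hv
    simp only [Finset.mem_filter, Finset.mem_univ, true_and] at hv
    rw [B_trans hK hu.2, hc _ hv.2]
    rcases B_self hK v with h | h <;> rw [h]
    · simp [sg]
    · rw [add_self hK]; simp [sg]
  · intro v hv _ h
    simp only [Finset.mem_filter, Finset.mem_univ, true_and] at hv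
    have : c (B v u) • u = 0 := by simpa using h
    rcases smul_eq_zero.1 this with h1 | h1
    · exact hc0 _ hv.2 h1
    · exact hu.1 h1
  · intro v hv
    simp only [Finset.mem_filter, Finset.mem_univ, true_and] at hv ⊢
    refine ⟨by rw [B_trans_left, huy, mul_zero, add_zero]; exact hv.1, ?_⟩
    rw [B_trans_left, hu.2, mul_zero, add_zero]; exact hv.2
  · intro v hv
    rw [B_trans_left, hu.2, mul_zero, add_zero, add_assoc, vec_add_self hK, add_zero]

open Classical in
theorem card_perp2 (hK : Fintype.card K = 4) {u y w : Fin 6 → K} (hu : Iso u) (hy : Iso y) (hwy : B w y = 0) (hwu : B w u ≠ 0) :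
    (Finset.univ.filter fun v : Fin 6 → K => B v y = 0 ∧ B v u = 0).card = 256 := by
  have h2 := card_perp hK hy
  have f1 := fiber hK (Finset.univ.filter fun v : Fin 6 → K => B v y = 0) (fun v => B v u) (fun _ => (1 : ℤ)) w (B w u) hwu (by
    intro v hv a
    simp only [Finset.mem_filter, Finset.mem_univ, true_and] at hv ⊢
    refine ⟨?_, B_trans_left v u a⟩
    rw [B_trans_left, hwy, hv]; ring)
  rw [Finset.filter_filter] at f1
  rw [Finset.sum_const, Finset.sum_const] at f1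
  simp only [nsmul_eq_mul, mul_one] at f1
  have e2 : (4 : ℤ) ^ 6 = 4096 := by norm_num
  rw [e2] at h2
  omega

open Classical in
/-- isotropic vectors orthogonal to two orthogonal isotropic vectors -/
theorem card_iso2 (hK : Fintype.card K = 4) {u y w : Fin 6 → K} (hu : Iso u) (hy : Iso y) (huy : B u y = 0) (hwy : B w y = 0) (hwu : B w u ≠ 0) :
    (Finset.univ.filter fun v : Fin 6 → K => (B v y = 0 ∧ B v u = 0) ∧ B v v = 0).card = 160 := by
  have h1 : (2 : ℤ) * ((Finset.univ.filter fun v : Fin 6 → K => (B v y = 0 ∧ B v u = 0) ∧ B v v = 0).card : ℤ) =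
      ((Finset.univ.filter fun v : Fin 6 → K => B v y = 0 ∧ B v u = 0).card : ℤ) +
        ∑ v ∈ Finset.univ.filter (fun v : Fin 6 → K => B v y = 0 ∧ B v u = 0), sg (B v v) := by
    convert two_mul_card (n := 6) hK (fun v => B v y = 0 ∧ B v u = 0)
  rw [card_perp2 hK hu hy hwy hwu, sum_perp2 hK hu hy huy] at h1
  norm_num at h1
  omega

open Classical in
/-- isotropic vectors orthogonal to a hyperbolic pair and an isotropic vector orthogonal to it -/
theorem card_iso3 (hK : Fintype.card K = 4) {u y w : Fin 6 → K} (hu : Iso u) (hy : Iso y) (huy : B u y = 0) (hwy : B w y = 0) (hwu : B w u ≠ 0) (huw : B u w ≠ 0) :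
    (Finset.univ.filter fun v : Fin 6 → K => ((B v y = 0 ∧ B v u = 0) ∧ B v w = 0) ∧ B v v = 0).card = 40 := by
  have h1 : (2 : ℤ) * ((Finset.univ.filter fun v : Fin 6 → K => ((B v y = 0 ∧ B v u = 0) ∧ B v w = 0) ∧ B v v = 0).card : ℤ) =
      ((Finset.univ.filter fun v : Fin 6 → K => (B v y = 0 ∧ B v u = 0) ∧ B v w = 0).card : ℤ) +
        ∑ v ∈ Finset.univ.filter (fun v : Fin 6 → K => (B v y = 0 ∧ B v u = 0) ∧ B v w = 0), sg (B v v) := by
    convert two_mul_card (n := 6) hK (fun v => (B v y = 0 ∧ B v u = 0) ∧ B v w = 0)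
  have f1 := fiber hK (Finset.univ.filter fun v : Fin 6 → K => B v y = 0 ∧ B v u = 0) (fun v => B v w) (fun _ => (1 : ℤ)) u (B u w) huw (by
    intro v hv a
    simp only [Finset.mem_filter, Finset.mem_univ, true_and] at hv ⊢
    refine ⟨⟨?_, ?_⟩, B_trans_left v w a⟩
    · rw [B_trans_left, huy, hv.1]; ring
    · rw [B_trans_left, hu.2, hv.2]; ring)
  have f2 := fiber hK (Finset.univ.filter fun v : Fin 6 → K => B v y = 0 ∧ B v u = 0) (fun v => B v w) (fun v => sg (B v v)) u (B u w) huw (by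
    intro v hv a
    simp only [Finset.mem_filter, Finset.mem_univ, true_and] at hv ⊢
    refine ⟨⟨?_, ?_⟩, ?_, B_trans_left v w a⟩
    · rw [B_trans_left, huy, hv.1]; ring
    · rw [B_trans_left, hu.2, hv.2]; ring
    · rw [B_trans hK hu.2, hv.2]; simp)
  rw [Finset.filter_filter] at f1 f2
  rw [sum_perp2 hK hu hy huy] at f2
  rw [Finset.sum_const, Finset.sum_const, card_perp2 hK hu hy hwy hwu] at f1
  simp only [nsmul_eq_mul, mul_one] at f1
  have e1 : (-2 : ℤ) ^ 6 = 64 := by norm_num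
  rw [e1] at f2
  have f3 : ∑ v ∈ Finset.univ.filter (fun v : Fin 6 → K => (B v y = 0 ∧ B v u = 0) ∧ B v w = 0), sg (B v v) = 16 := by
    have : (4 : ℤ) * ∑ v ∈ Finset.univ.filter (fun v : Fin 6 → K => (B v y = 0 ∧ B v u = 0) ∧ B v w = 0), sg (B v v) = 64 := f2.symm
    omega
  rw [f3] at h1
  push_cast at f1
  omega

end vec

section grp
variable {G : Type*} [Group G]
variable {K : Type} [Field K] [Fintype K] {E : Set G} {τ : (Fin 6 → K) → G} (hT : Tri E) (P : Pol K E τ)
include hT P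

theorem ncard_three {d c y : G} (hd : d ∈ E) (hc : c ∈ E) (hdc : ¬ Commute d c) (hy : y ∈ C E d ∩ C E c) :
    (C (C E d ∩ C E c) y).ncard = 12 := by
  classical
  obtain ⟨u, hu, rfl⟩ := P.surj d hd
  obtain ⟨w, hw, rfl⟩ := P.surj c hc
  obtain ⟨z, hz, rfl⟩ := P.surj y hy.1.1
  have huw : B u w ≠ 0 := fun h => hdc ((P.comm u w hu hw).2 h)
  have hwu : B w u ≠ 0 := fun h => huw (B_symm_zero P.card h)
  have huz : B u z = 0 := (P.comm u z hu hz).1 hy.1.2.2
  have hwz : B w z = 0 := (P.comm w z hw hz).1 hy.2.2.2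
  have hcard := card_iso3 P.card hu hz huz hwz hwu huw
  set S := (Finset.univ.filter fun v : Fin 6 → K => ((B v z = 0 ∧ B v u = 0) ∧ B v w = 0) ∧ B v v = 0) \ (Finset.univ.image fun a : K => a • z) with hS
  have hmem : ∀ v, v ∈ S ↔ (((B v z = 0 ∧ B v u = 0) ∧ B v w = 0) ∧ B v v = 0) ∧ ¬ ∃ a : K, v = a • z := by
    intro v
    simp only [hS, Finset.mem_sdiff, Finset.mem_filter, Finset.mem_image, Finset.mem_univ, true_and]
    constructor
    · rintro ⟨h1, h2⟩; exact ⟨h1, fun ⟨a, ha⟩ => h2 ⟨a, ha.symm⟩⟩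
    · rintro ⟨h1, h2⟩; exact ⟨h1, fun ⟨a, ha⟩ => h2 ⟨a, ha.symm⟩⟩
  have hiso : ∀ v ∈ S, Iso v := by
    intro v hv
    rw [hmem] at hv
    refine ⟨?_, hv.1.2⟩
    rintro rfl
    exact hv.2 ⟨0, (zero_smul K z).symm⟩
  have h6 : (Finset.univ.image fun a : K => a • z) ⊆ (Finset.univ.filter fun v : Fin 6 → K => ((B v z = 0 ∧ B v u = 0) ∧ B v w = 0) ∧ B v v = 0) := by
    intro v hv
    simp only [Finset.mem_filter, Finset.mem_image, Finset.mem_univ, true_and] at hv ⊢
    obtain ⟨a, rfl⟩ := hv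
    rw [B_smul_left, B_smul_left, B_smul_left, B_smul_left, B_smul_right, hz.2, B_symm_zero P.card huz, B_symm_zero P.card hwz]
    simp
  have hSc : S.card = 36 := by
    rw [hS, Finset.card_sdiff_of_subset h6, hcard, Finset.card_image_of_injective _ (smul_left_injective K hz.1), Finset.card_univ, P.card]
  have h1 := card_image hT P S hiso (by
    intro v hv a ha
    rw [hmem] at hv ⊢
    obtain ⟨⟨⟨⟨h1, h2⟩, h3⟩, h4⟩, h5⟩ := hv
    refine ⟨⟨⟨⟨by rw [B_smul_left, h1, mul_zero], by rw [B_smul_left, h2, mul_zero]⟩, by rw [B_smul_left, h3, mul_zero]⟩,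
      by rw [B_smul_left, B_smul_right, h4]; ring⟩, ?_⟩
    rintro ⟨b, hb⟩
    apply h5
    refine ⟨a⁻¹ * b, ?_⟩
    rw [← smul_smul, ← hb, smul_smul, inv_mul_cancel₀ ha, one_smul])
  have h2 : C (C E (τ u) ∩ C E (τ w)) (τ z) = (S.image τ : Finset G) := by
    ext x
    simp only [Finset.coe_image, Set.mem_image, Finset.mem_coe]
    constructor
    · rintro ⟨⟨⟨hx, hxu, hc⟩, ⟨_, hxw, hc'⟩⟩, hxz, hc''⟩
      obtain ⟨v, hv, rfl⟩ := P.surj x hx
      refine ⟨v, ?_, rfl⟩
      rw [hmem]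
      refine ⟨⟨⟨⟨B_symm_zero P.card ((P.comm z v hz hv).1 hc''), B_symm_zero P.card ((P.comm u v hu hv).1 hc)⟩,
        B_symm_zero P.card ((P.comm w v hw hv).1 hc')⟩, hv.2⟩, ?_⟩
      rintro ⟨a, ha⟩
      exact hxz ((P.inj v z hv hz).2 ⟨a, ha⟩)
    · rintro ⟨v, hvS, rfl⟩
      have hv := hiso v hvS
      rw [hmem] at hvS
      obtain ⟨⟨⟨⟨h1, h2⟩, h3⟩, h4⟩, h5⟩ := hvS
      refine ⟨⟨⟨P.mem v hv, ?_, (P.comm u v hu hv).2 (B_symm_zero P.card h2)⟩, ⟨P.mem v hv, ?_, (P.comm w v hw hv).2 (B_symm_zero P.card h3)⟩⟩,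
        ?_, (P.comm z v hz hv).2 (B_symm_zero P.card h1)⟩
      · intro h
        apply hdc
        rw [← h]
        exact ((P.comm w v hw hv).2 (B_symm_zero P.card h3)).symm
      · intro h
        apply hdc
        rw [← h]
        exact (P.comm u v hu hv).2 (B_symm_zero P.card h2)
      · intro h
        exact h5 ((P.inj v z hv hz).1 h)
  rw [hSc] at h1
  rw [h2, Set.ncard_coe_finset]
  omega

theorem ncard_lam {x y : G} (hx : x ∈ E) (hy : y ∈ C E x) : (C E x ∩ C E y).ncard = 51 := by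
  classical
  obtain ⟨u, hu, rfl⟩ := P.surj x hx
  obtain ⟨z, hz, rfl⟩ := P.surj y hy.1
  have huz : B u z = 0 := (P.comm u z hu hz).1 hy.2.2
  have hne : τ u ≠ τ z := fun h => hy.2.1 h.symm
  have hli := indep_of_ne hT P hu hz hne
  -- a partner of `u` orthogonal to `z`
  obtain ⟨f, hf⟩ := exists_dual P.card ![u, z] hli (by
    intro i j
    fin_cases i <;> fin_cases j
    · exact hu.2
    · exact huz
    · exact B_symm_zero P.card huz
    · exact hz.2)
  have hfu : B (f 0) u ≠ 0 := by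
    have := hf.fe P.card 0 0
    simp at this
    rw [this]; exact one_ne_zero
  have hfz : B (f 0) z = 0 := by
    have := hf.fe P.card 0 1
    simpa using this
  have hcard := card_iso2 P.card hu hz huz hfz hfu
  set S := ((Finset.univ.filter fun v : Fin 6 → K => (B v z = 0 ∧ B v u = 0) ∧ B v v = 0) \ (Finset.univ.image fun a : K => a • z)) \
    (Finset.univ.filter fun v : Fin 6 → K => v ≠ 0 ∧ ∃ a : K, v = a • u) with hS
  have hmem : ∀ v, v ∈ S ↔ ((((B v z = 0 ∧ B v u = 0) ∧ B v v = 0) ∧ ¬ ∃ a : K, v = a • z)) ∧ ¬ ∃ a : K, v = a • u := by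
    intro v
    simp only [hS, Finset.mem_sdiff, Finset.mem_filter, Finset.mem_image, Finset.mem_univ, true_and]
    constructor
    · rintro ⟨⟨h1, h2⟩, h3⟩
      refine ⟨⟨h1, fun ⟨a, ha⟩ => h2 ⟨a, ha.symm⟩⟩, ?_⟩
      intro h4
      apply h3
      refine ⟨?_, h4⟩
      rintro rfl
      exact h2 ⟨0, zero_smul K z⟩
    · rintro ⟨⟨h1, h2⟩, h3⟩; exact ⟨⟨h1, fun ⟨a, ha⟩ => h2 ⟨a, ha.symm⟩⟩, fun h => h3 h.2⟩
  have hiso : ∀ v ∈ S, Iso v := by
    intro v hv
    rw [hmem] at hv
    refine ⟨?_, hv.1.1.2⟩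
    rintro rfl
    exact hv.2 ⟨0, (zero_smul K u).symm⟩
  have h6 : (Finset.univ.image fun a : K => a • z) ⊆ (Finset.univ.filter fun v : Fin 6 → K => (B v z = 0 ∧ B v u = 0) ∧ B v v = 0) := by
    intro v hv
    simp only [Finset.mem_filter, Finset.mem_image, Finset.mem_univ, true_and] at hv ⊢
    obtain ⟨a, rfl⟩ := hv
    rw [B_smul_left, B_smul_left, B_smul_left, B_smul_right, hz.2, B_symm_zero P.card huz]
    simp
  have h7 : (Finset.univ.filter fun v : Fin 6 → K => v ≠ 0 ∧ ∃ a : K, v = a • u) ⊆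
      ((Finset.univ.filter fun v : Fin 6 → K => (B v z = 0 ∧ B v u = 0) ∧ B v v = 0) \ (Finset.univ.image fun a : K => a • z)) := by
    intro v hv
    simp only [Finset.mem_sdiff, Finset.mem_filter, Finset.mem_image, Finset.mem_univ, true_and] at hv ⊢
    obtain ⟨h0, a, rfl⟩ := hv
    refine ⟨?_, ?_⟩
    · rw [B_smul_left, B_smul_left, B_smul_left, B_smul_right, hu.2, huz]
      simp
    · rintro ⟨b, hb⟩
      rw [LinearIndependent.pair_iff] at hli
      have := hli a (-b) (by rw [neg_smul, hb, add_neg_cancel])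
      apply h0
      rw [this.1, zero_smul]
  have h8 : (Finset.univ.filter fun v : Fin 6 → K => v ≠ 0 ∧ ∃ a : K, v = a • u).card = 3 := by
    have e : (Finset.univ.filter fun v : Fin 6 → K => v ≠ 0 ∧ ∃ a : K, v = a • u) = (Finset.univ.image fun a : K => a • u).erase 0 := by
      ext v
      simp only [Finset.mem_erase, Finset.mem_filter, Finset.mem_image, Finset.mem_univ, true_and]
      constructor
      · rintro ⟨h1, a, ha⟩; exact ⟨h1, a, ha.symm⟩
      · rintro ⟨h1, a, ha⟩; exact ⟨h1, a, ha.symm⟩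
    rw [e, Finset.card_erase_of_mem, Finset.card_image_of_injective _ (smul_left_injective K hu.1), Finset.card_univ, P.card]
    rw [Finset.mem_image]
    exact ⟨0, Finset.mem_univ _, zero_smul K u⟩
  have hSc : S.card = 153 := by
    rw [hS, Finset.card_sdiff_of_subset h7, h8, Finset.card_sdiff_of_subset h6, hcard,
      Finset.card_image_of_injective _ (smul_left_injective K hz.1), Finset.card_univ, P.card]
  have h1 := card_image hT P S hiso (by
    intro v hv a ha
    rw [hmem] at hv ⊢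
    obtain ⟨⟨⟨⟨h1, h2⟩, h3⟩, h4⟩, h5⟩ := hv
    refine ⟨⟨⟨⟨by rw [B_smul_left, h1, mul_zero], by rw [B_smul_left, h2, mul_zero]⟩,
      by rw [B_smul_left, B_smul_right, h3]; ring⟩, ?_⟩, ?_⟩
    · rintro ⟨b, hb⟩
      apply h4
      refine ⟨a⁻¹ * b, ?_⟩
      rw [← smul_smul, ← hb, smul_smul, inv_mul_cancel₀ ha, one_smul]
    · rintro ⟨b, hb⟩
      apply h5
      refine ⟨a⁻¹ * b, ?_⟩
      rw [← smul_smul, ← hb, smul_smul, inv_mul_cancel₀ ha, one_smul])
  have h2 : C E (τ u) ∩ C E (τ z) = (S.image τ : Finset G) := by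
    ext x
    simp only [Finset.coe_image, Set.mem_image, Finset.mem_coe]
    constructor
    · rintro ⟨⟨hx, hxu, hc⟩, ⟨_, hxw, hc'⟩⟩
      obtain ⟨v, hv, rfl⟩ := P.surj x hx
      refine ⟨v, ?_, rfl⟩
      rw [hmem]
      refine ⟨⟨⟨⟨B_symm_zero P.card ((P.comm z v hz hv).1 hc'), B_symm_zero P.card ((P.comm u v hu hv).1 hc)⟩, hv.2⟩, ?_⟩, ?_⟩
      · rintro ⟨a, ha⟩
        exact hxw ((P.inj v z hv hz).2 ⟨a, ha⟩)
      · rintro ⟨a, ha⟩
        exact hxu ((P.inj v u hv hu).2 ⟨a, ha⟩)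
    · rintro ⟨v, hvS, rfl⟩
      have hv := hiso v hvS
      rw [hmem] at hvS
      obtain ⟨⟨⟨⟨h1, h2⟩, h3⟩, h4⟩, h5⟩ := hvS
      refine ⟨⟨P.mem v hv, ?_, (P.comm u v hu hv).2 (B_symm_zero P.card h2)⟩, ⟨P.mem v hv, ?_, (P.comm z v hz hv).2 (B_symm_zero P.card h1)⟩⟩
      · intro h
        exact h5 ((P.inj v u hv hu).1 h)
      · intro h
        exact h4 ((P.inj v z hv hz).1 h)
  rw [hSc] at h1
  rw [h2, Set.ncard_coe_finset]
  omega

end grp
end H91.FiCount
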