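import Mathlib
import Cfsg.Prelude.Def_FischerSpaces
import Cfsg.Prelude.Def_CaseTheorems
import Cfsg.Agent.Lib.H91.FiA
import Cfsg.Agent.Lib.H19.DCovA

/-!
Double covers of `Fi22`: the class of lifts, and the local data at an involution whose centralizer is such a cover.
-/

set_option autoImplicit false
set_option linter.dupNamespace false
set_option linter.unusedSectionVars false
set_option linter.style.haveILetI false
set_option linter.unusedVariables false
open Cfsg

namespace H91.FiCov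
open H92.Tri H92.Lev H92.Geo H92.ULift H91.FiA

structure Cov {C Q : Type*} [Group C] [Group Q] (π : C →* Q) (z : C) (E : Set Q) : Prop where
  surj : Function.Surjective π
  ker : ∀ c, π c = 1 → c = 1 ∨ c = z
  pz : π z = 1
  cent : ∀ c, c * z = z * c
  sq : z * z = 1
  ne : z ≠ 1
  lg : LG 1 E
  card : E.ncard = 3510
  gen : Subgroup.closure E = ⊤
  zen : Subgroup.center Q = ⊥

/-- the class -/
def D {C : Type*} [Group C] (x0 : C) : Set C := {y | ∃ c, c * x0 * c⁻¹ = y}

variable {C Q : Type*} [Group C] [Group Q] [Finite Q] {π : C →* Q} {z : C} {E : Set Q} (H : Cov π z E)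
include H

theorem Cov.comm_of {x y : C} (hx : π x ∈ E) (hy : π y ∈ E) (h : Commute (π x) (π y)) : Commute x y :=
  H19.DCovA.comm_lifts π z H.lg H.gen H.zen H.surj H.cent H.sq H.ker x y hx hy h

theorem Cov.inv_of {y : C} (hy : π y * π y = 1) : y * y = 1 :=
  H19.DCovA.lift_inv π z H.lg H.card H.gen H.zen H.surj H.cent H.sq H.ker hy

theorem Cov.comm_cent {x : C} (hx : π x ∈ E) {c : C} (hc : Commute (π c) (π x)) : Commute c x := by
  have h1 : π c ∈ Subgroup.closure (H92.Tri.C E (π x)) := by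
    rw [H92.M22.centralizer_one H.lg H.card H.gen H.zen hx, Subgroup.mem_centralizer_singleton_iff]
    exact hc
  have key : ∀ g ∈ Subgroup.closure (H92.Tri.C E (π x)), ∀ c, π c = g → Commute c x := by
    intro g hg
    induction hg using Subgroup.closure_induction with
    | mem y hy =>
      intro c hc
      rw [← hc] at hy
      exact H.comm_of hy.1 hx hy.2.2.symm
    | one =>
      intro c hc
      rcases H.ker c hc with h2 | h2
      · rw [h2]; exact Commute.one_left x
      · rw [h2]; exact (H.cent x).symm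
    | mul a b _ _ ha hb =>
      intro c hc
      obtain ⟨c1, h1⟩ := H.surj a
      obtain ⟨c2, h2⟩ := H.surj b
      have h3 : π c = π (c1 * c2) := by rw [hc, map_mul, h1, h2]
      have h4 : Commute (c1 * c2) x := (ha c1 h1).mul_left (hb c2 h2)
      rcases lift_eq π z H.ker h3 with h5 | h5
      · rw [h5]; exact h4
      · rw [h5]; exact h4.mul_left (H.cent x).symm
    | inv a _ ha =>
      intro c hc
      have h2 : π c⁻¹ = a := by rw [map_inv, hc, inv_inv]
      have := ha c⁻¹ h2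
      have h3 := this.inv_left
      rwa [inv_inv] at h3
  exact key _ h1 c rfl

theorem Cov.not_fuse {x : C} (hx : π x ∈ E) (c : C) : c * x * c⁻¹ ≠ x * z := by
  intro h
  have h1 : π c * π x * (π c)⁻¹ = π x := by
    have := congrArg π h
    rw [map_mul, map_mul, map_inv, map_mul, H.pz, mul_one] at this
    exact this
  have h2 : Commute (π c) (π x) := mul_inv_eq_iff_eq_mul.1 h1
  have h3 := H.comm_cent hx h2
  rw [h3.eq, mul_inv_cancel_right] at h
  have h4 : x * 1 = x * z := by rw [mul_one]; exact h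
  exact H.ne (mul_left_cancel h4).symm

omit [Finite Q] H in
theorem conj_D {x0 y : C} (hy : y ∈ D x0) (g : C) : g * y * g⁻¹ ∈ D x0 := by
  obtain ⟨c, rfl⟩ := hy
  exact ⟨g * c, by group⟩

section cls
variable {x0 : C} (h0 : π x0 ∈ E)
include h0

theorem Cov.mem_E {y : C} (hy : y ∈ D x0) : π y ∈ E := by
  obtain ⟨c, rfl⟩ := hy
  rw [map_mul, map_mul, map_inv]
  exact conj_closure H.lg.lev.tri (by rw [H.gen]; trivial) h0

theorem Cov.uniq {x y : C} (hx : x ∈ D x0) (hy : y ∈ D x0) (h : π x = π y) : x = y := by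
  rcases lift_eq π z H.ker h with h1 | h1
  · exact h1
  · exfalso
    obtain ⟨c, rfl⟩ := hx
    obtain ⟨c', rfl⟩ := hy
    apply H.not_fuse h0 (c'⁻¹ * c)
    calc c'⁻¹ * c * x0 * (c'⁻¹ * c)⁻¹ = c'⁻¹ * (c * x0 * c⁻¹) * c' := by group
      _ = c'⁻¹ * (c' * x0 * c'⁻¹ * z) * c' := by rw [h1]
      _ = x0 * c'⁻¹ * (z * c') := by group
      _ = x0 * c'⁻¹ * (c' * z) := by rw [H.cent]
      _ = x0 * z := by group

theorem Cov.exists_lift {a : Q} (ha : a ∈ E) : ∃ x ∈ D x0, π x = a := by
  obtain ⟨k, _, hk⟩ := H.lg.lev.trans h0 ha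
  obtain ⟨c, rfl⟩ := H.surj k
  refine ⟨c * x0 * c⁻¹, ⟨c, rfl⟩, ?_⟩
  rw [map_mul, map_mul, map_inv]; exact hk

theorem Cov.sq_D {x : C} (hx : x ∈ D x0) : x * x = 1 := by
  apply H.inv_of
  exact H.lg.lev.tri.sq _ (H.mem_E h0 hx)

theorem Cov.inv_D {x : C} (hx : x ∈ D x0) : x⁻¹ = x := inv_eq_of_mul_eq_one_left (H.sq_D h0 hx)

theorem Cov.tri : Tri (D x0) := by
  refine ⟨fun x hx => H.sq_D h0 hx, ?_, ?_⟩
  · intro x hx y hy
    rcases H.lg.lev.tri.three _ (H.mem_E h0 hx) _ (H.mem_E h0 hy) with h1 | h1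
    · exact Or.inl (H.comm_of (H.mem_E h0 hx) (H.mem_E h0 hy) h1)
    · right
      apply H.uniq h0
      · have := conj_D hy x
        rwa [H.inv_D h0 hx] at this
      · have := conj_D hx y
        rwa [H.inv_D h0 hy] at this
      · rw [map_mul, map_mul, map_mul, map_mul]; exact h1
  · intro x hx y hy
    have := conj_D hy x
    rwa [H.inv_D h0 hx] at this

theorem Cov.image : π '' (D x0) = E := by
  ext a
  constructor
  · rintro ⟨x, hx, rfl⟩; exact H.mem_E h0 hx
  · intro ha
    obtain ⟨x, hx, hxa⟩ := H.exists_lift h0 ha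
    exact ⟨x, hx, hxa⟩

theorem Cov.injOn : Set.InjOn π (D x0) := fun x hx y hy h => H.uniq h0 hx hy h

theorem Cov.lev : Lev 1 (D x0) := by
  apply lev_preimage π (H.tri h0) (H.injOn h0)
  rw [H.image h0]; exact H.lg.lev

theorem Cov.ncard : (D x0).ncard = 3510 := by
  rw [← (H.injOn h0).ncard_image, H.image h0, H.card]

theorem Cov.map_closure : (Subgroup.closure (D x0)).map π = ⊤ := by
  rw [MonoidHom.map_closure, H.image h0, H.gen]

theorem Cov.central {c : C} (h : ∀ x ∈ D x0, Commute c x) : c = 1 ∨ c = z := by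
  apply H.ker
  apply H92.QS.central_one H.gen H.zen
  intro a ha
  obtain ⟨x, hx, rfl⟩ := H.exists_lift h0 ha
  exact (h x hx).map π

theorem Cov.inv_decomp {y : C} (hy : y * y = 1) : ∃ l : List C, l.Nodup ∧ l.length ≤ 3 ∧ (∀ a ∈ l, a ∈ D x0) ∧
    (∀ a ∈ l, ∀ b ∈ l, Commute a b) ∧ (y = l.prod ∨ y = l.prod * z) := by
  obtain ⟨l, l1, l2, l3, l4, l5⟩ := H92.M22.inv_one H.lg H.card H.gen H.zen (x := π y) (by rw [← map_mul, hy, map_one])
  have hex : ∀ l : List Q, (∀ a ∈ l, a ∈ E) → ∃ L : List C, L.map π = l ∧ ∀ x ∈ L, x ∈ D x0 := by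
    intro l
    induction l with
    | nil => intro _; exact ⟨[], rfl, by simp⟩
    | cons a l ih =>
      intro hl
      obtain ⟨L, hL, hLD⟩ := ih (fun b hb => hl b (List.mem_cons_of_mem _ hb))
      obtain ⟨x, hx, hxa⟩ := H.exists_lift h0 (hl a (by simp))
      refine ⟨x :: L, by simp [hL, hxa], ?_⟩
      intro w hw
      rcases List.mem_cons.1 hw with rfl | hw
      · exact hx
      · exact hLD w hw
  obtain ⟨L, hL, hLD⟩ := hex l l3
  have hmem : ∀ u ∈ L, π u ∈ l := by
    intro u hu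
    rw [← hL]; exact List.mem_map_of_mem hu
  refine ⟨L, ?_, ?_, hLD, ?_, ?_⟩
  · rw [← hL] at l1
    exact List.Nodup.of_map π l1
  · rw [← hL, List.length_map] at l2; exact l2
  · intro a ha b hb
    exact H.comm_of (H.mem_E h0 (hLD a ha)) (H.mem_E h0 (hLD b hb)) (l4 _ (hmem a ha) _ (hmem b hb))
  · apply lift_eq π z H.ker
    rw [map_list_prod, hL, l5]

end cls

omit [Finite Q] H

/-- the local data at the involution -/
theorem pt1 {G : Type*} [Group G] [Finite G] (d : G) (C0 : Subgroup G) (hC0 : C0 = Subgroup.centralizer ({d} : Set G))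
    (hperf : commutator ↥C0 = ⊤) {Q : Type*} [Group Q] [Finite Q] {π : ↥C0 →* Q} {z : ↥C0} (hzd : (z : G) = d) {E : Set Q} (Hc : Cov π z E)
    {x1 : ↥C0} (hx1 : π x1 ∈ E) (hD : ∀ y : ↥C0, (IsConj d (y : G) ↔ (y : G) = d ∨ y ∈ D x1)) :
    Pt 1 (conjugatesOf d) d ∧ (H92.Tri.C (conjugatesOf d) d).ncard = 3510 := by
  have mC : ∀ y : G, y ∈ C0 ↔ Commute y d := fun y => by rw [hC0, Subgroup.mem_centralizer_singleton_iff]; rfl
  have hCD : H92.Tri.C (conjugatesOf d) d = C0.subtype '' (D x1) := by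
    ext y
    constructor
    · rintro ⟨h1, h2, h3⟩
      refine ⟨⟨y, (mC y).2 h3.symm⟩, ?_, rfl⟩
      exact ((hD ⟨y, (mC y).2 h3.symm⟩).1 h1).resolve_left h2
    · rintro ⟨y, hy, rfl⟩
      refine ⟨(hD y).2 (Or.inr hy), ?_, ((mC y).1 y.2).symm⟩
      intro h1
      have h2 : y = z := Subtype.ext (by rw [hzd]; exact h1)
      have h3 := Hc.mem_E hx1 hy
      rw [h2, Hc.pz] at h3
      obtain ⟨w, hw, hxw⟩ := Hc.lg.lev.partner h3
      exact hxw (Commute.one_left _)
  have hcl : ∀ k ∈ Subgroup.closure (D x1), (k : G) ∈ Subgroup.closure (H92.Tri.C (conjugatesOf d) d) := by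
    intro k hk
    rw [hCD, ← MonoidHom.map_closure]
    exact ⟨k, hk, rfl⟩
  refine ⟨⟨?_, ?_, ?_, ?_, ?_⟩, ?_⟩
  · rw [hCD]
    exact lev_image _ (Hc.tri hx1) (fun a _ b _ e => Subtype.ext e) (Hc.lev hx1)
  · intro c hc
    have h1 : π ⟨c, (mC c).2 hc⟩ ∈ (Subgroup.closure (D x1)).map π := by rw [Hc.map_closure hx1]; trivial
    obtain ⟨k, hk, hkc⟩ := h1
    refine ⟨k, hcl k hk, ?_⟩
    rcases lift_eq π z Hc.ker hkc.symm with h2 | h2
    · left; exact congrArg Subtype.val h2
    · right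
      have := congrArg Subtype.val h2
      rw [← hzd]; exact this
  · intro g hg hgy
    rcases Hc.central hx1 (c := ⟨g, (mC g).2 hg⟩) (by
      intro x hx
      apply Subtype.ext
      exact (hgy x (by rw [hCD]; exact ⟨x, hx, rfl⟩)).eq) with h2 | h2
    · left; exact congrArg Subtype.val h2
    · right; rw [← hzd]; exact congrArg Subtype.val h2
  · rw [← hC0, ← Subgroup.map_subtype_commutator, hperf, ← MonoidHom.range_eq_map, Subgroup.range_subtype]
  · intro w hww hw
    obtain ⟨l, l1, l2, l3, l4, l5⟩ := Hc.inv_decomp hx1 (y := ⟨w, (mC w).2 hw⟩) (Subtype.ext hww)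
    refine ⟨l.map C0.subtype, List.Nodup.map C0.subtype_injective l1, by rw [List.length_map]; exact l2, ?_, ?_, ?_⟩
    · intro a ha
      obtain ⟨b, hb, rfl⟩ := List.mem_map.1 ha
      rw [hCD]
      exact ⟨b, l3 b hb, rfl⟩
    · intro a ha b hb
      obtain ⟨a', ha', rfl⟩ := List.mem_map.1 ha
      obtain ⟨b', hb', rfl⟩ := List.mem_map.1 hb
      exact (l4 a' ha' b' hb').map C0.subtype
    · have hmp : (l.map C0.subtype).prod = (l.prod : G) := by
        rw [← map_list_prod]; rfl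
      rw [hmp]
      rcases l5 with h2 | h2
      · left; exact congrArg Subtype.val h2
      · right
        have h3 := congrArg Subtype.val h2
        rw [Hc.cent] at h3
        rw [← hzd]; exact h3
  · rw [hCD, Set.ncard_image_of_injective _ C0.subtype_injective, Hc.ncard hx1]

end H91.FiCov
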