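import Mathlib
import Cfsg.Prelude.Def_FischerSpaces
import Cfsg.Agent.Lib.H91.FiEmb

/-!
Under the hypotheses of `Emb`, `D = Γ`.
-/

set_option autoImplicit false
set_option linter.dupNamespace false
set_option linter.unusedSectionVars false
set_option linter.style.haveILetI false
set_option linter.unusedVariables false
open Cfsg

namespace H91.FiEmb
open H92.Tri H92.Lev H92.Geo

universe u
variable {G : Type u} [Group G] [Finite G] {n : ℕ} {D Γ : Set G} {H : Subgroup G} (h : Emb n D Γ H)
include h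

/-- products of a member of `Γ` and a member of `D` outside `Γ` have odd order -/
theorem Emb.odd {x y : G} (hx : x ∈ Γ) (hy : y ∈ D) (hyΓ : y ∉ Γ) : Odd (orderOf (x * y)) := by
  by_contra hcon
  rw [Nat.not_odd_iff_even] at hcon
  have hxx := h.sq x (h.sub hx)
  have hyy := h.sq y hy
  obtain ⟨v, hvv, hv1, hvx, hvy, m, hm⟩ := central_inv hxx hyy (orderOf_pos _) hcon
  have hxv : x * v ∈ D := by
    rw [hm]
    rcases Nat.even_or_odd' m with ⟨j, rfl | rfl⟩
    · rw [← dih1 hxx hyy]; exact h.conj _ _ (h.sub hx)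
    · rw [← dih2 hxx hyy]; exact h.conj _ _ hy
  have hc : Commute x (x * v) := (Commute.refl x).mul_right hvx.symm
  have hcΓ := h.nb x hx _ hxv hc
  have hne : x ≠ x * v := fun e => hv1 (left_eq_mul.1 e)
  have e1 : x * (x * v) = v := by rw [← mul_assoc, hxx, one_mul]
  have hyH : y ∈ H := h.wt2 hx hcΓ hne hc (by rw [e1]; exact hvy.symm)
  exact hyΓ (h.DH hy hyH)

/-- if the centralizer of an involution of `H` is not in `H`, it acts transitively -/
theorem Emb.star {w g : G} (hg : Commute g w) (hgH : g ∉ H) {x1 x2 : G} (h1 : x1 ∈ Γ) (h2 : x2 ∈ Γ) (hw1 : Commute x1 w) (hw2 : Commute x2 w) :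
    ∃ k ∈ H, Commute k w ∧ k * x1 * k⁻¹ = x2 := by
  set y := g * x1 * g⁻¹ with hy
  have hyD : y ∈ D := h.conj g x1 (h.sub h1)
  have hyΓ : y ∉ Γ := fun hh => hgH (h.mv g x1 h1 hh)
  have hyw : Commute y w := (hg.mul_left hw1).mul_left hg.inv_left
  have hyy := h.sq y hyD
  obtain ⟨j, hj⟩ := conj_of_odd (h.sq x1 (h.sub h1)) hyy (h.odd h1 hyD hyΓ)
  obtain ⟨k, hk⟩ := conj_of_odd (h.sq x2 (h.sub h2)) hyy (h.odd h2 hyD hyΓ)
  have c1 : Commute ((y * x1) ^ j) w := (hyw.mul_left hw1).pow_left j
  have c2 : Commute ((y * x2) ^ k) w := (hyw.mul_left hw2).pow_left k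
  have e : ((y * x2) ^ k)⁻¹ * (y * x1) ^ j * x1 * (((y * x2) ^ k)⁻¹ * (y * x1) ^ j)⁻¹ = x2 := by
    calc ((y * x2) ^ k)⁻¹ * (y * x1) ^ j * x1 * (((y * x2) ^ k)⁻¹ * (y * x1) ^ j)⁻¹
        = ((y * x2) ^ k)⁻¹ * ((y * x1) ^ j * x1 * ((y * x1) ^ j)⁻¹) * (y * x2) ^ k := by group
      _ = ((y * x2) ^ k)⁻¹ * ((y * x2) ^ k * x2 * ((y * x2) ^ k)⁻¹) * (y * x2) ^ k := by rw [hj, hk]
      _ = x2 := by group
  exact ⟨_, h.mv _ x1 h1 (by rw [e]; exact h2), c2.inv_left.mul_left c1, e⟩

/-- products of three distinct commuting members -/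
theorem Emb.wt3 {x a c g : G} (hx : x ∈ Γ) (ha : a ∈ Γ) (hc : c ∈ Γ) (nxa : x ≠ a) (nxc : x ≠ c) (nac : a ≠ c) (cxa : Commute x a)
    (cxc : Commute x c) (cac : Commute a c) (hg : Commute g (x * a * c)) : g ∈ H := by
  by_contra hgH
  have hT := h.tri
  obtain ⟨x', hx', n1, n2, n3, c1, c2, c3, hsep⟩ := h.sep x hx a ha c hc nxa nxc nac cxa cxc cac
  set w := x * a * c with hw
  have hxw : Commute x w := ((Commute.refl x).mul_right cxa).mul_right cxc
  have haw : Commute a w := (cxa.symm.mul_right (Commute.refl a)).mul_right cac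
  have hcw : Commute c w := (cxc.symm.mul_right cac.symm).mul_right (Commute.refl c)
  have hx'w : Commute x' w := (c1.mul_right c2).mul_right c3
  obtain ⟨k, hkH, hkw, hkx⟩ := h.star hg hgH hx hx' hxw hx'w
  set b1 := k * a * k⁻¹ with hb1
  set b2 := k * c * k⁻¹ with hb2
  have hb1Γ : b1 ∈ Γ := h.mem k hkH a ha
  have hb2Γ : b2 ∈ Γ := h.mem k hkH c hc
  have inj : ∀ p q : G, k * p * k⁻¹ = k * q * k⁻¹ → p = q := fun p q e => mul_left_cancel (mul_right_cancel e)
  have nb12 : b1 ≠ b2 := fun e => nac (inj _ _ e)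
  have nx'b1 : x' ≠ b1 := fun e => nxa (inj _ _ (hkx.trans e))
  have nx'b2 : x' ≠ b2 := fun e => nxc (inj _ _ (hkx.trans e))
  have cb12 : Commute b1 b2 := (Commute.conj_iff k).2 cac
  have cx'b1 : Commute x' b1 := by rw [← hkx]; exact (Commute.conj_iff k).2 cxa
  have cx'b2 : Commute x' b2 := by rw [← hkx]; exact (Commute.conj_iff k).2 cxc
  have hwk : w = x' * b1 * b2 := by
    have e1 : k * w * k⁻¹ = w := by rw [hkw.eq, mul_inv_cancel_right]
    rw [← e1, ← hkx, hb1, hb2, hw]; group
  have hx'x' := hT.sq x' hx'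
  have hb12 : b1 * b2 = x' * w := by rw [hwk]; rw [mul_assoc x' b1 b2, ← mul_assoc x' x', hx'x', one_mul]
  have com2 : ∀ p ∈ Γ, Commute p w → Commute p x' → Commute p b1 ∧ Commute p b2 := by
    intro p hp h1 h2
    apply comm_two hT hb1Γ hb2Γ hp cb12 nb12
    rw [hb12]; exact h2.mul_right h1
  obtain ⟨cxb1, cxb2⟩ := com2 x hx hxw c1.symm
  obtain ⟨cab1, cab2⟩ := com2 a ha haw c2.symm
  obtain ⟨ccb1, ccb2⟩ := com2 c hc hcw c3.symm
  have hxx := hT.sq x hx
  have haa := hT.sq a ha
  have hcc := hT.sq c hc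
  have hb1b1 := hT.sq b1 hb1Γ
  have hb2b2 := hT.sq b2 hb2Γ
  -- the three ways to remove one factor
  have w1 : x * w = a * c := by rw [hw, mul_assoc x a c, ← mul_assoc x x, hxx, one_mul]
  have w2 : a * w = x * c := by
    rw [hw]
    calc a * (x * a * c) = (a * x) * a * c := by group
      _ = (x * a) * a * c := by rw [← cxa.eq]
      _ = x * (a * a) * c := by group
      _ = x * c := by rw [haa, mul_one]
  have w3 : c * w = x * a := by
    rw [hcw.eq, hw, mul_assoc, hcc, mul_one]
  have v1 : b1 * w = x' * b2 := by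
    rw [hwk]
    calc b1 * (x' * b1 * b2) = (b1 * x') * b1 * b2 := by group
      _ = (x' * b1) * b1 * b2 := by rw [← cx'b1.eq]
      _ = x' * (b1 * b1) * b2 := by group
      _ = x' * b2 := by rw [hb1b1, mul_one]
  have v2 : b2 * w = x' * b1 := by
    have : Commute b2 w := by rw [hwk]; exact (cx'b2.symm.mul_right cb12.symm).mul_right (Commute.refl b2)
    rw [this.eq, hwk, mul_assoc, hb2b2, mul_one]
  have hcase : ∀ b b' : G, b ∈ Γ → b' ∈ Γ → b * w = x' * b' → x' ≠ b' → Commute x' b' → b ≠ x ∧ b ≠ a ∧ b ≠ c := by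
    intro b b' hb hb' hbw hne hcm
    refine ⟨?_, ?_, ?_⟩
    · rintro rfl
      rw [w1] at hbw
      rcases h.two ha hc hx' hb' cac hcm nac hne hbw with e | e
      · exact n2 e
      · exact n3 e
    · rintro rfl
      rw [w2] at hbw
      rcases h.two hx hc hx' hb' cxc hcm nxc hne hbw with e | e
      · exact n1 e
      · exact n3 e
    · rintro rfl
      rw [w3] at hbw
      rcases h.two hx ha hx' hb' cxa hcm nxa hne hbw with e | e
      · exact n1 e
      · exact n2 e
  obtain ⟨m1, m2, m3⟩ := hcase b1 b2 hb1Γ hb2Γ v1 nx'b2 cx'b2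
  obtain ⟨m4, m5, m6⟩ := hcase b2 b1 hb2Γ hb1Γ v2 nx'b1 cx'b1
  -- the relation of length five
  have hlev := h.lev.C hx'
  have hnd : [x, a, c, b1, b2].Nodup := by
    simp only [List.nodup_cons, List.mem_cons, List.not_mem_nil, or_false, not_or, List.nodup_nil, and_true, not_false_eq_true]
    exact ⟨⟨nxa, nxc, m1.symm, m4.symm⟩, ⟨nac, m2.symm, m5.symm⟩, ⟨m3.symm, m6.symm⟩, nb12⟩
  have hmemC : ∀ y ∈ [x, a, c, b1, b2], y ∈ C Γ x' := by
    intro y hy
    simp only [List.mem_cons, List.not_mem_nil, or_false] at hy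
    rcases hy with rfl | rfl | rfl | rfl | rfl
    · exact ⟨hx, n1.symm, c1⟩
    · exact ⟨ha, n2.symm, c2⟩
    · exact ⟨hc, n3.symm, c3⟩
    · exact ⟨hb1Γ, nx'b1.symm, cx'b1⟩
    · exact ⟨hb2Γ, nx'b2.symm, cx'b2⟩
  have hcomm : ∀ y ∈ [x, a, c, b1, b2], ∀ z ∈ [x, a, c, b1, b2], Commute y z := by
    intro y hy z hz
    simp only [List.mem_cons, List.not_mem_nil, or_false] at hy hz
    rcases hy with rfl | rfl | rfl | rfl | rfl <;> rcases hz with rfl | rfl | rfl | rfl | rfl <;>
      first | exact Commute.refl _ | assumption | (apply Commute.symm; assumption)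
  have hprod : [x, a, c, b1, b2].prod = x' := by
    simp only [List.prod_cons, List.prod_nil, mul_one]
    calc x * (a * (c * (b1 * b2))) = (x * a * c) * (b1 * b2) := by group
      _ = w * (x' * w) := by rw [hb12]
      _ = w * (w * x') := by rw [hx'w.eq]
      _ = (w * w) * x' := by group
      _ = x' := by
          have : w * w = 1 := by
            calc w * w = x * a * (c * w) := by rw [hw]; group
              _ = (x * a) * (x * a) := by rw [w3]
              _ = x * (a * x) * a := by group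
              _ = x * (x * a) * a := by rw [← cxa.eq]
              _ = (x * x) * (a * a) := by group
              _ = 1 := by rw [hxx, haa, one_mul]
          rw [this, one_mul]
  have hcent : ∀ e ∈ C Γ x', Commute [x, a, c, b1, b2].prod e := by
    intro e he
    rw [hprod]; exact he.2.2
  rcases hlev.rel_min _ hnd hmemC hcomm hcent with h1 | h1
  · cases h1
  · have hn : n = 0 := by
      simp only [List.length_cons, List.length_nil] at h1
      omega
    obtain ⟨e, he, hex, hea, hec⟩ := hsep hn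
    apply hec
    subst hn
    apply hlev.rel_block _ hnd hmemC hcomm hcent (by simp) [x, a] (by simp [nxa]) (by simp) (by
      intro y hy
      simp only [List.mem_cons, List.not_mem_nil, or_false] at hy ⊢
      tauto) c (by simp) e he
    intro y hy
    simp only [List.mem_cons, List.not_mem_nil, or_false] at hy
    rcases hy with rfl | rfl
    · exact hex
    · exact hea

/-- products of at most three commuting members -/
theorem Emb.short {l : List G} (hnd : l.Nodup) (hlen : l.length ≤ 3) (hm : ∀ a ∈ l, a ∈ Γ) (hc : ∀ a ∈ l, ∀ b ∈ l, Commute a b) (h1 : l.prod ≠ 1)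
    {g : G} (hg : Commute g l.prod) : g ∈ H := by
  match l, hnd, hlen, hm, hc, h1, hg with
  | [], _, _, _, _, h1, _ => exact absurd List.prod_nil h1
  | [a], _, _, hm, _, _, hg =>
    rw [List.prod_singleton] at hg
    exact h.cen (hm a (by simp)) hg
  | [a, b], hnd, _, hm, hc, _, hg =>
    have hab : a ≠ b := by
      intro e; rw [e] at hnd; simp at hnd
    have : [a, b].prod = a * b := by simp
    rw [this] at hg
    exact h.wt2 (hm a (by simp)) (hm b (by simp)) hab (hc a (by simp) b (by simp)) hg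
  | [a, b, c], hnd, _, hm, hc, _, hg =>
    simp only [List.nodup_cons, List.mem_cons, List.not_mem_nil, or_false, not_or, List.nodup_nil, and_true, not_false_eq_true] at hnd
    have : [a, b, c].prod = a * b * c := by simp [mul_assoc]
    rw [this] at hg
    exact h.wt3 (hm a (by simp)) (hm b (by simp)) (hm c (by simp)) hnd.1.1 hnd.1.2 hnd.2 (hc a (by simp) b (by simp)) (hc a (by simp) c (by simp))
      (hc b (by simp) c (by simp)) hg
  | (a :: b :: c :: d :: l), _, hlen, _, _, _, _ =>
    simp only [List.length_cons] at hlen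
    omega

/-- all involutions of `H` have their centralizer in `H` -/
theorem Emb.all {w g : G} (hw : w ∈ H) (hww : w * w = 1) (hw1 : w ≠ 1) (hg : Commute g w) : g ∈ H := by
  obtain ⟨x, hx, hwx⟩ := h.fp w hw hww
  obtain ⟨l, l1, l2, l3, l4, l5⟩ := h.inv x hx w hww hwx
  have hT := h.tri
  rcases l5 with rfl | l5
  · exact h.short l1 l2 (fun a ha => (l3 a ha).1) l4 hw1 hg
  · by_cases h3 : l.length = 3
    · obtain ⟨l', k1, k2, k3, k4, k5⟩ := h.four x hx l l1 h3 l3 l4
      rw [l5, k5] at hw1 hg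
      exact h.short k1 k2 k3 k4 hw1 hg
    · rw [l5] at hw1 hg
      have e : x * l.prod = (x :: l).prod := List.prod_cons.symm
      rw [e] at hw1 hg
      refine h.short (l := x :: l) ?_ ?_ ?_ ?_ hw1 hg
      · rw [List.nodup_cons]
        exact ⟨fun hh => (l3 x hh).2.1 rfl, l1⟩
      · rw [List.length_cons]; omega
      · intro a ha
        rcases List.mem_cons.1 ha with rfl | ha
        · exact hx
        · exact (l3 a ha).1
      · intro a ha b hb
        rcases List.mem_cons.1 ha with e1 | ha' <;> rcases List.mem_cons.1 hb with e2 | hb'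
        · rw [e1, e2]
        · rw [e1]; exact (l3 b hb').2.2
        · rw [e2]; exact (l3 a ha').2.2.symm
        · exact l4 a ha' b hb'

/-- the main result -/
theorem Emb.eq (htr : ∀ x ∈ D, ∀ y ∈ D, ∃ g : G, g * x * g⁻¹ = y) : D = Γ := by
  refine Set.Subset.antisymm ?_ h.sub
  intro y hy
  by_contra hyΓ
  have hT := h.tri
  obtain ⟨a, ha⟩ := h.lev.nonempty
  obtain ⟨c, hc, hca, _, hac, _⟩ := h.lev.common_nbr ha ha (Commute.refl a)
  have hac := hac.symm
  have hne : a ≠ c := hca.symm
  set u := a * c with hu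
  have haa := hT.sq a ha
  have hcc := hT.sq c hc
  have huu : u * u = 1 := by
    rw [hu]
    calc a * c * (a * c) = a * (c * a) * c := by group
      _ = a * (a * c) * c := by rw [← hac.eq]
      _ = (a * a) * (c * c) := by group
      _ = 1 := by rw [haa, hcc, one_mul]
  have hyy := h.sq y hy
  rcases Nat.even_or_odd (orderOf (u * y)) with hev | hod
  · obtain ⟨v, hvv, hv1, hvu, hvy, -⟩ := central_inv huu hyy (orderOf_pos _) hev
    have hvH : v ∈ H := h.wt2 ha hc hne hac hvu
    exact hyΓ (h.DH hy (h.all hvH hvv hv1 hvy.symm))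
  · obtain ⟨j, hj⟩ := conj_of_odd huu hyy hod
    have huD : u ∈ D := by
      have h0 := h.conj ((y * u) ^ j)⁻¹ y hy
      have e : ((y * u) ^ j)⁻¹ * y * (((y * u) ^ j)⁻¹)⁻¹ = u := by
        calc ((y * u) ^ j)⁻¹ * y * (((y * u) ^ j)⁻¹)⁻¹ = ((y * u) ^ j)⁻¹ * ((y * u) ^ j * u * ((y * u) ^ j)⁻¹) * (((y * u) ^ j)⁻¹)⁻¹ := by rw [hj]
          _ = u := by group
      rwa [e] at h0
    have huΓ : u ∈ Γ := h.DH huD (Subgroup.mul_mem _ (h.subH ha) (h.subH hc))
    have hau : Commute a u := (Commute.refl a).mul_right hac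
    have hcu : Commute c u := hac.symm.mul_right (Commute.refl c)
    have n1 : u ≠ a := fun e => h.ne_one hc (mul_eq_left.1 (hu.symm.trans e))
    have n2 : c ≠ u := fun e => h.ne_one ha (right_eq_mul.1 e)
    rcases (h.lev.C ha).rel_min [c, u] (by simp [n2]) (by
      intro z hz
      simp only [List.mem_cons, List.not_mem_nil, or_false] at hz
      rcases hz with rfl | rfl
      · exact ⟨hc, hca, hac⟩
      · exact ⟨huΓ, n1, hau⟩) (by
      intro z hz z' hz'
      simp only [List.mem_cons, List.not_mem_nil, or_false] at hz hz'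
      rcases hz with rfl | rfl <;> rcases hz' with rfl | rfl
      · exact Commute.refl _
      · exact hcu
      · exact hcu.symm
      · exact Commute.refl _) (by
      intro e he
      have : [c, u].prod = a := by
        simp only [List.prod_cons, List.prod_nil, mul_one]
        rw [hu, ← mul_assoc, ← hac.eq, mul_assoc, hcc, mul_one]
      rw [this]; exact he.2.2) with h1 | h1
    · cases h1
    · simp only [List.length_cons, List.length_nil] at h1; omega

end H91.FiEmb
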