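import Mathlib
import Cfsg.Prelude.Def_FischerSpaces
import Cfsg.Agent.Lib.H91.FiCount
import Cfsg.Agent.Lib.H92.LGAll
import Cfsg.Agent.Lib.H92.SRG
import Cfsg.Agent.Lib.H92.SRGNum
import Cfsg.Agent.Lib.H92.Num
import Cfsg.Agent.Lib.H92.Witt

/-!
Classes of 3-transpositions of rank three: the sets of common neighbours.
-/

set_option autoImplicit false
set_option linter.dupNamespace false
set_option linter.unusedSectionVars false
set_option linter.style.haveILetI false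
set_option linter.unusedVariables false
open Cfsg Matrix

namespace H91.FiNice
open H92.Herm H92.UTransv H92.UInvol H92.ULift H92.PV H92.Tri H92.Pol H92.Count H92.Count2 H92.Geo H92.Num H91.FiCount

section vec
variable {K : Type} [Field K] [Fintype K]

theorem exists_third_pair (hK : Fintype.card K = 4) {u w a b : Fin 6 → K} (huu : B u u = 0) (hww : B w w = 0) (haa : B a a = 0) (hbb : B b b = 0)
    (huw : B u w ≠ 0) (hab : B a b ≠ 0) (hua : B u a = 0) (hub : B u b = 0) (hwa : B w a = 0) (hwb : B w b = 0) :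
    ∃ p q : Fin 6 → K, B p p = 0 ∧ B q q = 0 ∧ B p q = 1 ∧ (B p u = 0 ∧ B p w = 0 ∧ B p a = 0 ∧ B p b = 0) ∧
      (B q u = 0 ∧ B q w = 0 ∧ B q a = 0 ∧ B q b = 0) := by
  obtain ⟨p, hp0, hpp, hpi⟩ := exists_iso_perp hK (n := 6) (m := 4) (by norm_num) ![u, w, a, b]
  have p1 : B p u = 0 := hpi 0
  have p2 : B p w = 0 := hpi 1
  have p3 : B p a = 0 := hpi 2
  have p4 : B p b = 0 := hpi 3
  have hwu : B w u ≠ 0 := fun h => huw (B_symm_zero hK h)
  have hba : B b a ≠ 0 := fun h => hab (B_symm_zero hK h)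
  have key : ∀ g : Fin 4 → K, ∀ x : Fin 6 → K, (g 0 • u + g 1 • w + g 2 • a + g 3 • b = x) → B x u = 0 → B x w = 0 → B x a = 0 → B x b = 0 →
      ∀ i, g i = 0 := by
    intro g x hx h1 h2 h3 h4
    rw [← hx] at h1 h2 h3 h4
    simp only [B_add_left, B_smul_left, huu, hww, haa, hbb, hua, hub, hwa, hwb, B_symm_zero hK hua, B_symm_zero hK hub, B_symm_zero hK hwa,
      B_symm_zero hK hwb, mul_zero, zero_add, add_zero] at h1 h2 h3 h4
    intro i
    fin_cases i
    · exact (mul_eq_zero.1 h2).resolve_right huw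
    · exact (mul_eq_zero.1 h1).resolve_right hwu
    · exact (mul_eq_zero.1 h4).resolve_right hab
    · exact (mul_eq_zero.1 h3).resolve_right hba
  have hli : LinearIndependent K (Fin.snoc ![u, w, a, b] p : Fin 5 → Fin 6 → K) := by
    rw [linearIndependent_finSnoc]
    constructor
    · rw [Fintype.linearIndependent_iff]
      intro g hg
      rw [Fin.sum_univ_four] at hg
      exact key g 0 hg (by simp) (by simp) (by simp) (by simp)
    · intro hmem
      rw [Submodule.mem_span_range_iff_exists_fun] at hmem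
      obtain ⟨g, hg⟩ := hmem
      rw [Fin.sum_univ_four] at hg
      have h := key g p hg p1 p2 p3 p4
      apply hp0
      rw [← hg, h 0, h 1, h 2, h 3]
      simp
  obtain ⟨q, hq, hpq, hqi⟩ := exists_hyp_partner hK ![u, w, a, b] p hpp hli hpi
  exact ⟨p, q, hpp, hq, hpq, ⟨p1, p2, p3, p4⟩, ⟨hqi 0, hqi 1, hqi 2, hqi 3⟩⟩

theorem mem_pair (hK : Fintype.card K = 4) {u w a b p q d : Fin 6 → K} (huu : B u u = 0) (hww : B w w = 0) (haa : B a a = 0) (hbb : B b b = 0)
    (huw : B u w ≠ 0) (hab : B a b ≠ 0) (hua : B u a = 0) (hub : B u b = 0) (hwa : B w a = 0) (hwb : B w b = 0)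
    (hp : B p p = 0) (hq : B q q = 0) (hpq : B p q = 1) (h1 : B p u = 0 ∧ B p w = 0 ∧ B p a = 0 ∧ B p b = 0)
    (h2 : B q u = 0 ∧ B q w = 0 ∧ B q a = 0 ∧ B q b = 0) (du : B d u = 0) (dw : B d w = 0) (dp : B d p = 0) (dq : B d q = 0) :
    ∃ α β : K, d = α • a + β • b := by
  obtain ⟨p1, p2, p3, p4⟩ := h1
  obtain ⟨q1, q2, q3, q4⟩ := h2
  -- scale w and b
  have huw3 := pow_three hK huw
  have hab3 := pow_three hK hab
  set w' : Fin 6 → K := B u w • w with hw'
  set b' : Fin 6 → K := B a b • b with hb'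
  have hHyp : Hyp ![u, a, p] ![w', b', q] := by
    refine ⟨?_, ?_, ?_⟩
    · intro i j
      fin_cases i <;> fin_cases j <;> simp [huu, haa, hp, hua, p1, p3, B_symm_zero hK hua, B_symm_zero hK p1, B_symm_zero hK p3]
    · intro i j
      fin_cases i <;> fin_cases j <;> simp [hw', hb', B_smul_left, B_smul_right, hww, hbb, hq, hwb, q2, q4, B_symm_zero hK hwb, B_symm_zero hK q2, B_symm_zero hK q4]
    · intro i j
      fin_cases i <;> fin_cases j <;> simp [hw', hb', B_smul_left, B_smul_right, hub, B_symm_zero hK hwa, B_symm_zero hK q1, B_symm_zero hK q3, p2, p4, hpq]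
      · rw [← huw3]; ring
      · rw [← hab3]; ring
  have hc := H92.RigidVec.coord hK hHyp d
  refine ⟨B d b', B d a * B a b, ?_⟩
  rw [Fin.sum_univ_three, Fin.sum_univ_three] at hc
  simp only [Matrix.cons_val_zero, Matrix.cons_val_one, Matrix.cons_val_two, Matrix.head_cons, Matrix.tail_cons] at hc
  have e1 : B d w' = 0 := by rw [hw', B_smul_right, dw, mul_zero]
  rw [e1, dq, du, dp, zero_smul, zero_smul, zero_smul, zero_smul, zero_add, add_zero, zero_add, add_zero] at hc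
  rw [← smul_smul]
  exact hc

end vec

variable {G : Type*} [Group G]

/-- classes of rank three with given numbers -/
structure Nice (k l : ℕ) (E : Set G) : Prop where
  tri : Tri E
  nonempty : E.Nonempty
  trans : ∀ a ∈ E, ∀ b ∈ E, ∃ g ∈ Subgroup.closure E, g * a * g⁻¹ = b
  conn : ∀ x ∈ E, ∀ y ∈ E, ∃ z ∈ E, Commute z x ∧ Commute z y
  rank3 : ∀ d ∈ E, ∀ a ∈ E, ∀ b ∈ E, ¬ Commute a d → ¬ Commute b d → ∃ g ∈ Subgroup.closure (C E d ∪ {d}), g * a * g⁻¹ = b
  card : E.ncard = k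
  val : ∀ x ∈ E, (C E x).ncard = l

section grp
variable {K : Type} [Field K] [Fintype K] {E : Set G} {τ : (Fin 6 → K) → G} (hT : Tri E) (P : Pol K E τ)
include hT P

theorem nice_base [Finite G] {u0 w0 : G} (hd : u0 ∈ E) (hc : w0 ∈ E) (hdc : ¬ Commute u0 w0) : Nice 45 12 (C E u0 ∩ C E w0) := by
  have hTY := tri_CC hT hd hc
  have hcard := ncard_CC hT P hd hc hdc
  have hval : ∀ x ∈ C E u0 ∩ C E w0, (C (C E u0 ∩ C E w0) x).ncard = 12 := fun x hx => ncard_three hT P hd hc hdc hx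
  obtain ⟨u, hu, rfl⟩ := P.surj u0 hd
  obtain ⟨w, hw, rfl⟩ := P.surj w0 hc
  have huw : B u w ≠ 0 := fun h => hdc ((P.comm u w hu hw).2 h)
  have memY : ∀ v, Iso v → B v u = 0 → B v w = 0 → τ v ∈ C E (τ u) ∩ C E (τ w) := by
    intro v hv h1 h2
    refine ⟨⟨P.mem v hv, ?_, (P.comm u v hu hv).2 (B_symm_zero P.card h1)⟩, ⟨P.mem v hv, ?_, (P.comm w v hw hv).2 (B_symm_zero P.card h2)⟩⟩
    · intro h
      apply hdc
      rw [← h]
      exact ((P.comm w v hw hv).2 (B_symm_zero P.card h2)).symm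
    · intro h
      apply hdc
      rw [← h]
      exact (P.comm u v hu hv).2 (B_symm_zero P.card h1)
  refine ⟨hTY, ?_, ?_, ?_, ?_, hcard, hval⟩
  · rw [← Set.ncard_pos (Set.toFinite _), hcard]; norm_num
  · exact trans_of_few hTY (v := 12) (fun x hx => (hval x hx).le) (by rw [hcard]; norm_num)
  · intro x hx y hy
    by_cases hxy : Commute x y
    · exact ⟨x, hx, Commute.refl x, hxy⟩
    obtain ⟨a, ha, rfl⟩ := P.surj x hx.1.1
    obtain ⟨b, hb, rfl⟩ := P.surj y hy.1.1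
    obtain ⟨p, hp0, hpp, hpi⟩ := exists_iso_perp P.card (n := 6) (m := 4) (by norm_num) ![u, w, a, b]
    have hpI : Iso p := ⟨hp0, hpp⟩
    exact ⟨τ p, memY p hpI (hpi 0) (hpi 1), (P.comm p a hpI ha).2 (hpi 2), (P.comm p b hpI hb).2 (hpi 3)⟩
  · intro d' hd' x hx y hy hxd hyd
    by_cases hxy0 : x = y
    · exact ⟨1, Subgroup.one_mem _, by simp [hxy0]⟩
    by_cases hxy : Commute x y
    · exact s4_orbit hTY hx hy hd' hxy hxd hyd
    by_cases h : ∀ z ∈ C E (τ u) ∩ C E (τ w), Commute z x → Commute z y → Commute z d'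
    · have hxE := hx.1.1
      have hyE := hy.1.1
      have hdE := hd'.1.1
      have hx1 := hx.1.2.2
      have hx2 := hx.2.2.2
      have hy1 := hy.1.2.2
      have hy2 := hy.2.2.2
      have hd1 := hd'.1.2.2
      have hd2 := hd'.2.2.2
      obtain ⟨a, ha, rfl⟩ := P.surj x hxE
      obtain ⟨b, hb, rfl⟩ := P.surj y hyE
      obtain ⟨d, hd0, rfl⟩ := P.surj d' hdE
      have hab : B a b ≠ 0 := fun h => hxy ((P.comm a b ha hb).2 h)
      have hua := (P.comm u a hu ha).1 hx1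
      have hub := (P.comm u b hu hb).1 hy1
      have hwa := (P.comm w a hw ha).1 hx2
      have hwb := (P.comm w b hw hb).1 hy2
      have hud := (P.comm u d hu hd0).1 hd1
      have hwd := (P.comm w d hw hd0).1 hd2
      obtain ⟨p, q, hp, hq, hpq, h1, h2⟩ := exists_third_pair P.card hu.2 hw.2 ha.2 hb.2 huw hab hua hub hwa hwb
      have hpI : Iso p := ⟨by rintro rfl; simp at hpq, hp⟩
      have hqI : Iso q := ⟨by rintro rfl; simp at hpq, hq⟩
      have hpd := (P.comm p d hpI hd0).1 (h _ (memY p hpI h1.1 h1.2.1) ((P.comm p a hpI ha).2 h1.2.2.1) ((P.comm p b hpI hb).2 h1.2.2.2))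
      have hqd := (P.comm q d hqI hd0).1 (h _ (memY q hqI h2.1 h2.2.1) ((P.comm q a hqI ha).2 h2.2.2.1) ((P.comm q b hqI hb).2 h2.2.2.2))
      obtain ⟨α, β, hαβ⟩ := mem_pair P.card hu.2 hw.2 ha.2 hb.2 huw hab hua hub hwa hwb hp hq hpq h1 h2 (B_symm_zero P.card hud)
        (B_symm_zero P.card hwd) (B_symm_zero P.card hpd) (B_symm_zero P.card hqd)
      have hβ : β ≠ 0 := by
        intro h0
        rw [h0, zero_smul, add_zero] at hαβ
        apply hxd
        rw [P.comm a d ha hd0, hαβ, B_smul_right, ha.2, mul_zero]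
      have hα : α ≠ 0 := by
        intro h0
        rw [h0, zero_smul, zero_add] at hαβ
        apply hyd
        rw [P.comm b d hb hd0, hαβ, B_smul_right, hb.2, mul_zero]
      have h3 : d = β • act (T a) b := by
        rw [hαβ]
        exact hyp_line P.card ha.2 hb.2 hab (by rw [← hαβ]; exact hd0.2) hβ hα
      have h4 := P.conj a b ha hb
      rw [inv_eq hT (P.mem a ha)] at h4
      have h5 : τ d = τ a * τ b * τ a := by
        rw [h4, P.inj d _ hd0 (hb.act _)]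
        exact ⟨β, h3⟩
      refine ⟨τ d, Subgroup.subset_closure (Or.inr rfl), ?_⟩
      rw [inv_eq hT hdE, braid hT hdE hxE (fun h => hxd h.symm), h5, conj_conj hT hxE]
    · push Not at h
      obtain ⟨z, hz, hza, hzb, hzd⟩ := h
      obtain ⟨g1, hg1, e1⟩ := s4_orbit hTY hx hz hd' hza.symm hxd hzd
      obtain ⟨g2, hg2, e2⟩ := s4_orbit hTY hz hy hd' hzb hzd hyd
      refine ⟨g2 * g1, Subgroup.mul_mem _ hg2 hg1, ?_⟩
      rw [← e2, ← e1]; group

end grp

/-- the step: transitivity -/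
theorem step_trans {k l : ℕ} {E : Set G} (hT : Tri E) (hC : ∀ x ∈ E, Nice k l (C E x)) (hl : l ≠ 0) :
    ∀ a ∈ E, ∀ b ∈ E, ∃ g ∈ Subgroup.closure E, g * a * g⁻¹ = b := by
  intro a ha b hb
  by_cases hne : a = b
  · exact ⟨1, Subgroup.one_mem _, by simp [hne]⟩
  by_cases hab : Commute a b
  · have hbC : b ∈ C E a := ⟨hb, fun h => hne h.symm, hab⟩
    have h1 := (hC a ha).val b hbC
    have h2 : (C (C E a) b).Nonempty := by
      rw [Set.nonempty_iff_ne_empty]
      intro h0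
      rw [h0, Set.ncard_empty] at h1
      exact hl h1.symm
    obtain ⟨t, ⟨ht, hta, hat⟩, htb, hbt⟩ := h2
    obtain ⟨g, hg, e⟩ := (hC t ht).trans a ⟨ha, fun h => hta h.symm, hat.symm⟩ b ⟨hb, fun h => htb h.symm, hbt.symm⟩
    exact ⟨g, Subgroup.closure_mono (C_subset E t) hg, e⟩
  · refine ⟨a * b, Subgroup.mul_mem _ (Subgroup.subset_closure ha) (Subgroup.subset_closure hb), ?_⟩
    rw [_root_.mul_inv_rev, inv_eq hT ha, inv_eq hT hb]
    have h1 := braid hT hb ha (fun h' => hab h'.symm)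
    calc a * b * a * (b * a) = a * (b * a * b) * a := by group
      _ = a * (a * b * a) * a := by rw [h1]
      _ = b := conj_conj hT ha b

/-- the step: rank three -/
theorem step_rank3 {k l : ℕ} {E : Set G} (ht : Tri E) (hC : ∀ x ∈ E, Nice k l (C E x))
    (hconn : ∀ x ∈ E, ∀ y ∈ E, ∃ z ∈ E, Commute z x ∧ Commute z y) :
    ∀ d ∈ E, ∀ a ∈ E, ∀ b ∈ E, ¬ Commute a d → ¬ Commute b d → ∃ g ∈ Subgroup.closure (C E d ∪ {d}), g * a * g⁻¹ = b := by
  intro d hd a ha b hb h1 h2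
  obtain ⟨z, hz, hzd, hza⟩ := hconn d hd a ha
  obtain ⟨z', hz', hzd', hzb⟩ := hconn d hd b hb
  have hzC : z ∈ C E d := ⟨hz, by rintro rfl; exact h1 hza.symm, hzd.symm⟩
  have hzC' : z' ∈ C E d := ⟨hz', by rintro rfl; exact h2 hzb.symm, hzd'.symm⟩
  obtain ⟨g, hg, hgz⟩ := (hC d hd).trans z' hzC' z hzC
  have hgE : ∀ w ∈ E, g * w * g⁻¹ ∈ E := fun w hw => conj_closure ht (Subgroup.closure_mono (C_subset E d) hg) hw
  have hgd : Commute g d := by
    apply comm_of_mem_closure (E := E)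
    exact Subgroup.closure_mono Set.subset_union_left hg
  have hgd' : g * d * g⁻¹ = d := by rw [hgd.eq, mul_inv_cancel_right]
  have hb' : ¬ Commute (g * b * g⁻¹) d := by
    intro hc
    apply h2
    rw [← hgd'] at hc
    exact (Commute.conj_iff g).1 hc
  have hzb' : Commute z (g * b * g⁻¹) := by
    rw [← hgz]; exact (Commute.conj_iff g).2 hzb
  have hne1 : a ≠ z := by rintro rfl; exact h1 hzd
  have hne2 : g * b * g⁻¹ ≠ z := by intro e; rw [e] at hb'; exact hb' hzd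
  obtain ⟨k, hk, hka⟩ := (hC z hz).rank3 d ⟨hd, by rintro rfl; exact h1 hza.symm, hzd⟩ a ⟨ha, hne1, hza⟩ (g * b * g⁻¹)
    ⟨hgE b hb, hne2, hzb'⟩ h1 hb'
  refine ⟨g⁻¹ * k, Subgroup.mul_mem _ (Subgroup.inv_mem _ (Subgroup.closure_mono Set.subset_union_left hg))
    (Subgroup.closure_mono ?_ hk), ?_⟩
  · intro x hx
    rcases hx with hx | hx
    · exact Or.inl ⟨hx.1.1, hx.2.1, hx.2.2⟩
    · exact Or.inr hx
  · calc g⁻¹ * k * a * (g⁻¹ * k)⁻¹ = g⁻¹ * (k * a * k⁻¹) * g := by group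
      _ = b := by rw [hka]; group

/-- conjugating pairs of non-commuting members -/
theorem pair_conj {E : Set G} (ht : Tri E) (htr : ∀ a ∈ E, ∀ b ∈ E, ∃ g ∈ Subgroup.closure E, g * a * g⁻¹ = b)
    (hr : ∀ d ∈ E, ∀ a ∈ E, ∀ b ∈ E, ¬ Commute a d → ¬ Commute b d → ∃ g ∈ Subgroup.closure (C E d ∪ {d}), g * a * g⁻¹ = b)
    {d c d' c' : G} (hd : d ∈ E) (hc : c ∈ E) (hdc : ¬ Commute d c)
    (hd' : d' ∈ E) (hc' : c' ∈ E) (hdc' : ¬ Commute d' c') : (C E d ∩ C E c).ncard = (C E d' ∩ C E c').ncard := by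
  obtain ⟨g, hg, hgd⟩ := htr d hd d' hd'
  have hgE : ∀ w ∈ E, g * w * g⁻¹ ∈ E := fun w hw => conj_closure ht hg hw
  have h1 : ¬ Commute (g * c * g⁻¹) d' := by
    rw [← hgd]
    intro hh
    exact hdc ((Commute.conj_iff g).1 hh).symm
  obtain ⟨k, hk, hkc⟩ := hr d' hd' (g * c * g⁻¹) (hgE c hc) c' hc' h1 (fun hh => hdc' hh.symm)
  have hkd : k * d' * k⁻¹ = d' := by
    rw [(comm_of_mem_closure hk).eq, mul_inv_cancel_right]
  have hk' : k ∈ Subgroup.closure E := by
    apply Subgroup.closure_mono _ hk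
    intro u hu
    rcases hu with hu | hu
    · exact hu.1
    · rw [Set.mem_singleton_iff.1 hu]; exact hd'
  have hkgE : ∀ w ∈ E, (k * g) * w * (k * g)⁻¹ ∈ E := fun w hw => conj_closure ht (Subgroup.mul_mem _ hk' hg) hw
  have hkgE' : ∀ w ∈ E, (k * g)⁻¹ * w * (k * g)⁻¹⁻¹ ∈ E := fun w hw => conj_closure ht (Subgroup.inv_mem _ (Subgroup.mul_mem _ hk' hg)) hw
  have e1 : (k * g) * d * (k * g)⁻¹ = d' := by
    calc (k * g) * d * (k * g)⁻¹ = k * (g * d * g⁻¹) * k⁻¹ := by group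
      _ = d' := by rw [hgd, hkd]
  have e2 : (k * g) * c * (k * g)⁻¹ = c' := by
    calc (k * g) * c * (k * g)⁻¹ = k * (g * c * g⁻¹) * k⁻¹ := by group
      _ = c' := hkc
  have himg : C E d' ∩ C E c' = (fun w => (k * g) * w * (k * g)⁻¹) '' (C E d ∩ C E c) := by
    ext w
    constructor
    · rintro ⟨hw1, hw2⟩
      refine ⟨(k * g)⁻¹ * w * (k * g)⁻¹⁻¹, ⟨?_, ?_⟩, by group⟩
      · have := conj_mem_C (g := (k * g)⁻¹) hkgE' hw1
        have e3 : (k * g)⁻¹ * d' * (k * g)⁻¹⁻¹ = d := by rw [← e1]; group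
        rwa [e3] at this
      · have := conj_mem_C (g := (k * g)⁻¹) hkgE' hw2
        have e3 : (k * g)⁻¹ * c' * (k * g)⁻¹⁻¹ = c := by rw [← e2]; group
        rwa [e3] at this
    · rintro ⟨v, ⟨hv1, hv2⟩, rfl⟩
      constructor
      · have := conj_mem_C (g := k * g) hkgE hv1
        rwa [e1] at this
      · have := conj_mem_C (g := k * g) hkgE hv2
        rwa [e2] at this
  rw [himg, Set.ncard_image_of_injective]
  intro a b hab
  have : (k * g) * a * (k * g)⁻¹ = (k * g) * b * (k * g)⁻¹ := hab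
  exact mul_left_cancel (mul_right_cancel this)

/-- the numbers of a connected set with nice neighbourhoods -/
theorem step_num [Finite G] {k l : ℕ} {E : Set G} (ht : Tri E) (hne : E.Nonempty) (hC : ∀ x ∈ E, Nice k l (C E x))
    (hconn : ∀ x ∈ E, ∀ y ∈ E, ∃ z ∈ E, Commute z x ∧ Commute z y) (hl : l ≠ 0) (hlk : l < k) (hk1 : k + 1 < E.ncard) :
    ∃ m : ℕ, 1 ≤ m ∧ m ≤ k ∧ k * (k - l - 1) = (E.ncard - k - 1) * m ∧
      (∃ z : ℤ, (((l : ℤ) - m) ^ 2 + 4 * (k - m)) * z ^ 2 = (((m : ℤ) - l) * (E.ncard - 1) - 2 * k) ^ 2) ∧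
      ∀ x ∈ E, ∀ y ∈ E, ¬ Commute x y → (C E x ∩ C E y).ncard = m := by
  have htr := step_trans ht hC hl
  have hr := step_rank3 ht hC hconn
  obtain ⟨d, hd⟩ := id hne
  obtain ⟨c, hc, hdc⟩ : ∃ c ∈ E, ¬ Commute d c := by
    by_contra hcon
    push Not at hcon
    have h1 : E ⊆ C E d ∪ {d} := by
      intro x hx
      by_cases h : x = d
      · exact Or.inr h
      · exact Or.inl ⟨hx, h, hcon x hx⟩
    have h2 := Set.ncard_le_ncard h1 (Set.toFinite _)
    have h3 := Set.ncard_union_le (C E d) {d}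
    rw [Set.ncard_singleton, (hC d hd).card] at h3
    omega
  have hconst : ∀ x ∈ E, ∀ y ∈ E, ¬ Commute x y → (C E x ∩ C E y).ncard = (C E d ∩ C E c).ncard :=
    fun x hx y hy hxy => pair_conj ht htr hr hx hy hxy hd hc hdc
  have hm1 : (C E d ∩ C E c).Nonempty := by
    obtain ⟨z, hz, hzd, hzc⟩ := hconn d hd c hc
    refine ⟨z, ⟨hz, ?_, hzd.symm⟩, hz, ?_, hzc.symm⟩
    · rintro rfl; exact hdc hzc
    · rintro rfl; exact hdc hzd.symm
  have hm2 : (C E d ∩ C E c).ncard ≤ k := by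
    rw [← (hC d hd).card]
    exact Set.ncard_le_ncard Set.inter_subset_left (Set.toFinite _)
  obtain ⟨h3, h4, h5⟩ := srg_set (m := (C E d ∩ C E c).ncard) hne (fun x hx => (hC x hx).card) (by
    intro x hx y hy
    rw [CC_eq E hy]; exact (hC x hx).val y hy) hconst hm2 hlk
  exact ⟨_, (Set.ncard_pos (Set.toFinite _)).2 hm1, hm2, h4, h5, hconst⟩

/-- assembling -/
theorem step_nice {k l n : ℕ} {E : Set G} (ht : Tri E) (hne : E.Nonempty) (hC : ∀ x ∈ E, Nice k l (C E x))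
    (hconn : ∀ x ∈ E, ∀ y ∈ E, ∃ z ∈ E, Commute z x ∧ Commute z y) (hl : l ≠ 0) (hn : E.ncard = n) : Nice n k E :=
  ⟨ht, hne, step_trans ht hC hl, hconn, step_rank3 ht hC hconn, hn, fun x hx => (hC x hx).card⟩

end H91.FiNice
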