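import Mathlib
import Cfsg.Prelude.Def_FischerSpaces
import Cfsg.Agent.Lib.H91.FiNice
import Cfsg.Agent.Lib.H92.PSUEquiv
import Cfsg.Agent.Lib.H7.UnitSU

/-!
Regular subsets of a strongly regular commuting graph.
-/

set_option autoImplicit false
set_option linter.dupNamespace false
set_option linter.unusedSectionVars false
set_option linter.style.haveILetI false
set_option linter.unusedVariables false
open Cfsg Matrix

namespace H91.FiReg
open H92.Tri H91.FiNice

variable {G : Type*} [Group G]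

open Classical in
/-- the two counting identities for a regular subset -/
theorem count [Finite G] {E X : Set G} {k l m e : ℕ} (hk : ∀ x ∈ E, (C E x).ncard = k)
    (hl : ∀ x ∈ E, ∀ y ∈ C E x, (C E x ∩ C E y).ncard = l) (hm : ∀ x ∈ E, ∀ y ∈ E, ¬ Commute x y → (C E x ∩ C E y).ncard = m)
    (hX : X ⊆ E) (he : ∀ x ∈ X, (C X x).ncard = e) (h1 : e + 1 ≤ X.ncard) :
    (∑ u ∈ (E \ X).toFinite.toFinset, ((C E u ∩ X).ncard : ℤ)) = (k - e) * X.ncard ∧
    (∑ u ∈ (E \ X).toFinite.toFinset, ((C E u ∩ X).ncard : ℤ) ^ 2) =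
      X.ncard * k + X.ncard * e * l + X.ncard * (X.ncard - 1 - e) * m - X.ncard * (e : ℤ) ^ 2 := by
  set FE := E.toFinite.toFinset with hFE
  set FX := X.toFinite.toFinset with hFX
  set FO := (E \ X).toFinite.toFinset with hFO
  have mE : ∀ x, x ∈ FE ↔ x ∈ E := fun x => Set.Finite.mem_toFinset _
  have mX : ∀ x, x ∈ FX ↔ x ∈ X := fun x => Set.Finite.mem_toFinset _
  have mO : ∀ x, x ∈ FO ↔ x ∈ E ∧ x ∉ X := fun x => Set.Finite.mem_toFinset _
  have cX : (FX.card : ℤ) = X.ncard := by rw [hFX, Set.ncard_eq_toFinset_card X]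
  let adj : G → G → Prop := fun x y => y ≠ x ∧ Commute x y
  have adj_symm : ∀ x y, adj x y ↔ adj y x := fun x y => ⟨fun h => ⟨h.1.symm, h.2.symm⟩, fun h => ⟨h.1.symm, h.2.symm⟩⟩
  -- counts as sums
  have nS : ∀ (S : Set G) (F : Finset G), (∀ x, x ∈ F ↔ x ∈ S) → ((S.ncard : ℕ) : ℤ) = ∑ x ∈ F, 1 := by
    intro S F h
    rw [Finset.sum_const, nsmul_eq_mul, mul_one]
    congr 1
    have : S = (F : Set G) := by ext x; rw [Finset.mem_coe, h]
    rw [this, Set.ncard_coe_finset]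
  have n1 : ∀ u, ((C E u ∩ X).ncard : ℤ) = ∑ x ∈ FX, if adj u x then 1 else 0 := by
    intro u
    rw [nS (C E u ∩ X) (FX.filter (adj u ·)) (by
      intro x
      rw [Finset.mem_filter, mX]
      constructor
      · rintro ⟨h1, h2, h3⟩; exact ⟨⟨hX h1, h2, h3⟩, h1⟩
      · rintro ⟨⟨h1, h2, h3⟩, h4⟩; exact ⟨h4, h2, h3⟩)]
    rw [Finset.sum_filter]
  have n2 : ∀ x ∈ E, ((C E x).ncard : ℤ) = ∑ u ∈ FE, if adj u x then 1 else 0 := by
    intro x hx
    rw [nS (C E x) (FE.filter (adj · x)) (by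
      intro y
      rw [Finset.mem_filter, mE]
      constructor
      · rintro ⟨h1, h2⟩
        have h3 := (adj_symm y x).1 h2
        exact ⟨h1, h3.1, h3.2⟩
      · rintro ⟨h1, h2, h3⟩; exact ⟨h1, (adj_symm y x).2 ⟨h2, h3⟩⟩)]
    rw [Finset.sum_filter]
  have n3 : ∀ x y, ((C E x ∩ C E y).ncard : ℤ) = ∑ u ∈ FE, if adj u x ∧ adj u y then 1 else 0 := by
    intro x y
    rw [nS (C E x ∩ C E y) (FE.filter (fun u => adj u x ∧ adj u y)) (by
      intro u
      rw [Finset.mem_filter, mE]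
      constructor
      · rintro ⟨h1, h2, h3⟩
        have h4 := (adj_symm u x).1 h2
        have h5 := (adj_symm u y).1 h3
        exact ⟨⟨h1, h4.1, h4.2⟩, h1, h5.1, h5.2⟩
      · rintro ⟨⟨h1, h2, h3⟩, _, h5, h6⟩; exact ⟨h1, (adj_symm u x).2 ⟨h2, h3⟩, (adj_symm u y).2 ⟨h5, h6⟩⟩)]
    rw [Finset.sum_filter]
  have n4 : ∀ u ∈ X, ((C E u ∩ X).ncard : ℤ) = e := by
    intro u hu
    rw [← he u hu]
    congr 2
    ext x
    constructor
    · rintro ⟨⟨h1, h2, h3⟩, h4⟩; exact ⟨h4, h2, h3⟩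
    · rintro ⟨h1, h2, h3⟩; exact ⟨⟨hX h1, h2, h3⟩, h1⟩
  have split : ∀ f : G → ℤ, ∑ u ∈ FO, f u = ∑ u ∈ FE, f u - ∑ u ∈ FX, f u := by
    intro f
    have h2 : FO = FE \ FX := by
      ext u; rw [Finset.mem_sdiff, mE, mX, mO]
    have h3 : FX ⊆ FE := fun u hu => (mE u).2 (hX ((mX u).1 hu))
    rw [h2, ← Finset.sum_sdiff h3]; ring
  constructor
  · rw [split, Finset.sum_congr rfl (fun u hu => n4 u ((mX u).1 hu)), Finset.sum_congr rfl (fun u _ => n1 u)]
    rw [Finset.sum_comm, Finset.sum_congr rfl (fun x hx => (n2 x (hX ((mX x).1 hx))).symm)]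
    rw [Finset.sum_congr rfl (fun x hx => by rw [hk x (hX ((mX x).1 hx))])]
    rw [Finset.sum_const, Finset.sum_const, nsmul_eq_mul, nsmul_eq_mul, cX]; ring
  · rw [split]
    have h2 : ∑ u ∈ FX, ((C E u ∩ X).ncard : ℤ) ^ 2 = X.ncard * (e : ℤ) ^ 2 := by
      rw [Finset.sum_congr rfl (fun u hu => by rw [n4 u ((mX u).1 hu)]), Finset.sum_const, nsmul_eq_mul, cX]
    have h3 : ∑ u ∈ FE, ((C E u ∩ X).ncard : ℤ) ^ 2 = ∑ x ∈ FX, ∑ y ∈ FX, ((C E x ∩ C E y).ncard : ℤ) := by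
      have e1 : ∀ u, ((C E u ∩ X).ncard : ℤ) ^ 2 = ∑ x ∈ FX, ∑ y ∈ FX, if adj u x ∧ adj u y then 1 else 0 := by
        intro u
        rw [n1 u, sq, Finset.sum_mul_sum]
        refine Finset.sum_congr rfl fun x _ => Finset.sum_congr rfl fun y _ => ?_
        by_cases h1 : adj u x <;> by_cases h2 : adj u y <;> simp [h1, h2]
      rw [Finset.sum_congr rfl (fun u _ => e1 u), Finset.sum_comm]
      refine Finset.sum_congr rfl fun x _ => ?_
      rw [Finset.sum_comm]
      exact Finset.sum_congr rfl fun y _ => (n3 x y).symm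
    have h4 : ∀ x ∈ FX, ∑ y ∈ FX, ((C E x ∩ C E y).ncard : ℤ) = k + e * l + (X.ncard - 1 - e) * m := by
      intro x hx
      have hxX := (mX x).1 hx
      have d1 : ∑ y ∈ FX, ((C E x ∩ C E y).ncard : ℤ) = ∑ y ∈ FX, ((if y = x then (k : ℤ) else 0) + (if adj x y then (l : ℤ) else 0) +
          ((1 - (if y = x then (1 : ℤ) else 0) - (if adj x y then (1 : ℤ) else 0)) * m)) := by
        refine Finset.sum_congr rfl fun y hy => ?_
        have hyX := (mX y).1 hy
        by_cases c1 : y = x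
        · subst c1
          have : ¬ adj y y := fun h => h.1 rfl
          rw [Set.inter_self, hk y (hX hyX), if_pos rfl, if_neg this, if_pos rfl, if_neg this]; ring
        · by_cases c2 : Commute x y
          · have h5 : adj x y := ⟨c1, c2⟩
            rw [hl x (hX hxX) y ⟨hX hyX, c1, c2⟩, if_neg c1, if_pos h5, if_neg c1, if_pos h5]; ring
          · have h5 : ¬ adj x y := fun h => c2 h.2
            rw [hm x (hX hxX) y (hX hyX) c2, if_neg c1, if_neg h5, if_neg c1, if_neg h5]; ring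
      rw [d1, Finset.sum_add_distrib, Finset.sum_add_distrib, ← Finset.sum_mul, Finset.sum_sub_distrib, Finset.sum_sub_distrib]
      have d2 : ∑ y ∈ FX, (if y = x then (k : ℤ) else 0) = k := by rw [Finset.sum_ite_eq' FX x]; rw [if_pos hx]
      have d3 : ∑ y ∈ FX, (if y = x then (1 : ℤ) else 0) = 1 := by rw [Finset.sum_ite_eq' FX x]; rw [if_pos hx]
      have d4 : ∑ y ∈ FX, (if adj x y then (1 : ℤ) else 0) = e := by
        rw [← n1 x, n4 x hxX]
      have d5 : ∑ y ∈ FX, (if adj x y then (l : ℤ) else 0) = e * l := by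
        rw [← d4, Finset.sum_mul]
        refine Finset.sum_congr rfl fun y _ => ?_
        by_cases h1 : adj x y <;> simp [h1]
      rw [d2, d3, d4, d5, Finset.sum_const, nsmul_eq_mul, mul_one, cX]
    rw [h2, h3, Finset.sum_congr rfl h4, Finset.sum_const, nsmul_eq_mul, cX]; ring

/-- Cauchy-Schwarz in the form of a quadratic inequality -/
theorem quad [Finite G] {E X : Set G} {k l m e : ℕ} (hk : ∀ x ∈ E, (C E x).ncard = k)
    (hl : ∀ x ∈ E, ∀ y ∈ C E x, (C E x ∩ C E y).ncard = l) (hm : ∀ x ∈ E, ∀ y ∈ E, ¬ Commute x y → (C E x ∩ C E y).ncard = m)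
    (hX : X ⊆ E) (he : ∀ x ∈ X, (C X x).ncard = e) (h1 : e + 1 ≤ X.ncard) (a b : ℤ) :
    0 ≤ a ^ 2 * (X.ncard * k + X.ncard * e * l + X.ncard * (X.ncard - 1 - e) * m - X.ncard * (e : ℤ) ^ 2) - 2 * a * b * ((k - e) * X.ncard) +
      b ^ 2 * (E.ncard - X.ncard) ∧
    (a ^ 2 * (X.ncard * k + X.ncard * e * l + X.ncard * (X.ncard - 1 - e) * m - X.ncard * (e : ℤ) ^ 2) - 2 * a * b * ((k - e) * X.ncard) +
      b ^ 2 * (E.ncard - X.ncard) = 0 → ∀ u ∈ E, u ∉ X → a * ((C E u ∩ X).ncard : ℤ) = b) := by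
  classical
  obtain ⟨c1, c2⟩ := count hk hl hm hX he h1
  have h3 : (((E \ X).toFinite.toFinset.card : ℕ) : ℤ) = E.ncard - X.ncard := by
    rw [← Set.ncard_eq_toFinset_card (E \ X), Set.ncard_sdiff hX (Set.toFinite _), Nat.cast_sub (Set.ncard_le_ncard hX (Set.toFinite _))]
  have h4 : ∑ u ∈ (E \ X).toFinite.toFinset, (a * ((C E u ∩ X).ncard : ℤ) - b) ^ 2 =
      a ^ 2 * (X.ncard * k + X.ncard * e * l + X.ncard * (X.ncard - 1 - e) * m - X.ncard * (e : ℤ) ^ 2) - 2 * a * b * ((k - e) * X.ncard) +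
      b ^ 2 * (E.ncard - X.ncard) := by
    rw [← c1, ← c2, ← h3]
    have e1 : ∀ u, (a * ((C E u ∩ X).ncard : ℤ) - b) ^ 2 = a ^ 2 * ((C E u ∩ X).ncard : ℤ) ^ 2 - 2 * a * b * ((C E u ∩ X).ncard : ℤ) + b ^ 2 := fun u => by ring
    rw [Finset.sum_congr rfl (fun u _ => e1 u), Finset.sum_add_distrib, Finset.sum_sub_distrib, ← Finset.mul_sum, ← Finset.mul_sum,
      Finset.sum_const, nsmul_eq_mul]
    ring
  rw [← h4]
  refine ⟨Finset.sum_nonneg fun u _ => sq_nonneg _, ?_⟩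
  intro h0 u hu huX
  rw [Finset.sum_eq_zero_iff_of_nonneg (fun u _ => sq_nonneg _)] at h0
  have := h0 u ((Set.Finite.mem_toFinset _).2 ⟨hu, huX⟩)
  have h5 := pow_eq_zero_iff (two_ne_zero) |>.1 this
  linarith

/-- sizes of classes inside a set divide the order of the group modulo its centre -/
theorem ncard_dvd_outer [Finite G] {X E : Set G} (hXE : X ⊆ E) (hX : Tri X) (hne : X.Nonempty)
    (htr : ∀ x ∈ X, ∀ y ∈ X, ∃ g ∈ Subgroup.closure X, g * x * g⁻¹ = y) :
    X.ncard ∣ Nat.card (↥(Subgroup.closure E) ⧸ Subgroup.center ↥(Subgroup.closure E)) := by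
  refine (H92.Num.ncard_dvd_quot hX hne htr).trans ?_
  have hle : Subgroup.closure X ≤ Subgroup.closure E := Subgroup.closure_mono hXE
  let ι := Subgroup.inclusion hle
  have h1 : (Subgroup.center ↥(Subgroup.closure E)).comap ι ≤ Subgroup.center ↥(Subgroup.closure X) := by
    intro z hz
    rw [Subgroup.mem_comap, Subgroup.mem_center_iff] at hz
    rw [Subgroup.mem_center_iff]
    intro g
    have := hz (ι g)
    exact Subtype.ext (congrArg (fun t : ↥(Subgroup.closure E) => (t : G)) this)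
  have h2 : (Subgroup.center ↥(Subgroup.closure X)).index ∣ ((Subgroup.center ↥(Subgroup.closure E)).comap ι).index :=
    Subgroup.index_dvd_of_le h1
  have h3 : ((Subgroup.center ↥(Subgroup.closure E)).comap ι).index ∣ (Subgroup.center ↥(Subgroup.closure E)).index := by
    rw [Subgroup.index_comap]
    exact Subgroup.relIndex_dvd_index_of_normal _ _
  exact h2.trans h3

end H91.FiReg
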