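import Mathlib
import Cfsg.Prelude.Def_FischerSpaces
import Cfsg.Agent.Lib.H91.FiReg

/-!
Common neighbours of two members which do not commute (local version, no global hypothesis on products).
-/

set_option autoImplicit false
set_option linter.dupNamespace false
set_option linter.unusedSectionVars false
set_option linter.style.haveILetI false
set_option linter.unusedVariables false
open Cfsg Matrix

namespace H91.FiNbr
open H92.Tri H92.Lev H92.Geo H92.Num H91.FiNice H91.FiReg H91.FiCount

variable {G : Type*} [Group G]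

theorem nineteen {K : Type} [Field K] [Fintype K] (hK : Fintype.card K = 4) : ¬ 19 ∣ Nat.card (PSU 6 K 2) := by
  intro h
  have h1 := H7.UnitSU.card_SU (K := K) (q := 2) (by rw [hK]; norm_num) 6 (by norm_num)
  have h2 : Nat.card (PSU 6 K 2) ∣ Nat.card (SU 6 K 2) := Subgroup.card_quotient_dvd_card _
  have h3 : 19 ∣ (2 + 1) * Nat.card (SU 6 K 2) := Dvd.dvd.mul_left (h.trans h2) _
  rw [h1] at h3
  simp only [Finset.prod_range_succ, Finset.prod_range_zero] at h3
  have e : ∀ a b : ℕ, (if Even 0 then a else b) = a ∧ (if Even 1 then a else b) = b ∧ (if Even 2 then a else b) = a ∧ (if Even 3 then a else b) = b ∧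
      (if Even 4 then a else b) = a ∧ (if Even 5 then a else b) = b := by
    intro a b
    refine ⟨if_pos (by decide), if_neg (by decide), if_pos (by decide), if_neg (by decide), if_pos (by decide), if_neg (by decide)⟩
  rw [(e _ _).1, (e _ _).2.1, (e _ _).2.2.1, (e _ _).2.2.2.1, (e _ _).2.2.2.2.1, (e _ _).2.2.2.2.2] at h3
  norm_num at h3

theorem tri_inter {D : Set G} {x y : G} (hx : Tri (C D x)) (hy : Tri (C D y)) : Tri (C D x ∩ C D y) :=
  tri_of_subset hx (fun _ h => h.1) (fun a ha b hb => ⟨hx.conj a ha.1 b hb.1, hy.conj a ha.2 b hb.2⟩)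

theorem chk0 : H92.SRGNum.allR (H92.SRGNum.chk 45 12 10 18) 6 0 = true := by decide +kernel

/-- a component of a set with nice neighbourhoods is larger than a ball -/
theorem ball [Finite G] {k l : ℕ} {X : Set G} (hC : ∀ z ∈ X, Nice k l (C X z)) (hlk : l + 1 < k) {z : G} (hz : z ∈ X) : k + 1 < X.ncard := by
  by_contra hcon
  push Not at hcon
  have h1 := (hC z hz).card
  have h2 : insert z (C X z) ⊆ X := by
    intro w hw
    rcases hw with rfl | hw
    · exact hz
    · exact hw.1
  have h3 : (insert z (C X z)).ncard = k + 1 := by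
    rw [Set.ncard_insert_of_notMem (fun h => h.2.1 rfl) (Set.toFinite _), h1]
  have h4 : insert z (C X z) = X := Set.eq_of_subset_of_ncard_le h2 (by rw [h3]; exact hcon) (Set.toFinite _)
  obtain ⟨a, ha⟩ := (hC z hz).nonempty
  have h5 : C X a ⊆ insert z (C (C X z) a) := by
    intro w hw
    by_cases hwz : w = z
    · exact Or.inl hwz
    · right
      have : w ∈ insert z (C X z) := by rw [h4]; exact hw.1
      rcases this with h | h
      · exact absurd h hwz
      · exact ⟨h, hw.2⟩
  have h6 := Set.ncard_le_ncard h5 (Set.toFinite _)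
  have h7 := Set.ncard_insert_le z (C (C X z) a)
  rw [(hC z hz).val a ha] at h7
  rw [(hC a ha.1).card] at h6
  omega

theorem nbr0 [Finite G] {D : Set G} (hL : ∀ x ∈ D, Lev 0 (C D x)) {x y : G} (hx : x ∈ D) (hy : y ∈ D) (hxy : ¬ Commute x y)
    (hne : (C D x ∩ C D y).Nonempty) :
    Nice 126 45 (C D x ∩ C D y) ∧ ∀ u ∈ C D y, u ∉ C D x ∩ C D y → (C (C D y) u ∩ (C D x ∩ C D y)).ncard = 30 := by
  have hTX := tri_inter (hL x hx).tri (hL y hy).tri
  obtain ⟨z0, hz0⟩ := hne
  set X := C D x ∩ C D y with hX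
  have hCX : ∀ z ∈ X, Nice 45 12 (C X z) := by
    intro z hz
    rw [hX, C_CC_eq D x y z hz]
    obtain ⟨hT, K, _, _, τ, P⟩ := hL z hz.1.1
    exact nice_base hT P ⟨hx, fun h => hz.1.2.1 h.symm, hz.1.2.2.symm⟩ ⟨hy, fun h => hz.2.2.1 h.symm, hz.2.2.2.symm⟩ hxy
  set X0 := comp X z0 with hX0
  have hsub : X0 ⊆ X := comp_subset hz0
  have hT0 : Tri X0 := comp_tri hTX hz0
  have hz00 : z0 ∈ X0 := mem_comp_self X z0
  have hC0 : ∀ z ∈ X0, Nice 45 12 (C X0 z) := by
    intro z hz
    rw [hX0, C_comp hz0 hz]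
    exact hCX z (hsub hz)
  have hconn : ∀ a ∈ X0, ∀ b ∈ X0, ∃ z ∈ X0, Commute z a ∧ Commute z b := H92.LGAll.comp_conn hTX hz0
  have hball := ball hC0 (by norm_num) hz00
  obtain ⟨m, hm1, hm2, hm3, hm4, hm5⟩ := step_num hT0 ⟨z0, hz00⟩ hC0 hconn (by norm_num) (by norm_num) hball
  have hm6 := H92.SRGNum.elim chk0 (by norm_num) hm1 hm2 hball.le hm3 hm4
  have hcard : X0.ncard = 126 := by
    rcases hm6 with rfl | rfl
    · exfalso
      have h1 : X0.ncard = 190 := by omega
      obtain ⟨hT, K, _, _, τ, P⟩ := hL y hy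
      have h2 := ncard_dvd_outer (X := X0) (E := C D y) (fun w hw => (hsub hw).2) hT0 ⟨z0, hz00⟩ (step_trans hT0 hC0 (by norm_num))
      obtain ⟨e⟩ := H92.PSUEquiv.psu_equiv hT P
      rw [Nat.card_congr e.toEquiv, h1] at h2
      exact nineteen P.card (Dvd.dvd.trans (by norm_num) h2)
    · omega
  have hout : ∀ u ∈ C D y, u ∉ X0 → (C (C D y) u ∩ X0).ncard = 30 := by
    obtain ⟨hT, K, _, _, τ, P⟩ := hL y hy
    have hE := H92.Count.ncard_E hT P
    have hq := quad (E := C D y) (X := X0) (k := 180) (l := 51) (m := 45) (e := 45) (fun a ha => H92.Count2.ncard_C hT P ha)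
      (fun a ha b hb => ncard_lam hT P ha hb) (fun a ha b hb hab => H92.Count2.ncard_CC hT P ha hb hab) (fun w hw => (hsub hw).2)
      (fun a ha => (hC0 a ha).card) (by rw [hcard]; norm_num) 1 30
    rw [hcard, hE] at hq
    intro u hu huX
    have h1 := hq.2 (by norm_num) u hu huX
    rw [one_mul] at h1
    exact_mod_cast h1
  have heq : X0 = X := by
    refine Set.Subset.antisymm hsub ?_
    intro u hu
    by_contra huX
    have h1 := hout u hu.2 huX
    have h2 : (C (C D y) u ∩ X0).Nonempty := by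
      rw [Set.nonempty_iff_ne_empty]
      intro h0
      rw [h0, Set.ncard_empty] at h1
      omega
    obtain ⟨w, hw1, hw2⟩ := h2
    exact huX (comp_closed hz0 hw2 hu hw1.2.2.symm)
  rw [← heq]
  exact ⟨step_nice hT0 ⟨z0, hz00⟩ hC0 hconn (by norm_num) hcard, hout⟩

end H91.FiNbr
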