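import Mathlib
import Cfsg.Agent.Lib.H91.FiComp

/-!
Fixed points from the sign of the action on a set of size twice an odd number.
-/

set_option autoImplicit false
set_option linter.dupNamespace false
set_option linter.unusedSectionVars false
set_option linter.style.haveILetI false
set_option linter.unusedVariables false
open Cfsg

namespace H91.FiSign
open H92.Tri H92.Lev H92.Geo
open scoped commutatorElement

variable {G : Type*} [Group G]

/-- the action of the stabilizer -/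
def act (H : Subgroup G) (Γ : Set G) (hH : ∀ g ∈ H, ∀ y ∈ Γ, g * y * g⁻¹ ∈ Γ) : ↥H →* Equiv.Perm ↥Γ where
  toFun g := { toFun := fun y => ⟨g * y * (g : G)⁻¹, hH g g.2 y y.2⟩
               invFun := fun y => ⟨(g : G)⁻¹ * y * (g : G)⁻¹⁻¹, hH _ (H.inv_mem g.2) y y.2⟩
               left_inv := fun y => Subtype.ext (by show (g : G)⁻¹ * (g * y * (g : G)⁻¹) * (g : G)⁻¹⁻¹ = y; group)
               right_inv := fun y => Subtype.ext (by show (g : G) * ((g : G)⁻¹ * y * (g : G)⁻¹⁻¹) * (g : G)⁻¹ = y; group) }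
  map_one' := by
    ext y
    show ((1 : ↥H) : G) * y * ((1 : ↥H) : G)⁻¹ = y
    simp
  map_mul' a b := by
    ext y
    show ((a * b : ↥H) : G) * y * ((a * b : ↥H) : G)⁻¹ = a * (b * y * (b : G)⁻¹) * (a : G)⁻¹
    rw [Subgroup.coe_mul]; group

theorem act_apply (H : Subgroup G) (Γ : Set G) (hH : ∀ g ∈ H, ∀ y ∈ Γ, g * y * g⁻¹ ∈ Γ) (g : ↥H) (y : ↥Γ) :
    ((act H Γ hH g y : ↥Γ) : G) = g * y * (g : G)⁻¹ := rfl

open Classical in
theorem fp [Finite G] (H : Subgroup G) (Γ : Set G) (hH : ∀ g ∈ H, ∀ y ∈ Γ, g * y * g⁻¹ ∈ Γ) {m : ℕ} (hm : Odd m) (hcard : Γ.ncard = 2 * m)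
    (hgen : ∀ h ∈ H, ∃ k ∈ Subgroup.closure Γ, ∃ x ∈ Γ, ∃ c ∈ Subgroup.centralizer ({x} : Set G), h = k * c)
    (hperf : ∀ x ∈ Γ, ⁅Subgroup.centralizer ({x} : Set G), Subgroup.centralizer ({x} : Set G)⁆ = Subgroup.centralizer ({x} : Set G))
    (hcen : ∀ x ∈ Γ, Subgroup.centralizer ({x} : Set G) ≤ H) {w : G} (hw : w ∈ H) (hww : w * w = 1) : ∃ x ∈ Γ, Commute w x := by
  by_contra hcon
  push Not at hcon
  haveI : Finite ↥Γ := Subtype.finite
  letI : Fintype ↥Γ := Fintype.ofFinite _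
  have hne : Γ.Nonempty := by
    rw [Set.nonempty_iff_ne_empty]
    intro h0
    rw [h0, Set.ncard_empty] at hcard
    obtain ⟨k, hk⟩ := hm
    omega
  let sgn : ↥H →* ℤˣ := Equiv.Perm.sign.comp (act H Γ hH)
  let K0 : Subgroup G := sgn.ker.map H.subtype
  have hK0 : ∀ S : Subgroup G, S ≤ H → ⁅S, S⁆ = S → S ≤ K0 := by
    intro S hS hSS
    rw [← hSS, Subgroup.commutator_le]
    intro a ha b hb
    refine ⟨⁅(⟨a, hS ha⟩ : ↥H), ⟨b, hS hb⟩⁆, ?_, rfl⟩
    rw [SetLike.mem_coe, MonoidHom.mem_ker, map_commutatorElement]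
    rw [commutatorElement_def]
    rw [mul_comm (sgn ⟨a, hS ha⟩) (sgn ⟨b, hS hb⟩)]
    group
  have hK1 : H ≤ K0 := by
    intro h hh
    obtain ⟨k, hk, x, hx, c, hc, rfl⟩ := hgen h hh
    apply K0.mul_mem
    · have : Subgroup.closure Γ ≤ K0 := by
        rw [Subgroup.closure_le]
        intro y hy
        exact hK0 _ (hcen y hy) (hperf y hy) (Subgroup.mem_centralizer_singleton_iff.2 rfl)
      exact this hk
    · exact hK0 _ (hcen x hx) (hperf x hx) hc
  obtain ⟨w', hw', hww'⟩ := hK1 hw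
  have hw'' : w' = ⟨w, hw⟩ := Subtype.ext hww'
  rw [hw''] at hw'
  have hs : Equiv.Perm.sign (act H Γ hH ⟨w, hw⟩) = 1 := hw'
  set σ := act H Γ hH ⟨w, hw⟩ with hσ
  have hσ2 : σ * σ = 1 := by
    rw [hσ, ← map_mul]
    have : (⟨w, hw⟩ : ↥H) * ⟨w, hw⟩ = 1 := Subtype.ext hww
    rw [this, map_one]
  have hwi : w⁻¹ = w := inv_eq_of_mul_eq_one_left hww
  have hmove : ∀ y : ↥Γ, σ y ≠ y := by
    intro y hy
    apply hcon y y.2
    have h1 : w * y * w⁻¹ = y := congrArg Subtype.val hy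
    exact mul_inv_eq_iff_eq_mul.1 h1
  have hσ1 : σ ≠ 1 := by
    intro h1
    obtain ⟨y, hy⟩ := hne
    apply hmove ⟨y, hy⟩
    rw [h1]; rfl
  have ho : orderOf σ = 2 := orderOf_eq_prime (by rw [pow_two]; exact hσ2) hσ1
  obtain ⟨k, hk⟩ := Equiv.Perm.cycleType_prime_order (σ := σ) (by rw [ho]; exact Nat.prime_two)
  rw [ho] at hk
  have hsup : σ.support = Finset.univ := by
    ext y
    simp only [Equiv.Perm.mem_support, Finset.mem_univ, iff_true]
    exact hmove y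
  have hsum := Equiv.Perm.sum_cycleType σ
  have hcΓ : Fintype.card ↥Γ = 2 * m := by rw [← hcard, ← Nat.card_coe_set_eq, Nat.card_eq_fintype_card]
  rw [hsup, Finset.card_univ, hcΓ, hk, Multiset.sum_replicate, smul_eq_mul] at hsum
  have hkm : k + 1 = m := by omega
  rw [Equiv.Perm.sign_of_cycleType, hk, Multiset.sum_replicate, Multiset.card_replicate, hkm, smul_eq_mul] at hs
  have hodd : Odd (m * 2 + m) := by
    obtain ⟨j, hj⟩ := hm
    exact ⟨3 * j + 1, by omega⟩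
  rw [hodd.neg_one_pow] at hs
  exact absurd hs (by decide)

end H91.FiSign
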