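import Mathlib
import Cfsg.Prelude.Def_FischerSpaces
import Cfsg.Agent.Lib.H91.FiA
import Cfsg.Agent.Lib.H91.FiNbr
import Cfsg.Agent.Lib.H91.FiSign
import Cfsg.Agent.Lib.H91.FiEmb2
import Cfsg.Agent.Lib.H92.TypeNum

/-!
Groups with an involution whose centralizer is a double cover of `U6(2)`, not weakly closed: the class is a class of 3-transpositions.
-/

set_option autoImplicit false
set_option linter.dupNamespace false
set_option linter.unusedSectionVars false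
set_option linter.style.haveILetI false
set_option linter.unusedVariables false
open Cfsg

namespace H91.FiMain
open H92.Tri H92.Lev H92.Geo H91.FiComp H91.FiA H91.FiEmb

universe u
variable {G : Type u} [Group G]

/-- separating points, level zero -/
theorem sep_pol {K : Type} [Field K] [Fintype K] {E : Set G} {τ : (Fin 6 → K) → G} (hT : Tri E) (P : H92.Pol.Pol K E τ)
    {a c : G} (ha : a ∈ E) (hc : c ∈ E) (hne : a ≠ c) (hac : Commute a c) :
    ∃ x ∈ E, ∃ e ∈ E, x ≠ a ∧ x ≠ c ∧ Commute x a ∧ Commute x c ∧ e ≠ x ∧ Commute x e ∧ Commute e a ∧ ¬ Commute e c := by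
  obtain ⟨u, hu, rfl⟩ := P.surj a ha
  obtain ⟨v, hv, rfl⟩ := P.surj c hc
  have huv := (P.comm u v hu hv).1 hac
  obtain ⟨e, f, hef, rfl, rfl⟩ := H92.Uniq.hyp_of_pair hT P hu hv huv (H92.Pol.indep_of_ne hT P hu hv hne)
  have h2 : H92.PV.Iso (e 2) := by
    refine ⟨?_, hef.ee 2 2⟩
    intro h0
    have := hef.ef 2 2
    rw [h0] at this
    simp at this
  have h3 : H92.PV.Iso (f 1) := by
    refine ⟨?_, hef.ff 1 1⟩
    intro h0
    have := hef.ef 1 1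
    rw [h0] at this
    simp at this
  refine ⟨τ (e 2), P.mem _ h2, τ (f 1), P.mem _ h3, ?_, ?_, (P.comm _ _ h2 hu).2 (hef.ee 2 0), (P.comm _ _ h2 hv).2 (hef.ee 2 1), ?_,
    (P.comm _ _ h2 h3).2 ?_, (P.comm _ _ h3 hu).2 ?_, ?_⟩
  · intro h
    obtain ⟨s, hs⟩ := (P.inj _ _ h2 hu).1 h
    have h4 := hef.ef 2 2
    rw [hs, H92.Herm.B_smul_left, hef.ef] at h4
    simp at h4
  · intro h
    obtain ⟨s, hs⟩ := (P.inj _ _ h2 hv).1 h
    have h4 := hef.ef 2 2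
    rw [hs, H92.Herm.B_smul_left, hef.ef] at h4
    simp at h4
  · intro h
    obtain ⟨s, hs⟩ := (P.inj _ _ h3 h2).1 h
    have h4 := hef.fe P.card 1 1
    rw [hs, H92.Herm.B_smul_left, hef.ee] at h4
    simp at h4
  · rw [hef.ef]; simp
  · rw [hef.fe P.card]; simp
  · intro h
    have h4 := (P.comm _ _ h3 hv).1 h
    rw [hef.fe P.card] at h4
    simp at h4

theorem nbr_of [Finite G] {D : Set G} (hL : ∀ x ∈ D, Lev 0 (C D x)) : ∀ x ∈ D, ∀ y ∈ D, ¬ Commute x y → (C D x ∩ C D y).Nonempty →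
    ∀ u ∈ C D y, ∃ w ∈ C D x ∩ C D y, Commute w u := by
  intro x hx y hy hxy hne u hu
  obtain ⟨-, h2⟩ := H91.FiNbr.nbr0 hL hx hy hxy hne
  by_cases huX : u ∈ C D x ∩ C D y
  · exact ⟨u, huX, Commute.refl u⟩
  · have h3 := h2 u hu huX
    have h4 : (C (C D y) u ∩ (C D x ∩ C D y)).Nonempty := by
      rw [Set.nonempty_iff_ne_empty]
      intro h0
      rw [h0, Set.ncard_empty] at h3
      omega
    obtain ⟨w, hw1, hw2⟩ := h4
    exact ⟨w, hw2, hw1.2.2.symm⟩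

variable [Finite G]

/-- one component is everything, level one -/
theorem all_one {D : Set G} (hconj : ∀ g : G, ∀ x ∈ D, g * x * g⁻¹ ∈ D) (hsq : ∀ x ∈ D, x * x = 1)
    (htr : ∀ x ∈ D, ∀ y ∈ D, ∃ g : G, g * x * g⁻¹ = y) (pt : ∀ x ∈ D, Pt 0 D x) {d : G} (hd : d ∈ D) :
    LG 1 D ∧ D.ncard = 3510 ∧ (∀ a ∈ D, ∀ c ∈ D, ¬ Commute a c → (C D a ∩ C D c).ncard = 126) ∧ (∀ g : G, (∀ y ∈ D, Commute g y) → g = 1) := by
  have L : Loc 0 D := ⟨hconj, hsq, fun x hx => (pt x hx).lev, nbr_of (fun x hx => (pt x hx).lev)⟩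
  set Γ := comp D d with hΓ
  have hsub : Γ ⊆ D := comp_subset hd
  have hdΓ : d ∈ Γ := mem_comp_self D d
  have hLG : LG 1 Γ := lg_comp' L hd
  have hT := hLG.lev.tri
  have hCΓ : ∀ x ∈ Γ, C Γ x = C D x := fun x hx => C_comp hd hx
  have h126 : ∀ a ∈ Γ, ∀ c ∈ Γ, ¬ Commute a c → (C Γ a ∩ C Γ c).ncard = 126 := by
    intro a ha c hc hac
    rw [hCΓ a ha, hCΓ c hc]
    refine (H91.FiNbr.nbr0 (fun x hx => (pt x hx).lev) (hsub ha) (hsub hc) hac ?_).1.card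
    obtain ⟨z, hz, hza, hzc⟩ := hLG.geo.conn a ha c hc
    refine ⟨z, ⟨hsub hz, ?_, hza.symm⟩, hsub hz, ?_, hzc.symm⟩
    · rintro rfl; exact hac hzc
    · rintro rfl; exact hac hza.symm
  obtain ⟨c0, hc0, hdc0⟩ := hLG.lev.partner hdΓ
  have hcardΓ : Γ.ncard = 3510 := (H92.Num.num_one hLG ⟨d, hdΓ, c0, hc0, hdc0, by rw [h126 d hdΓ c0 hc0 hdc0]; norm_num⟩).1
  have zen : ∀ g : G, (∀ y ∈ Γ, Commute g y) → g = 1 := by
    intro g hg
    rcases (pt d hd).cen g (hg d hdΓ) (by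
      intro y hy
      rw [← hCΓ d hdΓ] at hy
      exact hg y hy.1) with h1 | h1
    · exact h1
    · exfalso
      rw [h1] at hg
      exact hdc0 (hg c0 hc0)
  have mv : ∀ g : G, ∀ y ∈ Γ, g * y * g⁻¹ ∈ Γ → g ∈ stab Γ := fun g y hy hg => mv_stab L hd hy hg
  have hmem : ∀ g ∈ stab Γ, ∀ y ∈ Γ, g * y * g⁻¹ ∈ Γ := fun g hg y hy => (mem_stab.1 hg y).1 hy
  have hcen : ∀ x ∈ Γ, Subgroup.centralizer ({x} : Set G) ≤ stab Γ := by
    intro x hx g hg
    apply mv g x hx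
    have h1 : g * x = x * g := Subgroup.mem_centralizer_singleton_iff.1 hg
    rw [h1, mul_inv_cancel_right]; exact hx
  have hE : Emb 0 D Γ (stab Γ) := by
    refine ⟨hconj, hsq, hsub, hLG.lev, ?_, mv, hmem, ?_, ?_, ?_, four_one hLG zen, ?_⟩
    · intro x hx y hy hxy
      exact comp_closed hd hx hy hxy
    · intro w hw hww
      refine H91.FiSign.fp (stab Γ) Γ hmem (m := 1755) ⟨877, by norm_num⟩ (by rw [hcardΓ]) ?_ (fun x hx => (pt x (hsub hx)).perf) hcen hw hww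
      intro h hh
      obtain ⟨k, hk, hkd⟩ := trans_comp L hd d hdΓ (h * d * h⁻¹) (hmem h hh d hdΓ)
      refine ⟨k, hk, d, hdΓ, k⁻¹ * h, ?_, by group⟩
      rw [Subgroup.mem_centralizer_singleton_iff]
      have h1 : k⁻¹ * (h * d * h⁻¹) * k = d := by rw [← hkd]; group
      calc k⁻¹ * h * d = (k⁻¹ * (h * d * h⁻¹) * k) * (k⁻¹ * h) := by group
        _ = d * (k⁻¹ * h) := by rw [h1]
    · intro x hx w hww hw
      rw [hCΓ x hx]
      exact (pt x (hsub hx)).inv w hww hw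
    · apply odd7_of hLG zen
      obtain ⟨l, hl, hll⟩ := H92.Simple.hept hLG hdΓ
      exact ⟨d :: l, hl, by rw [List.length_cons, hll]⟩
    · intro x hx a ha c hc nxa nxc nac cxa cxc cac
      obtain ⟨hTx, K, _, _, τ, P⟩ := hLG.C hx
      obtain ⟨x', hx', e, he, h1, h2, h3, h4, h5, h6, h7, h8⟩ := sep_pol hTx P (a := a) (c := c) ⟨ha, nxa.symm, cxa⟩ ⟨hc, nxc.symm, cxc⟩ nac cac
      exact ⟨x', hx'.1, hx'.2.1, h1, h2, hx'.2.2.symm, h3, h4, fun _ => ⟨e, ⟨he.1, h5, h6⟩, he.2.2.symm, h7, h8⟩⟩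
  have hDΓ : D = Γ := hE.eq htr
  rw [hDΓ]
  exact ⟨hLG, hcardΓ, h126, zen⟩

theorem main (d : G) (hd : orderOf d = 2) (C0 : Subgroup G) (hC0 : C0 = Subgroup.centralizer ({d} : Set G)) (hq : Cfsg.IsQuasisimple ↥C0)
    [hzn : ((Subgroup.zpowers d).subgroupOf C0).Normal] (K : Type) [Field K] [Fintype K]
    (hK : Fintype.card K = 4)
    (e : ↥C0 ⧸ (Subgroup.zpowers d).subgroupOf C0 ≃* Cfsg.PSU 6 K 2)
    (hnwc : ∃ g : G, g * d * g⁻¹ ∈ C0 ∧ g * d * g⁻¹ ≠ d) :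
    LG 1 (conjugatesOf d) ∧ Subgroup.closure (conjugatesOf d) = ⊤ ∧ Subgroup.center G = ⊥ ∧ (conjugatesOf d).ncard = 3510 ∧
      ∀ a ∈ conjugatesOf d, ∀ c ∈ conjugatesOf d, ¬ Commute a c → (C (conjugatesOf d) a ∩ C (conjugatesOf d) c).ncard = 126 := by
  have hp := pt0 d hd C0 hC0 hq K hK e hnwc
  set D := conjugatesOf d with hD
  have mD : ∀ y, y ∈ D ↔ ∃ g : G, g * d * g⁻¹ = y := fun y => isConj_iff
  have hconj : ∀ g : G, ∀ x ∈ D, g * x * g⁻¹ ∈ D := by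
    intro g x hx
    obtain ⟨k, rfl⟩ := (mD x).1 hx
    exact (mD _).2 ⟨g * k, by group⟩
  have hdd : d * d = 1 := by rw [← pow_two, ← hd, pow_orderOf_eq_one]
  have hsq : ∀ x ∈ D, x * x = 1 := by
    intro x hx
    obtain ⟨k, rfl⟩ := (mD x).1 hx
    rw [← conj_mul', hdd]; group
  have htr : ∀ x ∈ D, ∀ y ∈ D, ∃ g : G, g * x * g⁻¹ = y := by
    intro x hx y hy
    obtain ⟨k, rfl⟩ := (mD x).1 hx
    obtain ⟨l, rfl⟩ := (mD y).1 hy
    exact ⟨l * k⁻¹, by group⟩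
  have hpt : ∀ x ∈ D, Pt 0 D x := by
    intro x hx
    obtain ⟨k, rfl⟩ := (mD x).1 hx
    exact hp.conj hconj k
  have hdD : d ∈ D := (mD d).2 ⟨1, by group⟩
  obtain ⟨h1, h2, h3, h4⟩ := all_one hconj hsq htr hpt hdD
  refine ⟨h1, ?_, ?_, h2, h3⟩
  · rw [eq_top_iff]
    intro g _
    obtain ⟨k, hk, hkd⟩ := h1.lev.trans hdD (hconj g d hdD)
    have hc : Commute (k⁻¹ * g) d := by
      have e1 : k⁻¹ * (g * d * g⁻¹) * k = d := by rw [← hkd]; group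
      show k⁻¹ * g * d = d * (k⁻¹ * g)
      calc k⁻¹ * g * d = (k⁻¹ * (g * d * g⁻¹) * k) * (k⁻¹ * g) := by group
        _ = d * (k⁻¹ * g) := by rw [e1]
    obtain ⟨j, hj, hjc⟩ := hp.gen _ hc
    have hj' : j ∈ Subgroup.closure D := Subgroup.closure_mono (C_subset D d) hj
    have e2 : g = k * (k⁻¹ * g) := by group
    rw [e2]
    apply Subgroup.mul_mem _ hk
    rcases hjc with h5 | h5
    · rw [h5]; exact hj'
    · rw [h5]; exact Subgroup.mul_mem _ hj' (Subgroup.subset_closure hdD)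
  · rw [Subgroup.eq_bot_iff_forall]
    intro z hz
    apply h4
    intro y _
    exact (Subgroup.mem_center_iff.1 hz y).symm

end H91.FiMain
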