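import Mathlib
import Cfsg.Prelude.Def_FischerSpaces
import Cfsg.Agent.Lib.H91.FiNbr
import Cfsg.Agent.Lib.H92.M22
import Cfsg.Agent.Lib.H92.TypeNum

/-!
Common neighbours of two members which do not commute, one level up.
-/

set_option autoImplicit false
set_option linter.dupNamespace false
set_option linter.unusedSectionVars false
set_option linter.style.haveILetI false
set_option linter.unusedVariables false
open Cfsg Matrix

namespace H91.FiNbr
open H92.Tri H92.Lev H92.Geo H92.Num H92.SRGNum H91.FiNice H91.FiReg H91.FiCount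

variable {G : Type*} [Group G]

/-- the order of the central quotient -/
theorem card_quot_one [Finite G] {E : Set G} (h : LG 1 E) (hE : E.ncard = 3510) :
    Nat.card (↥(Subgroup.closure E) ⧸ Subgroup.center ↥(Subgroup.closure E)) = 3510 * (2 * 9196830720) := by
  have hT := h.lev.tri
  let F : Set ↥(Subgroup.closure E) := {x | (x : G) ∈ E}
  have hF : Tri F := by
    refine ⟨fun d hd => Subtype.ext (hT.sq d hd), ?_, ?_⟩
    · intro a ha b hb
      rcases hT.three a ha b hb with h | h
      · left; exact Subtype.ext h.eq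
      · right; exact Subtype.ext h
    · intro a ha b hb
      exact hT.conj a ha b hb
  have himg : (Subgroup.closure E).subtype '' F = E := by
    ext y
    constructor
    · rintro ⟨x, hx, rfl⟩; exact hx
    · intro hy
      exact ⟨⟨y, Subgroup.subset_closure hy⟩, hy, rfl⟩
  have hFl : Lev 1 F := by
    apply lev_preimage (Subgroup.closure E).subtype hF (fun a _ b _ e => Subtype.ext e)
    rw [himg]; exact h.lev
  have hFc : Subgroup.closure F = ⊤ := Subgroup.closure_closure_coe_preimage
  set π := QuotientGroup.mk' (Subgroup.center ↥(Subgroup.closure E)) with hπ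
  have key : ∀ x ∈ F, ∀ y ∈ F, x⁻¹ * y ∈ Subgroup.center ↥(Subgroup.closure E) → x = y := by
    intro x hx y hy h1
    rw [Subgroup.mem_center_iff] at h1
    symm
    apply hFl.eq_of_comm hx hy
    intro z hz hzx
    have h3 : Commute z (x * (x⁻¹ * y)) := hzx.mul_right (h1 z)
    rwa [mul_inv_cancel_left] at h3
  have hinj : Set.InjOn π F := by
    intro x hx y hy hxy
    have h1 : (QuotientGroup.mk x : ↥(Subgroup.closure E) ⧸ Subgroup.center ↥(Subgroup.closure E)) = QuotientGroup.mk y := hxy
    rw [QuotientGroup.eq] at h1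
    exact key x hx y hy h1
  have hB := lev_image π hF hinj hFl
  have hBc : Subgroup.closure (π '' F) = ⊤ := by
    rw [← MonoidHom.map_closure, hFc, ← MonoidHom.range_eq_map, MonoidHom.range_eq_top]
    exact QuotientGroup.mk'_surjective _
  have hcard : (π '' F).ncard = 3510 := by
    rw [hinj.ncard_image]
    have h1 := Set.ncard_image_of_injective F (Subgroup.closure E).subtype_injective
    rw [himg, hE] at h1
    exact h1.symm
  have hZ : Subgroup.center (↥(Subgroup.closure E) ⧸ Subgroup.center ↥(Subgroup.closure E)) = ⊥ := by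
    rw [Subgroup.eq_bot_iff_forall]
    intro q hq
    obtain ⟨g, rfl⟩ := QuotientGroup.mk'_surjective _ q
    rw [Subgroup.mem_center_iff] at hq
    have h1 : ∀ y ∈ F, Commute g y := by
      intro y hy
      have h2 : g * y * g⁻¹ ∈ F := conj_closure hF (by rw [hFc]; trivial) hy
      have h3 : g * y * g⁻¹ = y := by
        apply hinj h2 hy
        show π (g * y * g⁻¹) = π y
        rw [map_mul, map_mul, map_inv]
        have h4 : π y * π g = π g * π y := hq (π y)
        rw [← h4, mul_inv_cancel_right]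
      exact mul_inv_eq_iff_eq_mul.1 h3
    have h2 : g ∈ Subgroup.center ↥(Subgroup.closure E) := by
      rw [Subgroup.mem_center_iff]
      intro w
      have h3 : Subgroup.closure F ≤ Subgroup.centralizer {g} := by
        rw [Subgroup.closure_le]
        intro y hy
        rw [SetLike.mem_coe, Subgroup.mem_centralizer_singleton_iff]
        exact (h1 y hy).eq.symm
      have h4 : w ∈ Subgroup.closure F := by rw [hFc]; trivial
      exact Subgroup.mem_centralizer_singleton_iff.1 (h3 h4)
    exact (QuotientGroup.eq_one_iff g).2 h2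
  have h1B : (1 : ↥(Subgroup.closure E) ⧸ Subgroup.center ↥(Subgroup.closure E)) ∉ π '' F := by
    intro h1
    obtain ⟨y, hy, hxy⟩ := hB.partner h1
    exact hxy (Commute.one_left _)
  exact H92.M22.card_G1 (H92.LGAll.lg_one hB) hcard hBc hZ h1B

/-- one value, with no exceptions -/
def chk' (k l : ℕ) (L : List ℕ) (m : ℕ) : Bool :=
  L.contains m || chk k l m m m

theorem chk_126 : ∀ i < 127, (chk 126 45 9 36 i = true ∨ i = 45 ∨ i = 63) := by decide +kernel

theorem elim_one {k l a b : ℕ} {n m : ℕ} (h : chk k l a b m = true) (hm1 : 1 ≤ m) (hmk : m ≤ k) (hn : k + 1 ≤ n)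
    (hpar : k * (k - l - 1) = (n - k - 1) * m)
    (hz : ∃ z : ℤ, (((l : ℤ) - m) ^ 2 + 4 * (k - m)) * z ^ 2 = (((m : ℤ) - l) * (n - 1) - 2 * k) ^ 2) : m = a ∨ m = b := by
  unfold chk at h
  simp only [Bool.or_eq_true, Bool.not_eq_true', Nat.ble_eq] at h
  have hdiv : k * (k - l - 1) / m = n - k - 1 := by
    rw [hpar, Nat.mul_div_cancel _ (by omega)]
  have hmod : (k * (k - l - 1)) % m = 0 := by rw [hpar]; exact Nat.mul_mod_left _ _
  rw [hdiv, hmod] at h
  have hM : k + (n - k - 1) = n - 1 := by omega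
  rw [hM] at h
  rcases h with ((((h | h) | h) | h) | h) | h
  · have := Nat.eq_of_beq_eq_true h; omega
  · omega
  · left; exact Nat.eq_of_beq_eq_true h
  · right; exact Nat.eq_of_beq_eq_true h
  · exact absurd h (by decide)
  · exfalso
    have h1 := bad_spec h
    apply h1
    have hD : (((dst l m * dst l m + 4 * (k - m) : ℕ)) : ℤ) = (((l : ℤ) - m) ^ 2 + 4 * (k - m)) := by
      push_cast [Nat.cast_sub hmk]
      have : ((dst l m : ℕ) : ℤ) * (dst l m : ℕ) = ((l : ℤ) - m) ^ 2 := by
        unfold dst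
        rcases le_total l m with hlm | hlm
        · have e : (l - m) + (m - l) = m - l := by omega
          rw [e]; push_cast [Nat.cast_sub hlm]; ring
        · have e : (l - m) + (m - l) = l - m := by omega
          rw [e]; push_cast [Nat.cast_sub hlm]; ring
      rw [this]
    rw [← natAbs_case]
    have e2 : ((n - 1 : ℕ) : ℤ) = (n : ℤ) - 1 := by omega
    rw [e2]
    apply sq_cases
    rw [hD]
    exact hz

theorem val1 [Finite G] {E : Set G} (h : LG 1 E) : (∀ x ∈ E, (C E x).ncard = 693) ∧
    (∀ x ∈ E, ∀ y ∈ C E x, (C E x ∩ C E y).ncard = 180) := by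
  refine ⟨?_, ?_⟩
  · intro x hx
    obtain ⟨hT, K, _, _, τ, P⟩ := h.C hx
    exact H92.Count.ncard_E hT P
  · intro x hx y hy
    rw [CC_eq E hy]
    obtain ⟨hT, K, _, _, τ, P⟩ := h.C hx
    exact H92.Count2.ncard_C hT P hy

theorem nbr1 [Finite G] {D : Set G} (hL : ∀ x ∈ D, LG 1 (C D x)) (hcard : ∀ x ∈ D, (C D x).ncard = 3510) {x y : G} (hx : x ∈ D) (hy : y ∈ D)
    (hxy : ¬ Commute x y) (hne : (C D x ∩ C D y).Nonempty) :
    Nice 351 126 (C D x ∩ C D y) ∧ ∀ u ∈ C D y, u ∉ C D x ∩ C D y → (C (C D y) u ∩ (C D x ∩ C D y)).ncard = 63 := by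
  have hTX := tri_inter (hL x hx).lev.tri (hL y hy).lev.tri
  obtain ⟨z0, hz0⟩ := hne
  set X := C D x ∩ C D y with hX
  have hCX : ∀ z ∈ X, Nice 126 45 (C X z) := by
    intro z hz
    rw [hX, C_CC_eq D x y z hz]
    have hLz := hL z hz.1.1
    have hxz : x ∈ C D z := ⟨hx, fun h => hz.1.2.1 h.symm, hz.1.2.2.symm⟩
    have hyz : y ∈ C D z := ⟨hy, fun h => hz.2.2.1 h.symm, hz.2.2.2.symm⟩
    refine (nbr0 (fun w hw => (hLz.C hw).lev) hxz hyz hxy ?_).1
    have h1 := H92.TypeNum.mu_of_card hLz (hcard z hz.1.1) x hxz y hyz hxy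
    rw [Set.nonempty_iff_ne_empty]
    intro h0
    rw [h0, Set.ncard_empty] at h1
    omega
  set X0 := comp X z0 with hX0
  have hsub : X0 ⊆ X := comp_subset hz0
  have hT0 : Tri X0 := comp_tri hTX hz0
  have hz00 : z0 ∈ X0 := mem_comp_self X z0
  have hC0 : ∀ z ∈ X0, Nice 126 45 (C X0 z) := by
    intro z hz
    rw [hX0, C_comp hz0 hz]
    exact hCX z (hsub hz)
  have hconn : ∀ a ∈ X0, ∀ b ∈ X0, ∃ z ∈ X0, Commute z a ∧ Commute z b := H92.LGAll.comp_conn hTX hz0
  have hball := ball hC0 (by norm_num) hz00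
  obtain ⟨m, hm1, hm2, hm3, hm4, hm5⟩ := step_num hT0 ⟨z0, hz00⟩ hC0 hconn (by norm_num) (by norm_num) hball
  have hLy := hL y hy
  obtain ⟨v1, v2⟩ := val1 hLy
  have v3 := H92.TypeNum.mu_of_card hLy (hcard y hy)
  have hq := fun a b : ℤ => fun (hb : 126 + 1 ≤ X0.ncard) => quad (E := C D y) (X := X0) (k := 693) (l := 180) (m := 126) (e := 126) v1 v2 v3
    (fun w hw => (hsub hw).2) (fun a ha => (hC0 a ha).card) hb a b
  have hm6 : m = 9 ∨ m = 36 ∨ m = 45 ∨ m = 63 := by
    rcases chk_126 m (by omega) with h1 | h1 | h1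
    · rcases elim_one h1 hm1 hm2 hball.le hm3 hm4 with h2 | h2
      · exact Or.inl h2
      · exact Or.inr (Or.inl h2)
    · exact Or.inr (Or.inr (Or.inl h1))
    · exact Or.inr (Or.inr (Or.inr h1))
  have hcard0 : X0.ncard = 351 := by
    rcases hm6 with rfl | rfl | rfl | rfl
    · exfalso
      have h1 : X0.ncard = 1247 := by omega
      have h2 := (hq 1 312 (by omega)).1
      rw [h1, hcard y hy] at h2
      norm_num at h2
    · exfalso
      have h1 : X0.ncard = 407 := by omega
      have h2 := ncard_dvd_outer (X := X0) (E := C D y) (fun w hw => (hsub hw).2) hT0 ⟨z0, hz00⟩ (step_trans hT0 hC0 (by norm_num))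
      rw [card_quot_one hLy (hcard y hy), h1] at h2
      norm_num at h2
    · omega
    · exfalso
      have h1 : X0.ncard = 287 := by omega
      have h2 := (hq 1 50 (by omega)).1
      rw [h1, hcard y hy] at h2
      norm_num at h2
  have hout : ∀ u ∈ C D y, u ∉ X0 → (C (C D y) u ∩ X0).ncard = 63 := by
    have hq2 := (hq 1 63 (by omega)).2
    rw [hcard0, hcard y hy] at hq2
    intro u hu huX
    have h1 := hq2 (by norm_num) u hu huX
    rw [one_mul] at h1
    exact_mod_cast h1
  have heq : X0 = X := by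
    refine Set.Subset.antisymm hsub ?_
    intro u hu
    by_contra huX
    have h1 := hout u hu.2 huX
    have h2 : (C (C D y) u ∩ X0).Nonempty := by
      rw [Set.nonempty_iff_ne_empty]
      intro h0
      rw [h0, Set.ncard_empty] at h1
      omega
    obtain ⟨w, hw1, hw2⟩ := h2
    exact huX (comp_closed hz0 hw2 hu hw1.2.2.symm)
  rw [← heq]
  exact ⟨step_nice hT0 ⟨z0, hz00⟩ hC0 hconn (by norm_num) hcard0, hout⟩

end H91.FiNbr
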