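import Mathlib
import Cfsg.Prelude.Def_FischerSpaces
import Cfsg.Agent.Lib.H91.FiMain
import Cfsg.Agent.Lib.H91.FiNbr1

/-!
Groups with an involution whose centralizer is a double cover of `Fi22`, not weakly closed: the class is a class of 3-transpositions
(from the local data at the involution).
-/

set_option autoImplicit false
set_option linter.dupNamespace false
set_option linter.unusedSectionVars false
set_option linter.style.haveILetI false
set_option linter.unusedVariables false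
open Cfsg

namespace H91.FiMain
open H92.Tri H92.Lev H92.Geo H91.FiComp H91.FiA H91.FiEmb

universe u
variable {G : Type u} [Group G]

theorem nbr_of1 [Finite G] {D : Set G} (hL : ∀ x ∈ D, LG 1 (C D x)) (hcard : ∀ x ∈ D, (C D x).ncard = 3510) :
    ∀ x ∈ D, ∀ y ∈ D, ¬ Commute x y → (C D x ∩ C D y).Nonempty →
    ∀ u ∈ C D y, ∃ w ∈ C D x ∩ C D y, Commute w u := by
  intro x hx y hy hxy hne u hu
  obtain ⟨-, h2⟩ := H91.FiNbr.nbr1 hL hcard hx hy hxy hne
  by_cases huX : u ∈ C D x ∩ C D y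
  · exact ⟨u, huX, Commute.refl u⟩
  · have h3 := h2 u hu huX
    have h4 : (C (C D y) u ∩ (C D x ∩ C D y)).Nonempty := by
      rw [Set.nonempty_iff_ne_empty]
      intro h0
      rw [h0, Set.ncard_empty] at h3
      omega
    obtain ⟨w, hw1, hw2⟩ := h4
    exact ⟨w, hw2, hw1.2.2.symm⟩

/-- an involution acting on a set of odd size -/
theorem fp_odd [Finite G] (H : Subgroup G) (Γ : Set G) (hH : ∀ g ∈ H, ∀ y ∈ Γ, g * y * g⁻¹ ∈ Γ) (hodd : Odd Γ.ncard) {w : G} (hw : w ∈ H)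
    (hww : w * w = 1) : ∃ x ∈ Γ, Commute w x := by
  classical
  haveI : Finite ↥Γ := Subtype.finite
  letI : Fintype ↥Γ := Fintype.ofFinite _
  have hc : Fintype.card ↥Γ = Γ.ncard := by rw [← Nat.card_coe_set_eq, Nat.card_eq_fintype_card]
  obtain ⟨y, hy⟩ := Equiv.Perm.exists_fixed_point_of_prime (p := 2) (n := 1) (σ := H91.FiSign.act H Γ hH ⟨w, hw⟩) (by
    rw [hc]
    exact hodd.not_two_dvd_nat) (by
    rw [pow_one, pow_two, ← map_mul]
    have : (⟨w, hw⟩ : ↥H) * ⟨w, hw⟩ = 1 := Subtype.ext hww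
    rw [this, map_one])
  refine ⟨y, y.2, ?_⟩
  have h1 : w * y * w⁻¹ = y := congrArg Subtype.val hy
  exact mul_inv_eq_iff_eq_mul.1 h1

variable [Finite G]

/-- one component is everything, level two -/
theorem all_two {D : Set G} (hconj : ∀ g : G, ∀ x ∈ D, g * x * g⁻¹ ∈ D) (hsq : ∀ x ∈ D, x * x = 1)
    (htr : ∀ x ∈ D, ∀ y ∈ D, ∃ g : G, g * x * g⁻¹ = y) (pt : ∀ x ∈ D, Pt 1 D x) (hcard : ∀ x ∈ D, (C D x).ncard = 3510) {d : G} (hd : d ∈ D) :
    LG 2 D ∧ D.ncard = 31671 ∧ (∀ g : G, (∀ y ∈ D, Commute g y) → g = 1) := by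
  have hL1 : ∀ x ∈ D, LG 1 (C D x) := fun x hx => H92.LGAll.lg_one (pt x hx).lev
  have L : Loc 1 D := ⟨hconj, hsq, hL1, nbr_of1 hL1 hcard⟩
  set Γ := comp D d with hΓ
  have hsub : Γ ⊆ D := comp_subset hd
  have hdΓ : d ∈ Γ := mem_comp_self D d
  have hLG : LG 2 Γ := lg_comp' L hd
  have hT := hLG.lev.tri
  have hCΓ : ∀ x ∈ Γ, C Γ x = C D x := fun x hx => C_comp hd hx
  have h351 : ∀ a ∈ Γ, ∀ c ∈ Γ, ¬ Commute a c → (C Γ a ∩ C Γ c).ncard = 351 := by
    intro a ha c hc hac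
    rw [hCΓ a ha, hCΓ c hc]
    refine (H91.FiNbr.nbr1 hL1 hcard (hsub ha) (hsub hc) hac ?_).1.card
    obtain ⟨z, hz, hza, hzc⟩ := hLG.geo.conn a ha c hc
    refine ⟨z, ⟨hsub hz, ?_, hza.symm⟩, hsub hz, ?_, hzc.symm⟩
    · rintro rfl; exact hac hzc
    · rintro rfl; exact hac hza.symm
  obtain ⟨c0, hc0, hdc0⟩ := hLG.lev.partner hdΓ
  have hcardΓ : Γ.ncard = 31671 := (H92.Num.num_two hLG (fun x hx => by rw [hCΓ x hx]; exact hcard x (hsub hx))
    ⟨d, hdΓ, c0, hc0, hdc0, by rw [h351 d hdΓ c0 hc0 hdc0]; norm_num⟩).1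
  have zen : ∀ g : G, (∀ y ∈ Γ, Commute g y) → g = 1 := by
    intro g hg
    rcases (pt d hd).cen g (hg d hdΓ) (by
      intro y hy
      rw [← hCΓ d hdΓ] at hy
      exact hg y hy.1) with h1 | h1
    · exact h1
    · exfalso
      rw [h1] at hg
      exact hdc0 (hg c0 hc0)
  have mv : ∀ g : G, ∀ y ∈ Γ, g * y * g⁻¹ ∈ Γ → g ∈ stab Γ := fun g y hy hg => mv_stab L hd hy hg
  have hmem : ∀ g ∈ stab Γ, ∀ y ∈ Γ, g * y * g⁻¹ ∈ Γ := fun g hg y hy => (mem_stab.1 hg y).1 hy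
  have hE : Emb 1 D Γ (stab Γ) := by
    refine ⟨hconj, hsq, hsub, hLG.lev, ?_, mv, hmem, ?_, ?_, ?_, four_two hLG zen, ?_⟩
    · intro x hx y hy hxy
      exact comp_closed hd hx hy hxy
    · intro w hw hww
      exact fp_odd (stab Γ) Γ hmem (by rw [hcardΓ]; exact ⟨15835, by norm_num⟩) hw hww
    · intro x hx w hww hw
      rw [hCΓ x hx]
      exact (pt x (hsub hx)).inv w hww hw
    · apply odd7_of hLG zen
      obtain ⟨l, hl, hll, -⟩ := H92.QS.block_through hLG hdΓ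
      exact ⟨d :: l, hl, by rw [List.length_cons, hll]⟩
    · intro x hx a ha c hc nxa nxc nac cxa cxc cac
      obtain ⟨z, hz, hza, hzc, h1, h2⟩ := (hLG.C hx).lev.common_nbr (x := a) (y := c) ⟨ha, nxa.symm, cxa⟩ ⟨hc, nxc.symm, cxc⟩ cac
      exact ⟨z, hz.1, hz.2.1, hza, hzc, hz.2.2.symm, h1, h2, fun h => absurd h (by norm_num)⟩
  have hDΓ : D = Γ := hE.eq htr
  rw [hDΓ]
  exact ⟨hLG, hcardΓ, zen⟩

theorem main_two (d : G) (hd : d * d = 1) (hp : Pt 1 (conjugatesOf d) d) (hc : (C (conjugatesOf d) d).ncard = 3510) :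
    LG 2 (conjugatesOf d) ∧ Subgroup.closure (conjugatesOf d) = ⊤ ∧ Subgroup.center G = ⊥ ∧ (conjugatesOf d).ncard = 31671 ∧
      ∀ x ∈ conjugatesOf d, (C (conjugatesOf d) x).ncard = 3510 := by
  set D := conjugatesOf d with hD
  have mD : ∀ y, y ∈ D ↔ ∃ g : G, g * d * g⁻¹ = y := fun y => isConj_iff
  have hconj : ∀ g : G, ∀ x ∈ D, g * x * g⁻¹ ∈ D := by
    intro g x hx
    obtain ⟨k, rfl⟩ := (mD x).1 hx
    exact (mD _).2 ⟨g * k, by group⟩
  have hsq : ∀ x ∈ D, x * x = 1 := by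
    intro x hx
    obtain ⟨k, rfl⟩ := (mD x).1 hx
    rw [← conj_mul', hd]; group
  have htr : ∀ x ∈ D, ∀ y ∈ D, ∃ g : G, g * x * g⁻¹ = y := by
    intro x hx y hy
    obtain ⟨k, rfl⟩ := (mD x).1 hx
    obtain ⟨l, rfl⟩ := (mD y).1 hy
    exact ⟨l * k⁻¹, by group⟩
  have hpt : ∀ x ∈ D, Pt 1 D x := by
    intro x hx
    obtain ⟨k, rfl⟩ := (mD x).1 hx
    exact hp.conj hconj k
  have hcard : ∀ x ∈ D, (C D x).ncard = 3510 := by
    intro x hx
    obtain ⟨g, rfl⟩ := (mD x).1 hx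
    rw [← hc]
    have hC : C D (g * d * g⁻¹) = (MulAut.conj g) '' (C D d) := by
      ext y
      constructor
      · rintro ⟨h1, h2, h3⟩
        refine ⟨g⁻¹ * y * g⁻¹⁻¹, ⟨hconj _ _ h1, ?_, ?_⟩, ?_⟩
        · intro e; apply h2; rw [← e]; group
        · have := (Commute.conj_iff g⁻¹).2 h3
          have e : g⁻¹ * (g * d * g⁻¹) * g⁻¹⁻¹ = d := by group
          rwa [e] at this
        · show g * (g⁻¹ * y * g⁻¹⁻¹) * g⁻¹ = y
          group
      · rintro ⟨z, ⟨h1, h2, h3⟩, rfl⟩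
        refine ⟨hconj g z h1, ?_, (Commute.conj_iff g).2 h3⟩
        intro e
        exact h2 (mul_left_cancel (mul_right_cancel (show g * z * g⁻¹ = g * d * g⁻¹ from e)))
    rw [hC]
    exact Set.ncard_image_of_injective _ (MulAut.conj g).injective
  have hdD : d ∈ D := (mD d).2 ⟨1, by group⟩
  obtain ⟨h1, h2, h4⟩ := all_two hconj hsq htr hpt hcard hdD
  refine ⟨h1, ?_, ?_, h2, hcard⟩
  · rw [eq_top_iff]
    intro g _
    obtain ⟨k, hk, hkd⟩ := h1.lev.trans hdD (hconj g d hdD)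
    have hc : Commute (k⁻¹ * g) d := by
      have e1 : k⁻¹ * (g * d * g⁻¹) * k = d := by rw [← hkd]; group
      show k⁻¹ * g * d = d * (k⁻¹ * g)
      calc k⁻¹ * g * d = (k⁻¹ * (g * d * g⁻¹) * k) * (k⁻¹ * g) := by group
        _ = d * (k⁻¹ * g) := by rw [e1]
    obtain ⟨j, hj, hjc⟩ := hp.gen _ hc
    have hj' : j ∈ Subgroup.closure D := Subgroup.closure_mono (C_subset D d) hj
    have e2 : g = k * (k⁻¹ * g) := by group
    rw [e2]
    apply Subgroup.mul_mem _ hk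
    rcases hjc with h5 | h5
    · rw [h5]; exact hj'
    · rw [h5]; exact Subgroup.mul_mem _ hj' (Subgroup.subset_closure hdD)
  · rw [Subgroup.eq_bot_iff_forall]
    intro z hz
    apply h4
    intro y _
    exact (Subgroup.mem_center_iff.1 hz y).symm

end H91.FiMain
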