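import Cfsg.Agent.Lib.H91.FiMain
import Cfsg.Agent.Lib.H91.FYMain
import Cfsg.Agent.Lib.H91.FY23
import Cfsg.Agent.Lib.H91.FYUniq22
import Cfsg.Agent.Lib.H93.Ex.Final

/-!
A class isomorphic to the standard class of `Fi22`, `Fi23` is of type `M(22)`, `M(23)`.
-/

set_option autoImplicit false

namespace H91.FiType
open Cfsg H92.Tri H92.Lev H92.Geo Cfsg.Spor

theorem trans_image {A B C : Type*} [Group A] [Group B] [Group C] (φ : A ≃* B) (ψ : A ≃* C) (S : Set A) :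
    (φ.symm.trans ψ) '' (φ '' S) = ψ '' S := by
  ext z
  constructor
  · rintro ⟨_, ⟨x, hx, rfl⟩, rfl⟩
    exact ⟨x, hx, by simp⟩
  · rintro ⟨x, hx, rfl⟩
    exact ⟨φ x, ⟨x, hx, rfl⟩, by simp⟩

theorem type22 {G : Type*} [Group G] {D : Set G} (φ : Spor.Fi22 ≃* G)
    (h : D = φ '' (conjugatesOf (PresentedGroup.of Fi22.Gen.a : Spor.Fi22))) : IsOfTypeM22 G D := by
  obtain ⟨X, i1, i2, E, h1, h2, h3⟩ := H93.Ex.main.1
  have h1' : IsThreeTranspositionGroup E := by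
    refine ⟨h1.1, ?_, h1.2.2⟩
    obtain ⟨d, hd, hE⟩ := h1.2.1
    intro g x hx
    rw [hE] at hx ⊢
    obtain ⟨k, rfl⟩ := isConj_iff.1 (show IsConj d x from hx)
    exact isConj_iff.2 ⟨g * k, by group⟩
  obtain ⟨ψ, hψ⟩ := H91.FY.uniq22 h1' h3.1 h3
  have h4 := H93.Ex.type22_congr (ψ.symm.trans φ) h3
  rw [hψ, trans_image, ← h] at h4
  exact h4

theorem type23 {G : Type*} [Group G] {D : Set G} (φ : Spor.Fi23 ≃* G)
    (h : D = φ '' (conjugatesOf (PresentedGroup.of Fi23.Gen.a : Spor.Fi23))) : IsOfTypeM23 G D := by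
  obtain ⟨X, i1, i2, E, h1, h2, h3⟩ := H93.Ex.main.2.1
  have h1' : IsThreeTranspositionGroup E := by
    refine ⟨h1.1, ?_, h1.2.2⟩
    obtain ⟨d, hd, hE⟩ := h1.2.1
    intro g x hx
    rw [hE] at hx ⊢
    obtain ⟨k, rfl⟩ := isConj_iff.1 (show IsConj d x from hx)
    exact isConj_iff.2 ⟨g * k, by group⟩
  obtain ⟨ψ, hψ⟩ := H91.FY.uniq23 h1' h3.1 h3
  have h4 := H93.Ex.type23_congr (ψ.symm.trans φ) h3
  rw [hψ, trans_image, ← h] at h4
  exact h4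

end H91.FiType
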