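import Cfsg.Agent.Lib.H91.FiCov
import Cfsg.Agent.Lib.H91.FiMain1
import Cfsg.Agent.Lib.H91.FY23
import Cfsg.Agent.Lib.H91.FiType
import Cfsg.Agent.Lib.H19.VCovH
import Cfsg.Agent.Lib.H92.Expl22

/-!
Groups with an involution whose centralizer is a double cover of `Fi22`, not weakly closed: recognition of `Fi23`.
-/

set_option autoImplicit false
set_option linter.dupNamespace false
set_option linter.unusedSectionVars false
set_option linter.style.haveILetI false
set_option linter.unusedVariables false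
open Cfsg

namespace H91.FiFin1
open H92.Tri H92.Lev H92.Geo

universe u v

/-- the covering data -/
theorem cov2 {G : Type u} [Group G] [Finite G] (d : G) (hd : orderOf d = 2) (C0 : Subgroup G) (hC : C0 = Subgroup.centralizer ({d} : Set G))
    [hzn : ((Subgroup.zpowers d).subgroupOf C0).Normal]
    {E : Set (↥C0 ⧸ (Subgroup.zpowers d).subgroupOf C0)} (hLG : LG 1 E) (hcard : E.ncard = 3510) (hgen : Subgroup.closure E = ⊤)
    (hzen : Subgroup.center (↥C0 ⧸ (Subgroup.zpowers d).subgroupOf C0) = ⊥) (hdC : d ∈ C0) :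
    H19.VCovA.Cov2 (QuotientGroup.mk' ((Subgroup.zpowers d).subgroupOf C0)) (⟨d, hdC⟩ : ↥C0) E := by
  have hdd : d * d = 1 := by
    have : d ^ 2 = 1 := by rw [← hd]; exact pow_orderOf_eq_one d
    rw [← pow_two]; exact this
  have hd1 : d ≠ 1 := by
    intro h; rw [h, orderOf_one] at hd; exact absurd hd (by norm_num)
  have hk : ∀ c : ↥C0, QuotientGroup.mk' ((Subgroup.zpowers d).subgroupOf C0) c = 1 → c = 1 ∨ c = (⟨d, hdC⟩ : ↥C0) := by
    intro c hc
    have h2 : c ∈ (Subgroup.zpowers d).subgroupOf C0 := (QuotientGroup.eq_one_iff c).1 hc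
    rw [Subgroup.mem_subgroupOf] at h2
    rcases H19.VCovE.mem_zp hdd h2 with h3 | h3
    · exact Or.inl (Subtype.ext h3)
    · exact Or.inr (Subtype.ext h3)
  refine ⟨hLG, hcard, hgen, hzen, QuotientGroup.mk'_surjective _, ?_, Subtype.ext hdd, hk, ?_, ?_⟩
  · intro c
    apply Subtype.ext
    have h5 : (c : G) ∈ Subgroup.centralizer ({d} : Set G) := by rw [← hC]; exact c.2
    exact Subgroup.mem_centralizer_singleton_iff.1 h5
  · intro h
    exact hd1 (congrArg Subtype.val h)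
  · apply (QuotientGroup.eq_one_iff (⟨d, hdC⟩ : ↥C0)).2
    rw [Subgroup.mem_subgroupOf]; exact Subgroup.mem_zpowers d

/-- the two covering structures -/
theorem cov_of {C : Type u} {Q : Type v} [Group C] [Group Q] {π : C →* Q} {z : C} {E : Set Q} (H : H19.VCovA.Cov2 π z E) : H91.FiCov.Cov π z E :=
  ⟨H.surj, H.ker, H.pz, H.cent, H.sq, H.ne, H.lg, H.card, H.gen, H.cen⟩

theorem fin_of {G : Type u} [Group G] [Finite G] (d : G) (hd : orderOf d = 2) (C0 : Subgroup G) (hC : C0 = Subgroup.centralizer ({d} : Set G))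
    (hq : Cfsg.IsQuasisimple ↥C0) {Q : Type v} [Group Q] [Finite Q] {π : ↥C0 →* Q} {z : ↥C0} (hzd : (z : G) = d) {E : Set Q} (H : H19.VCovA.Cov2 π z E)
    {x1 : ↥C0} (hx1 : π x1 ∈ E) (hD : ∀ y : ↥C0, (IsConj d (y : G) ↔ (y : G) = d ∨ y ∈ H91.FiCov.D x1)) :
    IsThreeTranspositionClass (conjugatesOf d) ∧ ∃ φ : Spor.Fi23 ≃* G, conjugatesOf d = φ '' (conjugatesOf (PresentedGroup.of Spor.Fi23.Gen.a : Spor.Fi23)) := by
  have hdd : d * d = 1 := by
    have : d ^ 2 = 1 := by rw [← hd]; exact pow_orderOf_eq_one d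
    rw [← pow_two]; exact this
  have hperf : commutator ↥C0 = ⊤ := Group.isPerfect_def.1 hq.1
  obtain ⟨hp, hc⟩ := H91.FiCov.pt1 d C0 hC hperf hzd (cov_of H) hx1 hD
  obtain ⟨h1, h2, h3, h4, h5⟩ := H91.FiMain.main_two d hdd hp hc
  refine ⟨⟨H92.Expl23.set_of_tri h1.lev.tri ?_, ⟨d, IsConj.refl d, rfl⟩, h2⟩, H91.FY.main23 h1 h2 h3 h5⟩
  intro hh
  have h6 : d = 1 := (isConj_one_right.1 (IsConj.symm (show IsConj d 1 from hh)))
  rw [h6, orderOf_one] at hd
  norm_num at hd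

/-- the transported class -/
theorem of_iso {Q : Type v} [Group Q] (e : Q ≃* Spor.Fi22) : ∃ E : Set Q, LG 1 E ∧ E.ncard = 3510 ∧ Subgroup.closure E = ⊤ ∧ Subgroup.center Q = ⊥ := by
  have hinj : Function.Injective (e.symm.toMonoidHom : Spor.Fi22 →* Q) := e.symm.injective
  refine ⟨(e.symm.toMonoidHom : Spor.Fi22 →* Q) '' H35.FiClass22.D, ?_, ?_, ?_, ?_⟩
  · exact H92.AutC.lg_image (e.symm.toMonoidHom : Spor.Fi22 →* Q) H92.Expl22.tri hinj.injOn H92.Expl22.lg
  · rw [Set.ncard_image_of_injective _ hinj]; exact H92.Expl22.card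
  · rw [← MonoidHom.map_closure, H92.Expl22.closure_D, ← MonoidHom.range_eq_map]
    exact MonoidHom.range_eq_top.2 e.symm.surjective
  · exact H93.Ex.center_bot_of_iso e.symm H92.Expl22.center

/-- recognition, with the quotient carrying a class as in `Fi22` -/
theorem fin_two {G : Type u} [Group G] [Finite G] (d : G) (hd : orderOf d = 2) (C0 : Subgroup G) (hC : C0 = Subgroup.centralizer ({d} : Set G))
    (hq : Cfsg.IsQuasisimple ↥C0) [hzn : ((Subgroup.zpowers d).subgroupOf C0).Normal]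
    {E : Set (↥C0 ⧸ (Subgroup.zpowers d).subgroupOf C0)} (hLG : LG 1 E) (hcard : E.ncard = 3510) (hgen : Subgroup.closure E = ⊤)
    (hzen : Subgroup.center (↥C0 ⧸ (Subgroup.zpowers d).subgroupOf C0) = ⊥) (hnwc : ∃ g : G, g * d * g⁻¹ ∈ C0 ∧ g * d * g⁻¹ ≠ d) :
    IsThreeTranspositionClass (conjugatesOf d) ∧ ∃ φ : Spor.Fi23 ≃* G, conjugatesOf d = φ '' (conjugatesOf (PresentedGroup.of Spor.Fi23.Gen.a : Spor.Fi23)) := by
  have hdC : d ∈ C0 := by rw [hC, Subgroup.mem_centralizer_singleton_iff]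
  have H := cov2 d hd C0 hC hLG hcard hgen hzen hdC
  have hperf : commutator ↥C0 = ⊤ := Group.isPerfect_def.1 hq.1
  obtain ⟨x1, hx1, hD⟩ := H19.VCovH.conj_iff hd hC (z := (⟨d, hdC⟩ : ↥C0)) rfl H hperf hnwc
  exact fin_of d hd C0 hC hq (z := (⟨d, hdC⟩ : ↥C0)) rfl H hx1 hD

end H91.FiFin1
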