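import Cfsg.Agent.Lib.H91.FischerSp

/-!
The Fischer space of a 3-transposition group.
-/

set_option autoImplicit false

namespace H91.FischerGr

open Cfsg Cfsg.LineSystem H91.FischerSp

section model

variable {X Y : Type*} {L : Set (Set X)} {M : Set (Set Y)}

/-- recognising a plane from a parametrisation -/
theorem iso_of_model (hM : PL3 M) (h : PL3 L) (p : Y → X) (hinj : Function.Injective p)
    (hT : ∀ u v w, Tri M u v w → Tri L (p u) (p v) (p w))
    (hN : ∀ u v, u ≠ v → (∀ w, ¬ Tri M u v w) → ∀ w, ¬ Tri L (p u) (p v) w) {S : Set X} (hS : S ⊆ Set.range p)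
    (hgen : ∀ T, IsSubspace L T → S ⊆ T → Set.range p ⊆ T) : Isomorphic (restrict L (span L S)) M := by
  have hthird : ∀ u v w, Tri L (p u) (p v) w → ∃ w', w = p w' ∧ Tri M u v w' := by
    intro u v w hw
    have huv : u ≠ v := fun h => hw.1 (congrArg p h)
    by_cases hex : ∃ w', Tri M u v w'
    · obtain ⟨w', hw'⟩ := hex
      exact ⟨w', h.uniq hw (hT _ _ _ hw'), hw'⟩
    · push Not at hex
      exact absurd hw (hN u v huv hex w)
  have hsub : IsSubspace L (Set.range p) := by
    rintro l hl _ ⟨u, rfl⟩ _ ⟨v, rfl⟩ huv hu hv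
    obtain ⟨z, hz, rfl⟩ := h.third hl hu hv huv
    obtain ⟨w', rfl, -⟩ := hthird u v z hz
    intro x hx
    simp only [Set.mem_insert_iff, Set.mem_singleton_iff] at hx
    rcases hx with rfl | rfl | rfl
    · exact ⟨u, rfl⟩
    · exact ⟨v, rfl⟩
    · exact ⟨w', rfl⟩
  have hspan : span L S = Set.range p :=
    Set.Subset.antisymm (span_le hS hsub) (hgen _ (subspace_span _) (subset_span _))
  rw [hspan]
  let e := (Equiv.ofInjective p hinj).symm
  have he : ∀ y, e ⟨p y, ⟨y, rfl⟩⟩ = y := fun y => by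
    rw [Equiv.symm_apply_eq]; rfl
  have hiff : ∀ x y z : Set.range p, Tri (restrict L (Set.range p)) x y z ↔ Tri M (e x) (e y) (e z) := by
    rintro ⟨_, u, rfl⟩ ⟨_, v, rfl⟩ ⟨_, w, rfl⟩
    rw [tri_restrict, he, he, he]
    constructor
    · intro ht
      obtain ⟨w', hw', ht'⟩ := hthird u v _ ht
      rw [hinj hw']; exact ht'
    · exact hT u v w
  have hR : PL3 (restrict L (Set.range p)) := by
    constructor
    · rintro _ ⟨l, hl, hlS, rfl⟩ _ ⟨m, hm, hmS, rfl⟩ x y hxy hx hy hx' hy'
      have : l = m := h.pl l hl m hm x y (fun h => hxy (Subtype.ext h)) hx hy hx' hy'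
      rw [this]
    · rintro _ ⟨l, hl, hlS, rfl⟩
      rw [← h.three l hl]
      have : (fun x : Set.range p => (x : X)) '' {x : Set.range p | (x : X) ∈ l} = l := by
        ext w
        constructor
        · rintro ⟨x, hx, rfl⟩; exact hx
        · intro hw; exact ⟨⟨w, hlS hw⟩, hw, rfl⟩
      conv_rhs => rw [← this]
      exact (Set.ncard_image_of_injective _ Subtype.val_injective).symm
  refine ⟨e, fun l => ?_⟩
  constructor
  · intro hl
    obtain ⟨a, b, c, ht, rfl⟩ := hR.exists_tri hl
    rw [Set.image_insert_eq, Set.image_insert_eq, Set.image_singleton]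
    exact ((hiff a b c).1 ht).2.2.2
  · intro hl
    obtain ⟨a, b, c, ht, habc⟩ := hM.exists_tri hl
    have h1 : l = e.symm '' {a, b, c} := by
      rw [← habc, ← Set.image_comp]; simp
    rw [h1, Set.image_insert_eq, Set.image_insert_eq, Set.image_singleton]
    have h2 := (hiff (e.symm a) (e.symm b) (e.symm c)).2 (by
      rw [Equiv.apply_symm_apply, Equiv.apply_symm_apply, Equiv.apply_symm_apply]; exact ht)
    exact h2.2.2.2

/-- a triple is a permutation of another -/
def PermOf {n : ℕ} (t : Fin n × Fin n × Fin n) (i j k : Fin n) : Bool :=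
  t == (i, j, k) || t == (i, k, j) || t == (j, i, k) || t == (j, k, i) || t == (k, i, j) || t == (k, j, i)

theorem tri_of_perm {n : ℕ} {f : Fin n → X} {t : Fin n × Fin n × Fin n} {i j k : Fin n}
    (h : Tri L (f t.1) (f t.2.1) (f t.2.2)) (hp : PermOf t i j k = true) : Tri L (f i) (f j) (f k) := by
  unfold PermOf at hp
  simp only [Bool.or_eq_true, beq_iff_eq] at hp
  rcases hp with ((((rfl | rfl) | rfl) | rfl) | rfl) | rfl
  · exact h
  · exact h.swap
  · exact h.swap'
  · exact h.rot.rot
  · exact h.rot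
  · exact h.rot.swap'

end model

section affine

/-- coordinates -/
def c9 (i : Fin 9) : Fin 2 → ZMod 3 := ![(i.val % 3 : ℕ), (i.val / 3 : ℕ)]

theorem c9_bij : Function.Bijective c9 := by decide +kernel

/-- the twelve lines -/
def base9 : List (Fin 9 × Fin 9 × Fin 9) :=
  [(0, 1, 2), (0, 3, 6), (1, 3, 8), (1, 6, 5), (2, 3, 7), (2, 6, 4), (2, 8, 5), (1, 7, 4), (6, 8, 7), (3, 5, 4),
    (0, 8, 4), (0, 5, 7)]

theorem base9_spec : ∀ i j k : Fin 9, c9 i + c9 j + c9 k = 0 → i ≠ j → ∃ t ∈ base9, PermOf t i j k = true := by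
  decide +kernel

theorem pl3_affine : PL3 affinePlaneThree := by
  have h3 : ∀ l ∈ affinePlaneThree, ∃ a b c, Tri affinePlaneThree a b c ∧ l = {a, b, c} := by
    rintro l ⟨v, w, hw, rfl⟩
    have hT : Tri affinePlaneThree v (v + w) (v + 2 • w) := by
      rw [tri_affine]
      constructor
      · funext i
        show v i + (v i + w i) + (v i + (2 • w) i) = 0
        rw [Pi.smul_apply]
        have : ∀ a b : ZMod 3, a + (a + b) + (a + (2 : ℕ) • b) = 0 := by decide
        exact this _ _
      · intro h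
        exact hw (left_eq_add.1 h)
    refine ⟨v, v + w, v + 2 • w, hT, ?_⟩
    ext x
    simp only [Set.mem_insert_iff, Set.mem_singleton_iff, Set.mem_ofPred_eq]
    constructor
    · rintro ⟨c, rfl⟩
      have : c = 0 ∨ c = 1 ∨ c = 2 := by revert c; decide
      rcases this with rfl | rfl | rfl
      · left; simp
      · right; left; simp
      · right; right
        congr 1
        funext i
        have : ∀ a : ZMod 3, 2 * a = (2 : ℕ) • a := by decide
        exact this _
    · rintro (rfl | rfl | rfl)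
      · exact ⟨0, by simp⟩
      · exact ⟨1, by simp⟩
      · refine ⟨2, ?_⟩
        congr 1
        funext i
        have : ∀ a : ZMod 3, (2 : ℕ) • a = 2 * a := by decide
        exact this _
  constructor
  · intro l hl m hm x y hxy hxl hyl hxm hym
    have key : ∀ l ∈ affinePlaneThree, x ∈ l → y ∈ l → l = {x, y, -(x + y)} := by
      intro l hl hx hy
      obtain ⟨a, b, c, ht, rfl⟩ := h3 l hl
      have e : ∀ p q r, Tri affinePlaneThree p q r → r = -(p + q) := by
        intro p q r h
        rw [tri_affine] at h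
        rw [eq_neg_iff_add_eq_zero, add_comm]; exact h.1
      have hs : ∀ p q r : Fin 2 → ZMod 3, Tri affinePlaneThree p q r → p = x → q = y →
          (∀ w, (w = a ∨ w = b ∨ w = c) ↔ (w = p ∨ w = q ∨ w = r)) → ({a, b, c} : Set (Fin 2 → ZMod 3)) = {x, y, -(x + y)} := by
        rintro p q r h1 rfl rfl h2
        rw [← e _ _ _ h1]
        ext w
        simp only [Set.mem_insert_iff, Set.mem_singleton_iff]
        exact h2 w
      simp only [Set.mem_insert_iff, Set.mem_singleton_iff] at hx hy
      rcases hx with hx | hx | hx <;> rcases hy with hy | hy | hy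
      · exact absurd (hx.trans hy.symm) hxy
      · exact hs _ _ _ ht hx.symm hy.symm (fun w => by tauto)
      · exact hs _ _ _ ht.swap hx.symm hy.symm (fun w => by tauto)
      · exact hs _ _ _ ht.swap' hx.symm hy.symm (fun w => by tauto)
      · exact absurd (hx.trans hy.symm) hxy
      · exact hs _ _ _ ht.rot hx.symm hy.symm (fun w => by tauto)
      · exact hs _ _ _ ht.rot.rot hx.symm hy.symm (fun w => by tauto)
      · exact hs _ _ _ ht.rot.swap' hx.symm hy.symm (fun w => by tauto)
      · exact absurd (hx.trans hy.symm) hxy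
    rw [key l hl hxl hyl, key m hm hxm hym]
  · intro l hl
    obtain ⟨a, b, c, ht, rfl⟩ := h3 l hl
    rw [Set.ncard_eq_three]
    exact ⟨a, b, c, ht.1, ht.2.1, ht.2.2.1, rfl⟩

end affine

section dual

/-- points of the dual affine plane -/
def c6 (i : Fin 6) : DualAffinePoint :=
  match i with
  | 0 => ⟨{0, 1}, by decide⟩
  | 1 => ⟨{1, 2}, by decide⟩
  | 2 => ⟨{2, 3}, by decide⟩
  | 3 => ⟨{0, 2}, by decide⟩
  | 4 => ⟨{1, 3}, by decide⟩
  | 5 => ⟨{0, 3}, by decide⟩

theorem c6_bij : Function.Bijective c6 := by decide +kernel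

/-- the four lines -/
def base6 : List (Fin 6 × Fin 6 × Fin 6) := [(0, 1, 3), (1, 2, 4), (0, 4, 5), (2, 3, 5)]

theorem base6_spec : ∀ i j k : Fin 6, tb (c6 i) (c6 j) (c6 k) = true → ∃ t ∈ base6, PermOf t i j k = true := by
  decide +kernel

/-- non-collinear pairs -/
theorem base6_non : ∀ i j : Fin 6, i ≠ j → (∀ w, tb (c6 i) (c6 j) w = false) →
    (i, j) ∈ [((0 : Fin 6), (2 : Fin 6)), (2, 0), (1, 5), (5, 1), (3, 4), (4, 3)] := by
  decide +kernel

theorem dual_line : ∀ i : Fin 4, ∃ a b c : DualAffinePoint, tb a b c = true ∧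
    ∀ w : DualAffinePoint, i ∉ w.val ↔ (w = a ∨ w = b ∨ w = c) := by
  decide +kernel

theorem dual_pl : ∀ i j : Fin 4, ∀ x y : DualAffinePoint, x ≠ y → i ∉ x.val → i ∉ y.val → j ∉ x.val → j ∉ y.val →
    i = j := by
  decide +kernel

theorem pl3_dual : PL3 dualAffinePlaneTwo := by
  constructor
  · rintro _ ⟨i, rfl⟩ _ ⟨j, rfl⟩ x y hxy h1 h2 h3 h4
    rw [dual_pl i j x y hxy h1 h2 h3 h4]
  · rintro _ ⟨i, rfl⟩
    obtain ⟨a, b, c, ht, hw⟩ := dual_line i
    have ht' := (tb_iff _ _ _).1 ht
    rw [Set.ncard_eq_three]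
    refine ⟨a, b, c, ht'.1, ht'.2.1, ht'.2.2.1, ?_⟩
    ext w
    simp only [Set.mem_insert_iff, Set.mem_singleton_iff, Set.mem_ofPred_eq]
    exact hw w

end dual

section grp

variable {G : Type*} [Group G] {D : Set G}

/-- basic facts -/
structure TD (D : Set G) : Prop where
  sq : ∀ x ∈ D, x * x = 1
  prod : ∀ x ∈ D, ∀ y ∈ D, x * y = y * x ∨ x * y * x = y * x * y
  conj : ∀ g, ∀ x ∈ D, g * x * g⁻¹ ∈ D

theorem td_of (hD : IsThreeTranspositionGroup D) : TD D := by
  obtain ⟨⟨h1, h2⟩, h3, -⟩ := hD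
  have hsq : ∀ x ∈ D, x * x = 1 := by
    intro x hx
    have := pow_orderOf_eq_one x
    rw [h1 x hx, pow_two] at this
    exact this
  refine ⟨hsq, ?_, h3⟩
  intro x hx y hy
  have hxi : x⁻¹ = x := by rw [inv_eq_iff_mul_eq_one]; exact hsq x hx
  have hyi : y⁻¹ = y := by rw [inv_eq_iff_mul_eq_one]; exact hsq y hy
  rcases h2 x hx y hy with h | h
  · left
    rw [pow_two] at h
    have : (x * y)⁻¹ = x * y := by rw [inv_eq_iff_mul_eq_one]; exact h
    rw [← this, mul_inv_rev, hxi, hyi]
  · right
    have h4 : (x * y * x) * (y * x * y) = 1 := by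
      rw [pow_succ, pow_two] at h
      rw [← h]; simp only [mul_assoc]
    have h5 : (x * y * x)⁻¹ = x * y * x := by
      rw [mul_inv_rev, mul_inv_rev, hxi, hyi, mul_assoc]
    rw [← h5, eq_comm, eq_inv_iff_mul_eq_one]
    have h6 : (y * x * y)⁻¹ = y * x * y := by
      rw [mul_inv_rev, mul_inv_rev, hxi, hyi, mul_assoc]
    rw [← h6, inv_mul_eq_one, ← h5, eq_comm, inv_eq_iff_mul_eq_one]
    exact h4

/-- collinear triples in the group -/
def TG (D : Set G) (x y z : G) : Prop := x ∈ D ∧ y ∈ D ∧ z ∈ D ∧ x * y ≠ y * x ∧ z = x * y * x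

variable (H : TD D)

include H in
theorem inv_eq {x : G} (hx : x ∈ D) : x⁻¹ = x := by rw [inv_eq_iff_mul_eq_one]; exact H.sq x hx

include H in
theorem mem_cj {x y : G} (hx : x ∈ D) (hy : y ∈ D) : y * x * y ∈ D := by
  have := H.conj y x hx
  rwa [inv_eq H hy] at this

include H in
theorem TG.mk' {x y : G} (hx : x ∈ D) (hy : y ∈ D) (h : x * y ≠ y * x) : TG D x y (x * y * x) :=
  ⟨hx, hy, mem_cj H hy hx, h, rfl⟩

include H in
theorem TG.swap' {x y z : G} (h : TG D x y z) : TG D y x z := by
  obtain ⟨h1, h2, h3, h4, h5⟩ := h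
  refine ⟨h2, h1, h3, fun h => h4 h.symm, ?_⟩
  rcases H.prod x h1 y h2 with h6 | h6
  · exact absurd h6 h4
  · rw [h5, h6]

include H in
theorem TG.swap {x y z : G} (h : TG D x y z) : TG D x z y := by
  obtain ⟨h1, h2, h3, h4, h5⟩ := h
  have hy : y = x * z * x := by
    rw [h5]
    calc y = (x * x) * y * (x * x) := by rw [H.sq x h1]; simp
      _ = _ := by group
  refine ⟨h1, h3, h2, ?_, hy⟩
  intro h
  apply h4
  have : y = z := by
    rw [hy, h, mul_assoc, H.sq x h1, mul_one]
  rw [this]; exact h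

theorem TG.conj (g : G) (hH : TD D) {x y z : G} (h : TG D x y z) : TG D (g * x * g⁻¹) (g * y * g⁻¹) (g * z * g⁻¹) := by
  obtain ⟨h1, h2, h3, h4, h5⟩ := h
  refine ⟨hH.conj g x h1, hH.conj g y h2, hH.conj g z h3, ?_, ?_⟩
  · intro h
    apply h4
    have : g * (x * y) * g⁻¹ = g * (y * x) * g⁻¹ := by
      calc _ = (g * x * g⁻¹) * (g * y * g⁻¹) := by group
        _ = (g * y * g⁻¹) * (g * x * g⁻¹) := h
        _ = _ := by group
    exact mul_left_cancel (mul_right_cancel this)
  · rw [h5]; group

include H in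
/-- the line system and `TG` -/
theorem tri_iff (x y z : D) : Tri (threeTranspositionLines D) x y z ↔ TG D x y z := by
  have hmem : ∀ x y : D, ¬ Commute (x : G) y → ∀ w : D, TG D x y w →
      ({z : D | (z : G) = x ∨ (z : G) = y ∨ (z : G) = (y : G) * (x : G) * (y : G)⁻¹} : Set D) = {x, y, w} := by
    intro x y hxy w hw
    ext v
    simp only [Set.mem_insert_iff, Set.mem_singleton_iff, Set.mem_ofPred_eq]
    have h1 : (w : G) = (y : G) * (x : G) * (y : G)⁻¹ := by
      have := (hw.swap' H).2.2.2.2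
      rw [this, inv_eq H y.2]
    rw [← h1, Subtype.ext_iff, Subtype.ext_iff, Subtype.ext_iff]
  constructor
  · rintro ⟨h1, h2, h3, a, b, hab, he⟩
    have hab' : (a : G) * b ≠ b * a := hab
    have hc : TG D a b (a * b * a) := TG.mk' H a.2 b.2 hab'
    set c : D := ⟨a * b * a, hc.2.2.1⟩ with hcd
    have he2 := he.trans (hmem a b hab c hc)
    have hx : x ∈ ({a, b, c} : Set D) := by rw [← he2]; simp
    have hy : y ∈ ({a, b, c} : Set D) := by rw [← he2]; simp
    have hz : z ∈ ({a, b, c} : Set D) := by rw [← he2]; simp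
    simp only [Set.mem_insert_iff, Set.mem_singleton_iff] at hx hy hz
    have t1 : TG D a b c := hc
    have t2 : TG D a c b := t1.swap H
    have t3 : TG D b a c := t1.swap' H
    have t4 : TG D b c a := t3.swap H
    have t5 : TG D c a b := t2.swap' H
    have t6 : TG D c b a := t4.swap' H
    rcases hx with rfl | rfl | rfl <;> rcases hy with rfl | rfl | rfl <;> rcases hz with rfl | rfl | rfl <;>
      first
      | exact absurd rfl h1
      | exact absurd rfl h2
      | exact absurd rfl h3
      | exact t1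
      | exact t2
      | exact t3
      | exact t4
      | exact t5
      | exact t6
  · intro h
    have hcom : ¬ Commute (x : G) y := h.2.2.2.1
    refine ⟨?_, ?_, ?_, x, y, hcom, (hmem x y hcom z h).symm⟩
    · rintro rfl; exact h.2.2.2.1 rfl
    · rintro rfl; exact (h.swap H).2.2.2.1 rfl
    · rintro rfl
      exact ((h.swap' H).swap H).2.2.2.1 rfl

include H in
theorem pl3 : PL3 (threeTranspositionLines D) := by
  have h3 : ∀ l ∈ threeTranspositionLines D, ∃ a b c, Tri (threeTranspositionLines D) a b c ∧ l = {a, b, c} := by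
    rintro l ⟨a, b, hab, rfl⟩
    have hab' : (a : G) * b ≠ b * a := hab
    have hc : TG D a b (a * b * a) := TG.mk' H a.2 b.2 hab'
    refine ⟨a, b, ⟨a * b * a, hc.2.2.1⟩, (tri_iff H _ _ _).2 hc, ?_⟩
    ext v
    simp only [Set.mem_insert_iff, Set.mem_singleton_iff, Set.mem_ofPred_eq]
    have h1 : (a : G) * b * a = (b : G) * (a : G) * (b : G)⁻¹ := by
      have := (hc.swap' H).2.2.2.2
      rw [this, inv_eq H b.2]
    rw [← h1, Subtype.ext_iff, Subtype.ext_iff, Subtype.ext_iff]
  have huniq : ∀ x y z w : D, Tri (threeTranspositionLines D) x y z → Tri (threeTranspositionLines D) x y w → z = w := by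
    intro x y z w h1 h2
    rw [tri_iff H] at h1 h2
    exact Subtype.ext (h1.2.2.2.2.trans h2.2.2.2.2.symm)
  constructor
  · intro l hl m hm x y hxy hxl hyl hxm hym
    have key : ∀ l ∈ threeTranspositionLines D, x ∈ l → y ∈ l → ∃ z, Tri (threeTranspositionLines D) x y z ∧ l = {x, y, z} := by
      intro l hl hx hy
      obtain ⟨a, b, c, ht, rfl⟩ := h3 l hl
      have hs : ∀ p q r : D, Tri (threeTranspositionLines D) p q r → p = x → q = y →
          (∀ w, (w = a ∨ w = b ∨ w = c) ↔ (w = p ∨ w = q ∨ w = r)) →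
          ∃ z, Tri (threeTranspositionLines D) x y z ∧ ({a, b, c} : Set D) = {x, y, z} := by
        rintro p q r h1 rfl rfl h2
        refine ⟨r, h1, ?_⟩
        ext w
        simp only [Set.mem_insert_iff, Set.mem_singleton_iff]
        exact h2 w
      simp only [Set.mem_insert_iff, Set.mem_singleton_iff] at hx hy
      rcases hx with hx | hx | hx <;> rcases hy with hy | hy | hy
      · exact absurd (hx.trans hy.symm) hxy
      · exact hs _ _ _ ht hx.symm hy.symm (fun w => by tauto)
      · exact hs _ _ _ ht.swap hx.symm hy.symm (fun w => by tauto)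
      · exact hs _ _ _ ht.swap' hx.symm hy.symm (fun w => by tauto)
      · exact absurd (hx.trans hy.symm) hxy
      · exact hs _ _ _ ht.rot hx.symm hy.symm (fun w => by tauto)
      · exact hs _ _ _ ht.rot.rot hx.symm hy.symm (fun w => by tauto)
      · exact hs _ _ _ ht.rot.swap' hx.symm hy.symm (fun w => by tauto)
      · exact absurd (hx.trans hy.symm) hxy
    obtain ⟨z, hz, rfl⟩ := key l hl hxl hyl
    obtain ⟨w, hw, rfl⟩ := key m hm hxm hym
    rw [huniq x y z w hz hw]
  · intro l hl
    obtain ⟨a, b, c, ht, rfl⟩ := h3 l hl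
    rw [Set.ncard_eq_three]
    exact ⟨a, b, c, ht.1, ht.2.1, ht.2.2.1, rfl⟩

theorem cj_cj {a x : G} (ha : a * a = 1) : a * (a * x * a) * a = x := by
  calc a * (a * x * a) * a = (a * a) * x * (a * a) := by group
    _ = x := by rw [ha]; simp

include H in
/-- conjugation by an element of `D`, in the form `a x a` -/
theorem TG.cj {a : G} (ha : a ∈ D) {x y z : G} (h : TG D x y z) : TG D (a * x * a) (a * y * a) (a * z * a) := by
  have := TG.conj a H h
  rwa [inv_eq H ha] at this

include H in
/-- `TG x y z` gives `x z x = y` -/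
theorem TG.eq1 {x y z : G} (h : TG D x y z) : x * z * x = y := (TG.swap H h).2.2.2.2.symm

include H in
/-- `TG x y z` gives `x y x = z` -/
theorem TG.eq2 {x y z : G} (h : TG D x y z) : x * y * x = z := h.2.2.2.2.symm

include H in
/-- plane of the affine kind -/
theorem affine_case {a b c d e : D} (h1 : TG D a b c) (h2 : TG D a d e) (h3 : (b : G) * d ≠ d * b) (h4 : (b : G) * e ≠ e * b) :
    Isomorphic (restrict (threeTranspositionLines D) (span (threeTranspositionLines D) (({a, b, c} : Set D) ∪ {a, d, e})))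
      affinePlaneThree := by
  have t1 : TG D b d (b * d * b) := TG.mk' H b.2 d.2 h3
  have t2 : TG D b e (b * e * b) := TG.mk' H b.2 e.2 h4
  set f : D := ⟨_, t1.2.2.1⟩ with hf
  set g : D := ⟨_, t2.2.2.1⟩ with hg
  have hbdf : TG D b d f := t1
  have hbeg : TG D b e g := t2
  have s1 : (b : G) * b = 1 := H.sq b b.2
  have s2 : (a : G) * a = 1 := H.sq a a.2
  -- conj of `b d f` and `b e g` by `a`
  have hce : TG D c e (a * f * a) := by
    have := TG.cj H a.2 hbdf
    rwa [h1.eq2 H, h2.eq2 H] at this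
  have hcd : TG D c d (a * g * a) := by
    have := TG.cj H a.2 hbeg
    rwa [h1.eq2 H, h2.eq1 H] at this
  set i : D := ⟨_, hce.2.2.1⟩ with hi
  set h : D := ⟨_, hcd.2.2.1⟩ with hh
  have hcei : TG D c e i := hce
  have hcdh : TG D c d h := hcd
  have hbca : (b : G) * a * b = c := ((h1.swap' H).eq2 H)
  have hcab : (c : G) * a * c = b := (((h1.swap H).swap' H).eq2 H)
  have hcfg : TG D c f g := by
    have := TG.cj H b.2 h2
    rwa [hbca] at this
  have hbhi : TG D b h i := by
    have := TG.cj H c.2 h2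
    rwa [hcab, hcdh.eq2 H, hcei.eq2 H] at this
  have hdad : (d : G) * a * d = e := ((h2.swap' H).eq2 H)
  have hdbd : (d : G) * b * d = f := ((hbdf.swap' H).eq2 H)
  have hdcd : (d : G) * c * d = h := ((hcdh.swap' H).eq2 H)
  have hefh : TG D e f h := by
    have := TG.cj H d.2 h1
    rwa [hdad, hdbd, hdcd] at this
  have heae : (e : G) * a * e = d := (((h2.swap H).swap' H).eq2 H)
  have hebe : (e : G) * b * e = g := ((hbeg.swap' H).eq2 H)
  have hece : (e : G) * c * e = i := ((hcei.swap' H).eq2 H)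
  have hdgi : TG D d g i := by
    have := TG.cj H e.2 h1
    rwa [heae, hebe, hece] at this
  have hafi : TG D a f i := by
    refine ⟨a.2, f.2, i.2, ?_, rfl⟩
    -- conj of `c, d` by `b`
    have h5 := (TG.cj H b.2 hcdh).2.2.2.1
    have h6 : (b : G) * c * b = a := (((h1.swap' H).swap H).eq2 H)
    rw [h6] at h5
    exact h5
  have hagh : TG D a g h := by
    refine ⟨a.2, g.2, h.2, ?_, rfl⟩
    have h5 := (TG.cj H b.2 hcei).2.2.2.1
    have h6 : (b : G) * c * b = a := (((h1.swap' H).swap H).eq2 H)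
    rw [h6] at h5
    exact h5
  have hp3 := pl3 H
  let F : Fin 9 → D := ![a, b, c, d, i, g, e, h, f]
  have hbase : ∀ t ∈ base9, Tri (threeTranspositionLines D) (F t.1) (F t.2.1) (F t.2.2) := by
    intro t ht
    unfold base9 at ht
    simp only [List.mem_cons, List.not_mem_nil, or_false] at ht
    rw [tri_iff H]
    rcases ht with rfl | rfl | rfl | rfl | rfl | rfl | rfl | rfl | rfl | rfl | rfl | rfl
    · exact h1
    · exact h2
    · exact hbdf
    · exact hbeg
    · exact hcdh
    · exact hcei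
    · exact hcfg
    · exact hbhi
    · exact hefh
    · exact hdgi
    · exact hafi
    · exact hagh
  have hF : ∀ i j k : Fin 9, c9 i + c9 j + c9 k = 0 → i ≠ j → Tri (threeTranspositionLines D) (F i) (F j) (F k) := by
    intro i j k hs hij
    obtain ⟨t, ht, hp⟩ := base9_spec i j k hs hij
    exact tri_of_perm (hbase t ht) hp
  have hex : ∀ i j : Fin 9, i ≠ j → ∃ k, c9 i + c9 j + c9 k = 0 := by decide +kernel
  have hFinj : Function.Injective F := by
    intro i j hij
    by_contra hne
    obtain ⟨k, hk⟩ := hex i j hne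
    exact (hF i j k hk hne).1 hij
  let E := Equiv.ofBijective c9 c9_bij
  refine iso_of_model (p := F ∘ E.symm) pl3_affine hp3 (hFinj.comp E.symm.injective) ?_ ?_ ?_ ?_
  · intro u v w ht
    rw [tri_affine] at ht
    apply hF
    · have e1 : ∀ u, c9 (E.symm u) = u := fun u => E.apply_symm_apply u
      rw [e1, e1, e1]; exact ht.1
    · exact fun h => ht.2 (E.symm.injective h)
  · intro u v huv hn
    exfalso
    apply hn (-(u + v))
    rw [tri_affine]
    exact ⟨by abel, huv⟩
  · intro x hx
    have e1 : ∀ i : Fin 9, F i ∈ Set.range (F ∘ E.symm) := fun i => ⟨E i, by simp⟩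
    simp only [Set.mem_union, Set.mem_insert_iff, Set.mem_singleton_iff] at hx
    rcases hx with (rfl | rfl | rfl) | (rfl | rfl | rfl)
    · exact e1 0
    · exact e1 1
    · exact e1 2
    · exact e1 0
    · exact e1 3
    · exact e1 6
  · intro T hT hST
    have m0 : F 0 ∈ T := hST (by simp [F])
    have m1 : F 1 ∈ T := hST (by simp [F])
    have m2 : F 2 ∈ T := hST (by simp [F])
    have m3 : F 3 ∈ T := hST (by simp [F])
    have m6 : F 6 ∈ T := hST (by simp [F])
    have m8 : F 8 ∈ T := tri_mem hT m1 m3 (hF 1 3 8 (by decide +kernel) (by decide))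
    have m5 : F 5 ∈ T := tri_mem hT m1 m6 (hF 1 6 5 (by decide +kernel) (by decide))
    have m7 : F 7 ∈ T := tri_mem hT m2 m3 (hF 2 3 7 (by decide +kernel) (by decide))
    have m4 : F 4 ∈ T := tri_mem hT m2 m6 (hF 2 6 4 (by decide +kernel) (by decide))
    rintro _ ⟨u, rfl⟩
    show F (E.symm u) ∈ T
    generalize E.symm u = k
    fin_cases k
    · exact m0
    · exact m1
    · exact m2
    · exact m3
    · exact m4
    · exact m5
    · exact m6
    · exact m7
    · exact m8

include H in
/-- plane of the dual affine kind -/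
theorem dual_case {a b c d e : D} (h1 : TG D a b c) (h2 : TG D a d e) (h3 : (b : G) * d = d * b) (hbd : b ≠ d) :
    Isomorphic (restrict (threeTranspositionLines D) (span (threeTranspositionLines D) (({a, b, c} : Set D) ∪ {a, d, e})))
      dualAffinePlaneTwo := by
  have hbd' : (b : G) ≠ d := fun h => hbd (Subtype.ext h)
  have hbe : (b : G) * e ≠ e * b := by
    intro h
    -- `a = d e d`
    have h5 : (d : G) * e * d = a := (((h2.swap' H).swap H).eq2 H)
    apply h1.2.2.2.1
    rw [← h5]
    calc (d : G) * e * d * b = d * e * (d * b) := by group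
      _ = d * (e * b) * d := by rw [← h3]; group
      _ = (d * b) * e * d := by rw [← h]; group
      _ = b * (d * e * d) := by rw [← h3]; group
  have hbef : TG D b e (b * e * b) := TG.mk' H b.2 e.2 hbe
  set f : D := ⟨_, hbef.2.2.1⟩ with hf
  have hbef' : TG D b e f := hbef
  have hbac : TG D b a c := h1.swap' H
  have hdc : (d : G) * c ≠ c * d := by
    intro h
    have h5 : (b : G) * c * b = a := (hbac.swap H).eq2 H
    apply h2.2.2.2.1
    rw [← h5]
    calc (b : G) * c * b * d = b * c * (b * d) := by group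
      _ = b * (c * d) * b := by rw [h3]; group
      _ = (b * d) * c * b := by rw [← h]; group
      _ = d * (b * c * b) := by rw [h3]; group
  have hada : (d : G) * a * d = e := ((h2.swap' H).eq2 H)
  have hdcf : TG D d c f := by
    refine ⟨d.2, c.2, f.2, hdc, ?_⟩
    show (b : G) * e * b = d * c * d
    rw [← hada, ← hbac.eq2 H]
    calc (b : G) * (d * a * d) * b = (b * d) * a * (d * b) := by group
      _ = (d * b) * a * (b * d) := by rw [h3]
      _ = _ := by group
  have hp3 := pl3 H
  let F : Fin 6 → D := ![b, a, d, c, e, f]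
  have hbase : ∀ t ∈ base6, Tri (threeTranspositionLines D) (F t.1) (F t.2.1) (F t.2.2) := by
    intro t ht
    unfold base6 at ht
    simp only [List.mem_cons, List.not_mem_nil, or_false] at ht
    rw [tri_iff H]
    rcases ht with rfl | rfl | rfl | rfl
    · exact hbac
    · exact h2
    · exact hbef'
    · exact hdcf
  have hF : ∀ i j k : Fin 6, tb (c6 i) (c6 j) (c6 k) = true → Tri (threeTranspositionLines D) (F i) (F j) (F k) := by
    intro i j k hs
    obtain ⟨t, ht, hp⟩ := base6_spec i j k hs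
    exact tri_of_perm (hbase t ht) hp
  -- commuting pairs
  have k1 : (b : G) * d = d * b := h3
  have k2 : (c : G) * e = e * c := by
    rw [← h1.eq2 H, ← h2.eq2 H]
    calc (a : G) * b * a * (a * d * a) = a * b * (a * a) * d * a := by group
      _ = a * (b * d) * a := by rw [H.sq a a.2]; group
      _ = a * d * (a * a) * b * a := by rw [h3, H.sq a a.2]; group
      _ = _ := by group
  have k3 : (a : G) * f = f * a := by
    have e1 : (f : G) = b * e * b := rfl
    have e2 : (b : G) * a * b = c := hbac.eq2 H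
    have e3 : (a : G) * b = b * c := by
      rw [← e2]
      calc (a : G) * b = (b * b) * a * b := by rw [H.sq b b.2]; group
        _ = _ := by group
    have e4 : (b : G) * a = c * b := by
      rw [← e2]
      calc (b : G) * a = b * a * (b * b) := by rw [H.sq b b.2]; group
        _ = _ := by group
    rw [e1]
    calc (a : G) * (b * e * b) = (a * b) * e * b := by group
      _ = b * (c * e) * b := by rw [e3]; group
      _ = b * e * (c * b) := by rw [k2]; group
      _ = (b * e * b) * a := by rw [← e4]; group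
  have hne2 : c ≠ e := by
    intro h
    apply hbd
    apply Subtype.ext
    rw [← h1.eq1 H, ← h2.eq1 H, h]
  have hne3 : a ≠ f := by
    intro h
    apply hne2
    apply Subtype.ext
    have e1 : (f : G) = b * e * b := rfl
    have e2 : (b : G) * a * b = c := hbac.eq2 H
    rw [← e2, h, e1, cj_cj (H.sq b b.2)]
  have hnon : ∀ i j : Fin 6, i ≠ j → (∀ w, tb (c6 i) (c6 j) w = false) → F i ≠ F j ∧ ((F i : D) : G) * F j = F j * F i := by
    intro i j hij hw
    have := base6_non i j hij hw
    simp only [List.mem_cons, List.not_mem_nil, or_false, Prod.mk.injEq] at this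
    rcases this with ⟨rfl, rfl⟩ | ⟨rfl, rfl⟩ | ⟨rfl, rfl⟩ | ⟨rfl, rfl⟩ | ⟨rfl, rfl⟩ | ⟨rfl, rfl⟩
    · exact ⟨hbd, k1⟩
    · exact ⟨hbd.symm, k1.symm⟩
    · exact ⟨hne3, k3⟩
    · exact ⟨hne3.symm, k3.symm⟩
    · exact ⟨hne2, k2⟩
    · exact ⟨hne2.symm, k2.symm⟩
  let E := Equiv.ofBijective c6 c6_bij
  have e1 : ∀ u, c6 (E.symm u) = u := fun u => E.apply_symm_apply u
  have hFinj : Function.Injective F := by
    intro i j hij
    by_contra hne
    by_cases hw : ∀ w, tb (c6 i) (c6 j) w = false
    · exact (hnon i j hne hw).1 hij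
    · push Not at hw
      obtain ⟨w, hw⟩ := hw
      have hw' : tb (c6 i) (c6 j) w = true := by simpa using hw
      have := hF i j (E.symm w) (by rw [e1]; exact hw')
      exact this.1 hij
  refine iso_of_model (p := F ∘ E.symm) pl3_dual hp3 (hFinj.comp E.symm.injective) ?_ ?_ ?_ ?_
  · intro u v w ht
    apply hF
    rw [e1, e1, e1, tb_iff]; exact ht
  · intro u v huv hn w hw
    have h6 := hnon (E.symm u) (E.symm v) (fun h => huv (E.symm.injective h)) (by
      intro w
      rw [e1, e1]
      have := hn w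
      rw [← tb_iff] at this
      simpa using this)
    rw [tri_iff H] at hw
    exact hw.2.2.2.1 h6.2
  · intro x hx
    have e2 : ∀ i : Fin 6, F i ∈ Set.range (F ∘ E.symm) := fun i => ⟨E i, by simp⟩
    simp only [Set.mem_union, Set.mem_insert_iff, Set.mem_singleton_iff] at hx
    rcases hx with (rfl | rfl | rfl) | (rfl | rfl | rfl)
    · exact e2 1
    · exact e2 0
    · exact e2 3
    · exact e2 1
    · exact e2 2
    · exact e2 4
  · intro T hT hST
    have m0 : F 0 ∈ T := hST (by simp [F])
    have m1 : F 1 ∈ T := hST (by simp [F])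
    have m2 : F 2 ∈ T := hST (by simp [F])
    have m3 : F 3 ∈ T := hST (by simp [F])
    have m4 : F 4 ∈ T := hST (by simp [F])
    have m5 : F 5 ∈ T := tri_mem hT m0 m4 (hF 0 4 5 (by decide +kernel))
    rintro _ ⟨u, rfl⟩
    show F (E.symm u) ∈ T
    generalize E.symm u = k
    fin_cases k
    · exact m0
    · exact m1
    · exact m2
    · exact m3
    · exact m4
    · exact m5

include H in
theorem fischer : IsFischerSpace (threeTranspositionLines D) := by
  have hp3 := pl3 H
  refine ⟨hp3.pl, hp3.three, ?_⟩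
  rintro l hl m hm hlm ⟨a, hal, ham⟩
  obtain ⟨b, hbl, hba⟩ : ∃ b ∈ l, b ≠ a := by
    obtain ⟨x, y, z, ht, rfl⟩ := hp3.exists_tri hl
    by_cases h : x = a
    · exact ⟨y, by simp, by rw [← h]; exact ht.1.symm⟩
    · exact ⟨x, by simp, h⟩
  obtain ⟨d, hdm, hda⟩ : ∃ b ∈ m, b ≠ a := by
    obtain ⟨x, y, z, ht, rfl⟩ := hp3.exists_tri hm
    by_cases h : x = a
    · exact ⟨y, by simp, by rw [← h]; exact ht.1.symm⟩
    · exact ⟨x, by simp, h⟩
  obtain ⟨c, hc, rfl⟩ := hp3.third hl hal hbl hba.symm
  obtain ⟨e, he, rfl⟩ := hp3.third hm ham hdm hda.symm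
  have hc' := (tri_iff H _ _ _).1 hc
  have he' := (tri_iff H _ _ _).1 he
  have hs : ∀ x y z : D, ({x, y, z} : Set D) = {x, z, y} := by
    intro x y z; ext w; simp only [Set.mem_insert_iff, Set.mem_singleton_iff]; tauto
  have hne : ∀ x ∈ ({a, b, c} : Set D), x ≠ a → ∀ y ∈ ({a, d, e} : Set D), y ≠ a → x ≠ y := by
    rintro x hx hxa y hy hya rfl
    exact hlm (hp3.pl _ hl _ hm a x hxa.symm (by simp) hx (by simp) hy)
  have hca : c ≠ a := hc.2.1.symm
  have hea : e ≠ a := he.2.1.symm
  by_cases c1 : (b : G) * d = d * b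
  · exact Or.inl (dual_case H hc' he' c1 (hne b (by simp) hba d (by simp) hda))
  by_cases c2 : (b : G) * e = e * b
  · left
    rw [hs a d e]
    exact dual_case H hc' (he'.swap H) c2 (hne b (by simp) hba e (by simp) hea)
  exact Or.inr (affine_case H hc' he' c1 c2)

end grp

end H91.FischerGr
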