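import Mathlib
import Cfsg.Prelude.Def_FischerSpaces

/-!
Line systems with three points per line, and Fischer spaces.
-/

set_option autoImplicit false

namespace H91.FischerSp

open Cfsg Cfsg.LineSystem

variable {X : Type*} {L : Set (Set X)}

/-- three different points forming a line -/
def Tri (L : Set (Set X)) (x y z : X) : Prop := x ≠ y ∧ x ≠ z ∧ y ≠ z ∧ ({x, y, z} : Set X) ∈ L

theorem Tri.rot {x y z : X} (h : Tri L x y z) : Tri L y z x := by
  obtain ⟨h1, h2, h3, h4⟩ := h
  refine ⟨h3, h1.symm, h2.symm, ?_⟩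
  have : ({y, z, x} : Set X) = {x, y, z} := by
    ext w; simp only [Set.mem_insert_iff, Set.mem_singleton_iff]; tauto
  rw [this]; exact h4

theorem Tri.swap {x y z : X} (h : Tri L x y z) : Tri L x z y := by
  obtain ⟨h1, h2, h3, h4⟩ := h
  refine ⟨h2, h1, h3.symm, ?_⟩
  have : ({x, z, y} : Set X) = {x, y, z} := by
    ext w; simp only [Set.mem_insert_iff, Set.mem_singleton_iff]; tauto
  rw [this]; exact h4

theorem Tri.swap' {x y z : X} (h : Tri L x y z) : Tri L y x z := h.rot.swap

/-- the two basic axioms -/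
structure PL3 (L : Set (Set X)) : Prop where
  pl : IsPartialLinear L
  three : ∀ l ∈ L, l.ncard = 3

theorem PL3.uniq (h : PL3 L) {x y z z' : X} (h1 : Tri L x y z) (h2 : Tri L x y z') : z = z' := by
  have h3 := h.pl _ h1.2.2.2 _ h2.2.2.2 x y h1.1 (by simp) (by simp) (by simp) (by simp)
  have h4 : z ∈ ({x, y, z'} : Set X) := by rw [← h3]; simp
  simp only [Set.mem_insert_iff, Set.mem_singleton_iff] at h4
  rcases h4 with h4 | h4 | h4
  · exact absurd h4.symm h1.2.1
  · exact absurd h4.symm h1.2.2.1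
  · exact h4

/-- the third point -/
theorem PL3.third (h : PL3 L) {l : Set X} (hl : l ∈ L) {x y : X} (hx : x ∈ l) (hy : y ∈ l) (hxy : x ≠ y) :
    ∃ z, Tri L x y z ∧ l = {x, y, z} := by
  obtain ⟨a, b, c, hab, hac, hbc, rfl⟩ := Set.ncard_eq_three.1 (h.three l hl)
  simp only [Set.mem_insert_iff, Set.mem_singleton_iff] at hx hy
  have key : ∀ p q r : X, p ≠ q → p ≠ r → q ≠ r → ({a, b, c} : Set X) = {p, q, r} →
      Tri L p q r ∧ ({a, b, c} : Set X) = {p, q, r} := by
    intro p q r h1 h2 h3 h4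
    refine ⟨⟨h1, h2, h3, ?_⟩, h4⟩
    rw [← h4]; exact hl
  have e : ∀ p q r : X, (∀ w, (w = a ∨ w = b ∨ w = c) ↔ (w = p ∨ w = q ∨ w = r)) →
      ({a, b, c} : Set X) = {p, q, r} := by
    intro p q r h
    ext w
    simp only [Set.mem_insert_iff, Set.mem_singleton_iff]
    exact h w
  rcases hx with rfl | rfl | rfl <;> rcases hy with rfl | rfl | rfl
  · exact absurd rfl hxy
  · exact ⟨c, key _ _ _ hab hac hbc (e _ _ _ (fun w => by tauto))⟩
  · exact ⟨b, key _ _ _ hac hab hbc.symm (e _ _ _ (fun w => by tauto))⟩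
  · exact ⟨c, key _ _ _ hab.symm hbc hac (e _ _ _ (fun w => by tauto))⟩
  · exact absurd rfl hxy
  · exact ⟨a, key _ _ _ hbc hab.symm hac.symm (e _ _ _ (fun w => by tauto))⟩
  · exact ⟨b, key _ _ _ hac.symm hbc.symm hab (e _ _ _ (fun w => by tauto))⟩
  · exact ⟨a, key _ _ _ hbc.symm hac.symm hab.symm (e _ _ _ (fun w => by tauto))⟩
  · exact absurd rfl hxy

theorem PL3.exists_tri (h : PL3 L) {l : Set X} (hl : l ∈ L) : ∃ a b c, Tri L a b c ∧ l = {a, b, c} := by
  obtain ⟨a, b, c, hab, hac, hbc, rfl⟩ := Set.ncard_eq_three.1 (h.three l hl)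
  exact ⟨a, b, c, ⟨hab, hac, hbc, hl⟩, rfl⟩

/-- `b'` is the image of `b` under `t(x)` -/
def Im (L : Set (Set X)) (x b b' : X) : Prop := Tri L x b b' ∨ (b' = b ∧ ∀ w, ¬ Tri L x b w)

theorem lineMap_of_tri (h : PL3 L) {x y z : X} (ht : Tri L x y z) : lineMap L x y = z := by
  have hex : ∃ z : X, z ≠ x ∧ z ≠ y ∧ x ≠ y ∧ ({x, y, z} : Set X) ∈ L :=
    ⟨z, ht.2.1.symm, ht.2.2.1.symm, ht.1, ht.2.2.2⟩
  unfold lineMap
  rw [dif_pos hex]
  have hs := hex.choose_spec
  exact h.uniq ⟨hs.2.2.1, hs.1.symm, hs.2.1.symm, hs.2.2.2⟩ ht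

theorem lineMap_of_not {x y : X} (hn : ∀ w, ¬ Tri L x y w) : lineMap L x y = y := by
  have hex : ¬ ∃ z : X, z ≠ x ∧ z ≠ y ∧ x ≠ y ∧ ({x, y, z} : Set X) ∈ L := by
    rintro ⟨z, h1, h2, h3, h4⟩
    exact hn z ⟨h3, h1.symm, h2.symm, h4⟩
  unfold lineMap
  rw [dif_neg hex]

theorem lineMap_im (h : PL3 L) (x y : X) : Im L x y (lineMap L x y) := by
  by_cases hex : ∃ w, Tri L x y w
  · obtain ⟨w, hw⟩ := hex
    left; rw [lineMap_of_tri h hw]; exact hw
  · push Not at hex
    right; exact ⟨lineMap_of_not hex, hex⟩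

theorem im_eq (h : PL3 L) {x y y' : X} (hi : Im L x y y') : lineMap L x y = y' := by
  rcases hi with h1 | ⟨rfl, h1⟩
  · exact lineMap_of_tri h h1
  · exact lineMap_of_not h1

theorem lineMap_self (x : X) : lineMap L x x = x := lineMap_of_not (fun _ h => h.1 rfl)

theorem lineMap_invol (h : PL3 L) (x y : X) : lineMap L x (lineMap L x y) = y := by
  rcases lineMap_im h x y with h1 | ⟨h1, h2⟩
  · exact lineMap_of_tri h h1.swap
  · rw [h1, h1]

/-- `t(x)` maps lines meeting a line through `x` to lines -/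
def PP (L : Set (Set X)) : Prop := ∀ x a b c d, Tri L x a d → Tri L a b c → x ≠ b → x ≠ c →
  ∃ b' c', Im L x b b' ∧ Im L x c c' ∧ Tri L d b' c'

theorem tri_iso {Y : Type*} {M : Set (Set Y)} {e : X ≃ Y} (he : IsIso L M e) (x y z : X) :
    Tri L x y z ↔ Tri M (e x) (e y) (e z) := by
  unfold Tri
  rw [he, Set.image_insert_eq, Set.image_insert_eq, Set.image_singleton, e.injective.ne_iff, e.injective.ne_iff,
    e.injective.ne_iff]

theorem PP_iso {Y : Type*} {M : Set (Set Y)} {e : X ≃ Y} (he : IsIso L M e) (h : PP M) : PP L := by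
  intro x a b c d h1 h2 h3 h4
  obtain ⟨b', c', hb, hc, hd⟩ := h (e x) (e a) (e b) (e c) (e d) ((tri_iso he _ _ _).1 h1) ((tri_iso he _ _ _).1 h2)
    (fun h => h3 (e.injective h)) (fun h => h4 (e.injective h))
  have key : ∀ b b', Im M (e x) (e b) b' → Im L x b (e.symm b') := by
    rintro b b' (hb | ⟨rfl, hb⟩)
    · left; rw [tri_iso he, Equiv.apply_symm_apply]; exact hb
    · right
      refine ⟨by rw [Equiv.symm_apply_apply], fun w hw => hb _ ((tri_iso he _ _ _).1 hw)⟩
  refine ⟨e.symm b', e.symm c', key b b' hb, key c c' hc, ?_⟩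
  rw [tri_iso he, Equiv.apply_symm_apply, Equiv.apply_symm_apply]; exact hd

/-- triples in a restricted system -/
theorem tri_restrict {S : Set X} (x y z : S) : Tri (restrict L S) x y z ↔ Tri L x y z := by
  unfold Tri
  have h1 : (({x, y, z} : Set S) ∈ restrict L S) ↔ ({(x : X), (y : X), (z : X)} : Set X) ∈ L := by
    constructor
    · rintro ⟨l, hl, hlS, he⟩
      have : l = {(x : X), (y : X), (z : X)} := by
        ext w
        constructor
        · intro hw
          have h2 : (⟨w, hlS hw⟩ : S) ∈ ({x, y, z} : Set S) := by rw [he]; exact hw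
          simp only [Set.mem_insert_iff, Set.mem_singleton_iff] at h2 ⊢
          rcases h2 with h2 | h2 | h2
          · left; exact congrArg Subtype.val h2
          · right; left; exact congrArg Subtype.val h2
          · right; right; exact congrArg Subtype.val h2
        · intro hw
          simp only [Set.mem_insert_iff, Set.mem_singleton_iff] at hw
          rcases hw with rfl | rfl | rfl
          · have : x ∈ ({x, y, z} : Set S) := by simp
            rw [he] at this; exact this
          · have : y ∈ ({x, y, z} : Set S) := by simp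
            rw [he] at this; exact this
          · have : z ∈ ({x, y, z} : Set S) := by simp
            rw [he] at this; exact this
      rw [← this]; exact hl
    · intro h
      refine ⟨_, h, ?_, ?_⟩
      · intro w hw
        simp only [Set.mem_insert_iff, Set.mem_singleton_iff] at hw
        rcases hw with rfl | rfl | rfl
        · exact x.2
        · exact y.2
        · exact z.2
      · ext w
        simp only [Set.mem_insert_iff, Set.mem_singleton_iff, Set.mem_ofPred_eq]
        rw [Subtype.ext_iff, Subtype.ext_iff, Subtype.ext_iff]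
  rw [h1, Ne, Ne, Ne, Subtype.ext_iff, Subtype.ext_iff, Subtype.ext_iff]

theorem subspace_span (S : Set X) : IsSubspace L (span L S) := by
  intro l hl x hx y hy hxy hxl hyl w hw T hT
  exact hT.2 l hl x (hx T hT) y (hy T hT) hxy hxl hyl hw

theorem subset_span (S : Set X) : S ⊆ span L S := fun _ hx _ hT => hT.1 hx

theorem span_le {S T : Set X} (h1 : S ⊆ T) (h2 : IsSubspace L T) : span L S ⊆ T := fun _ hx => hx T ⟨h1, h2⟩

theorem tri_mem {S : Set X} (hS : IsSubspace L S) {x y z : X} (hx : x ∈ S) (hy : y ∈ S) (h : Tri L x y z) : z ∈ S :=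
  hS _ h.2.2.2 x hx y hy h.1 (by simp) (by simp) (by simp)

/-- the affine plane of order three -/
theorem tri_affine (x y z : Fin 2 → ZMod 3) : Tri affinePlaneThree x y z ↔ x + y + z = 0 ∧ x ≠ y := by
  have h3 : ∀ a : Fin 2 → ZMod 3, a + a + a = 0 := by
    intro a; funext i
    have : ∀ a : ZMod 3, a + a + a = 0 := by decide
    exact this _
  constructor
  · rintro ⟨h1, h2, h4, v, w, hw, he⟩
    refine ⟨?_, h1⟩
    have hx : x ∈ ({x, y, z} : Set (Fin 2 → ZMod 3)) := by simp
    have hy : y ∈ ({x, y, z} : Set (Fin 2 → ZMod 3)) := by simp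
    have hz : z ∈ ({x, y, z} : Set (Fin 2 → ZMod 3)) := by simp
    rw [he] at hx hy hz
    obtain ⟨a, rfl⟩ := hx
    obtain ⟨b, rfl⟩ := hy
    obtain ⟨c, rfl⟩ := hz
    have hab : a ≠ b := by rintro rfl; exact h1 rfl
    have hac : a ≠ c := by rintro rfl; exact h2 rfl
    have hbc : b ≠ c := by rintro rfl; exact h4 rfl
    have key : ∀ a b c : ZMod 3, a ≠ b → a ≠ c → b ≠ c → a + b + c = 0 := by decide
    have hs : a + b + c = 0 := key a b c hab hac hbc
    have : v + a • w + (v + b • w) + (v + c • w) = (v + v + v) + (a + b + c) • w := by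
      rw [add_smul, add_smul]; abel
    rw [this, h3, hs, zero_smul, add_zero]
  · rintro ⟨h1, h2⟩
    have hz : z = -(x + y) := by
      rw [eq_neg_iff_add_eq_zero, add_comm]; exact h1
    have hneg : ∀ a : Fin 2 → ZMod 3, -a = a + a := by
      intro a
      rw [neg_eq_iff_add_eq_zero, ← add_assoc]; exact h3 a
    have n1 : x ≠ z := by
      intro h
      apply h2
      rw [← h] at hz
      have h5 : x + x + y = 0 := by
        rw [eq_neg_iff_add_eq_zero] at hz
        rw [add_assoc]; exact hz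
      have h6 := h3 x
      have : x + x + y = x + x + x := by rw [h5, h6]
      exact (add_left_cancel this).symm
    have n2 : y ≠ z := by
      intro h
      apply h2
      rw [← h] at hz
      have h5 : y + y + x = 0 := by
        rw [eq_neg_iff_add_eq_zero] at hz
        rw [add_assoc, add_comm y x]; exact hz
      have h6 := h3 y
      have : y + y + x = y + y + y := by rw [h5, h6]
      exact add_left_cancel this
    refine ⟨h2, n1, n2, x, y - x, sub_ne_zero.2 h2.symm, ?_⟩
    ext w
    simp only [Set.mem_insert_iff, Set.mem_singleton_iff, Set.mem_ofPred_eq]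
    constructor
    · rintro (rfl | rfl | rfl)
      · exact ⟨0, by simp⟩
      · exact ⟨1, by simp⟩
      · refine ⟨2, ?_⟩
        rw [hz]
        funext i
        have : ∀ a b : ZMod 3, -(a + b) = a + 2 * (b - a) := by decide
        exact this _ _
    · rintro ⟨c, rfl⟩
      have : c = 0 ∨ c = 1 ∨ c = 2 := by revert c; decide
      rcases this with rfl | rfl | rfl
      · left; simp
      · right; left; simp
      · right; right
        rw [hz]
        funext i
        have : ∀ a b : ZMod 3, a + 2 * (b - a) = -(a + b) := by decide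
        exact this _ _

theorem PP_affine : PP affinePlaneThree := by
  intro x a b c d h1 h2 h3 h4
  rw [tri_affine] at h1 h2
  have e1 : d = -(x + a) := by rw [eq_neg_iff_add_eq_zero, add_comm]; exact h1.1
  have e2 : c = -(a + b) := by rw [eq_neg_iff_add_eq_zero, add_comm]; exact h2.1
  refine ⟨-(x + b), -(x + c), Or.inl ?_, Or.inl ?_, ?_⟩
  · rw [tri_affine]; exact ⟨by abel, h3⟩
  · rw [tri_affine]; exact ⟨by abel, h4⟩
  · rw [tri_affine]
    constructor
    · rw [e1, e2]
      funext i
      have : ∀ x a b : ZMod 3, -(x + a) + -(x + b) + -(x + -(a + b)) = 0 := by decide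
      exact this _ _ _
    · rw [e1]
      intro h
      apply h2.2
      have := neg_injective h
      exact add_left_cancel this

/-- the dual affine plane of order two -/
theorem tri_dual (x y z : DualAffinePoint) : Tri dualAffinePlaneTwo x y z ↔
    (x ≠ y ∧ x ≠ z ∧ y ≠ z ∧ ∃ i : Fin 4, i ∉ x.val ∧ i ∉ y.val ∧ i ∉ z.val) := by
  unfold Tri
  constructor
  · rintro ⟨h1, h2, h3, i, hi⟩
    refine ⟨h1, h2, h3, i, ?_, ?_, ?_⟩
    · have : x ∈ ({x, y, z} : Set DualAffinePoint) := by simp
      rw [hi] at this; exact this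
    · have : y ∈ ({x, y, z} : Set DualAffinePoint) := by simp
      rw [hi] at this; exact this
    · have : z ∈ ({x, y, z} : Set DualAffinePoint) := by simp
      rw [hi] at this; exact this
  · rintro ⟨h1, h2, h3, i, hx, hy, hz⟩
    refine ⟨h1, h2, h3, i, ?_⟩
    have key : ∀ (i : Fin 4) (x y z : DualAffinePoint), x ≠ y → x ≠ z → y ≠ z → i ∉ x.val → i ∉ y.val → i ∉ z.val →
        ∀ w : DualAffinePoint, (w = x ∨ w = y ∨ w = z) ↔ i ∉ w.val := by decide +kernel
    ext w
    simp only [Set.mem_insert_iff, Set.mem_singleton_iff, Set.mem_ofPred_eq]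
    exact key i x y z h1 h2 h3 hx hy hz w

/-- boolean version -/
def tb (x y z : DualAffinePoint) : Bool := decide (x ≠ y ∧ x ≠ z ∧ y ≠ z ∧ ∃ i : Fin 4, i ∉ x.val ∧ i ∉ y.val ∧ i ∉ z.val)

/-- boolean version -/
def ib (x b b' : DualAffinePoint) : Bool := tb x b b' || (decide (b' = b) && decide (∀ w, tb x b w = false))

theorem tb_iff (x y z : DualAffinePoint) : tb x y z = true ↔ Tri dualAffinePlaneTwo x y z := by
  rw [tri_dual, tb, decide_eq_true_eq]

theorem ib_iff (x y z : DualAffinePoint) : ib x y z = true ↔ Im dualAffinePlaneTwo x y z := by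
  rw [ib, Im, Bool.or_eq_true, Bool.and_eq_true, tb_iff, decide_eq_true_eq, decide_eq_true_eq]
  have : (∀ w, tb x y w = false) ↔ ∀ w, ¬ Tri dualAffinePlaneTwo x y w := by
    apply forall_congr'
    intro w
    rw [← tb_iff]; simp
  rw [this]

theorem PP_dual_aux : ∀ x a d : DualAffinePoint, tb x a d = true → ∀ b c : DualAffinePoint, tb a b c = true →
    x ≠ b → x ≠ c → ∃ b', ib x b b' = true ∧ ∃ c', ib x c c' = true ∧ tb d b' c' = true := by
  decide +kernel

theorem PP_dual : PP dualAffinePlaneTwo := by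
  intro x a b c d h1 h2 h3 h4
  obtain ⟨b', hb, c', hc, hd⟩ := PP_dual_aux x a d ((tb_iff _ _ _).2 h1) b c ((tb_iff _ _ _).2 h2) h3 h4
  exact ⟨b', c', (ib_iff _ _ _).1 hb, (ib_iff _ _ _).1 hc, (tb_iff _ _ _).1 hd⟩

theorem pl3_of_fischer (h : IsFischerSpace L) : PL3 L := ⟨h.1, h.2.1⟩

theorem PP_of_fischer (h : IsFischerSpace L) : PP L := by
  intro x a b c d h1 h2 h3 h4
  set P := span L (({a, b, c} : Set X) ∪ {x, a, d}) with hP
  have hne : ({a, b, c} : Set X) ≠ {x, a, d} := by
    intro he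
    have : x ∈ ({a, b, c} : Set X) := by rw [he]; simp
    simp only [Set.mem_insert_iff, Set.mem_singleton_iff] at this
    rcases this with h5 | h5 | h5
    · exact h1.1 h5
    · exact h3 h5
    · exact h4 h5
  have hpp : PP (restrict L P) := by
    rcases h.2.2 _ h2.2.2.2 _ h1.2.2.2 hne ⟨a, by simp⟩ with ⟨e, he⟩ | ⟨e, he⟩
    · exact PP_iso he PP_dual
    · exact PP_iso he PP_affine
  have hs : IsSubspace L P := subspace_span _
  have hxP : x ∈ P := subset_span _ (by simp)
  have haP : a ∈ P := subset_span _ (by simp)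
  have hbP : b ∈ P := subset_span _ (by simp)
  have hcP : c ∈ P := subset_span _ (by simp)
  have hdP : d ∈ P := subset_span _ (by simp)
  obtain ⟨b', c', hb, hc, hd⟩ := hpp ⟨x, hxP⟩ ⟨a, haP⟩ ⟨b, hbP⟩ ⟨c, hcP⟩ ⟨d, hdP⟩ ((tri_restrict _ _ _).2 h1)
    ((tri_restrict _ _ _).2 h2) (fun h => h3 (congrArg Subtype.val h)) (fun h => h4 (congrArg Subtype.val h))
  have key : ∀ b b' : P, Im (restrict L P) ⟨x, hxP⟩ b b' → Im L x b b' := by
    rintro b b' (hb | ⟨rfl, hb⟩)
    · left; exact (tri_restrict _ _ _).1 hb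
    · right
      exact ⟨rfl, fun w hw => hb ⟨w, tri_mem hs hxP b'.2 hw⟩ ((tri_restrict _ _ _).2 hw)⟩
  exact ⟨b', c', key ⟨b, hbP⟩ b' hb, key ⟨c, hcP⟩ c' hc, (tri_restrict _ _ _).1 hd⟩

theorem claim (h : PL3 L) (hp : PP L) {x a b c : X} (h2 : Tri L a b c) (hex : ∃ d, Tri L x a d) (h3 : x ≠ b)
    (h4 : x ≠ c) : Tri L (lineMap L x a) (lineMap L x b) (lineMap L x c) := by
  obtain ⟨d, hd⟩ := hex
  obtain ⟨b', c', hb, hc, ht⟩ := hp x a b c d hd h2 h3 h4
  rw [im_eq h hb, im_eq h hc, lineMap_of_tri h hd]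
  exact ht

theorem tri_map (h : PL3 L) (hp : PP L) (x : X) {a b c : X} (ht : Tri L a b c) :
    Tri L (lineMap L x a) (lineMap L x b) (lineMap L x c) := by
  by_cases hxa : x = a
  · subst hxa
    rw [lineMap_self, lineMap_of_tri h ht, lineMap_of_tri h ht.swap]
    exact ht.swap
  by_cases hxb : x = b
  · subst hxb
    rw [lineMap_self, lineMap_of_tri h ht.swap', lineMap_of_tri h ht.rot]
    exact ht.rot.rot.swap
  by_cases hxc : x = c
  · subst hxc
    rw [lineMap_self, lineMap_of_tri h ht.rot.rot, lineMap_of_tri h ht.rot.rot.swap]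
    exact ht.swap'
  by_cases h1 : ∃ d, Tri L x a d
  · exact claim h hp ht h1 hxb hxc
  by_cases h2 : ∃ d, Tri L x b d
  · exact (claim h hp ht.rot h2 hxc hxa).rot.rot
  by_cases h3 : ∃ d, Tri L x c d
  · exact (claim h hp ht.rot.rot h3 hxa hxb).rot
  push Not at h1 h2 h3
  rw [lineMap_of_not h1, lineMap_of_not h2, lineMap_of_not h3]
  exact ht

theorem image_line (h : PL3 L) (hp : PP L) (x : X) {l : Set X} (hl : l ∈ L) : lineMap L x '' l ∈ L := by
  obtain ⟨a, b, c, ht, rfl⟩ := h.exists_tri hl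
  rw [Set.image_insert_eq, Set.image_insert_eq, Set.image_singleton]
  exact (tri_map h hp x ht).2.2.2

/-- the involution as a permutation -/
noncomputable def tau (h : PL3 L) (x : X) : Equiv.Perm X := ⟨lineMap L x, lineMap L x, lineMap_invol h x, lineMap_invol h x⟩

theorem tau_coe (h : PL3 L) (x : X) : ⇑(tau h x) = lineMap L x := rfl

theorem tau_mul_self (h : PL3 L) (x : X) : tau h x * tau h x = 1 := by
  ext y; exact lineMap_invol h x y

theorem tau_iso (h : PL3 L) (hp : PP L) (x : X) : IsIso L L (tau h x) := by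
  intro l
  constructor
  · intro hl; exact image_line h hp x hl
  · intro hl
    have h1 := image_line h hp x hl
    rw [tau_coe, ← Set.image_comp] at h1
    have h2 : (lineMap L x ∘ lineMap L x) = id := funext (lineMap_invol h x)
    rw [h2, Set.image_id] at h1
    exact h1

/-- automorphisms permute the `t(x)` -/
theorem conj_tau (h : PL3 L) {σ : Equiv.Perm X} (hσ : IsIso L L σ) (y : X) : σ * tau h y * σ⁻¹ = tau h (σ y) := by
  ext w
  set u := σ⁻¹ w with hu
  have hw : w = σ u := by rw [hu]; simp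
  show σ (lineMap L y (σ⁻¹ w)) = lineMap L (σ y) w
  rw [← hu, hw]
  symm
  apply im_eq h
  rcases lineMap_im h y u with h1 | ⟨h1, h2⟩
  · left; exact (tri_iso hσ _ _ _).1 h1
  · right
    refine ⟨by rw [h1], fun v hv => h2 (σ.symm v) ?_⟩
    rw [tri_iso hσ, Equiv.apply_symm_apply]; exact hv

theorem tau_prod (h : PL3 L) (hp : PP L) (x y : X) : (tau h x * tau h y) ^ 2 = 1 ∨ (tau h x * tau h y) ^ 3 = 1 := by
  have hx := tau_mul_self h x
  have hy := tau_mul_self h y
  have hxi : (tau h x)⁻¹ = tau h x := by rw [inv_eq_iff_mul_eq_one]; exact hx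
  have hyi : (tau h y)⁻¹ = tau h y := by rw [inv_eq_iff_mul_eq_one]; exact hy
  have e1 := conj_tau h (tau_iso h hp x) y
  have e2 := conj_tau h (tau_iso h hp y) x
  rw [hxi] at e1
  rw [hyi] at e2
  by_cases hex : ∃ z, Tri L x y z
  · right
    obtain ⟨z, hz⟩ := hex
    have f1 : tau h x y = z := lineMap_of_tri h hz
    have f2 : tau h y x = z := lineMap_of_tri h hz.swap'
    rw [f1] at e1
    rw [f2] at e2
    have : (tau h x * tau h y) ^ 3 = (tau h x * tau h y * tau h x) * (tau h y * tau h x * tau h y) := by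
      rw [pow_succ, pow_two]; simp only [mul_assoc]
    rw [this, e1, e2, tau_mul_self]
  · left
    push Not at hex
    have f1 : tau h x y = y := lineMap_of_not hex
    rw [f1] at e1
    have : (tau h x * tau h y) ^ 2 = (tau h x * tau h y * tau h x) * tau h y := by
      rw [pow_two]; simp only [mul_assoc]
    rw [this, e1, hy]

theorem orderOf_tau (h : PL3 L) (hnd : IsNondegenerate L) (x : X) : orderOf (tau h x) = 2 := by
  apply orderOf_eq_prime
  · rw [pow_two, tau_mul_self]
  · intro h1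
    obtain ⟨l, hl, hxl⟩ := hnd x
    obtain ⟨y, hy, hyx⟩ : ∃ y ∈ l, y ≠ x := by
      by_contra hcon
      push Not at hcon
      have h2 : l ⊆ {x} := fun y hy => hcon y hy
      have h3 := Set.ncard_le_ncard h2 (Set.finite_singleton x)
      rw [h.three l hl, Set.ncard_singleton] at h3
      omega
    obtain ⟨z, hz, -⟩ := h.third hl hxl hy hyx.symm
    have h4 : tau h x y = z := lineMap_of_tri h hz
    rw [h1] at h4
    exact hz.2.2.1 h4

end H91.FischerSp
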