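import Cfsg.Agent.Lib.H91.LargePair
import Cfsg.Agent.Lib.H91.LargeExtra
import Cfsg.Agent.Lib.H26.GenFitting

/-!
Normal subgroups of a group with a large extraspecial 2-subgroup.
-/

set_option autoImplicit false

namespace H91.LargeNormal

open Cfsg H91.LargePair

variable {G : Type*} [Group G]

/-- an elementwise form of "large extraspecial" -/
structure LPack (Q : Subgroup G) (z : G) : Prop extends Pack Q z where
  p2 : IsPGroup 2 Q
  odd : ∀ K : Subgroup G, Odd (Nat.card K) → Q ≤ Subgroup.normalizer (K : Set G) → K = ⊥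

theorem LPack.of_large [Finite G] {Q : Subgroup G} (h : IsLargeExtraspecial Q) : ∃ z, LPack Q z ∧
    (∀ x, x ∈ (Subgroup.center ↥Q).map Q.subtype ↔ x = 1 ∨ x = z) := by
  obtain ⟨h1, h2, h3, h4⟩ := h
  obtain ⟨z, hP, -, hmem⟩ := pack_of h1 h2 h3
  exact ⟨z, { toPack := hP, p2 := h1.1.1, odd := h4 }, hmem⟩

variable {Q : Subgroup G} {z : G} (H : LPack Q z)
include H

theorem LPack.comm_iff {x : G} (h : x * z = z * x) {N : Subgroup G} (hN : Q ≤ Subgroup.normalizer (N : Set G))
    (hx : x ∈ N) (hint : ∀ y ∈ N, y ∈ Q → y = 1) : x = 1 ∨ x = z := by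
  apply H.C
  intro q hq
  have h1 : q * x * q⁻¹ * x⁻¹ ∈ N :=
    mul_mem ((Subgroup.mem_normalizer_iff.1 (hN hq) x).1 hx) (inv_mem hx)
  have h2 : q * x * q⁻¹ * x⁻¹ ∈ Q := by
    have e : q * x * q⁻¹ * x⁻¹ = q * (x * q⁻¹ * x⁻¹) := by group
    rw [e]; exact mul_mem hq (H.N x h _ (inv_mem hq))
  have h3 := hint _ h1 h2
  rw [mul_inv_eq_one, mul_inv_eq_iff_eq_mul] at h3
  exact h3

/-- every nontrivial subgroup normalised by `Q` contains `z` -/
theorem LPack.mem_of_norm [Finite G] {N : Subgroup G} (hN : Q ≤ Subgroup.normalizer (N : Set G)) (hne : N ≠ ⊥) : z ∈ N := by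
  classical
  by_contra hz
  have hint : ∀ y ∈ N, y ∈ Q → y = 1 := by
    intro y hy hyQ
    by_contra hy1
    by_cases hc : ∀ q ∈ Q, q * y = y * q
    · rcases H.cen y hyQ hc with h | h
      · exact hy1 h
      · rw [h] at hy; exact hz hy
    · push Not at hc
      obtain ⟨q, hq, hqy⟩ := hc
      have h1 : q * y * q⁻¹ * y⁻¹ ∈ N :=
        mul_mem ((Subgroup.mem_normalizer_iff.1 (hN hq) y).1 hy) (inv_mem hy)
      rcases H.comm q hq y hyQ with h | h
      · rw [mul_inv_eq_one, mul_inv_eq_iff_eq_mul] at h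
        exact hqy h
      · rw [h] at h1; exact hz h1
  have hfix : ∀ x ∈ N, x * z = z * x → x = 1 := by
    intro x hx hxz
    rcases H.comm_iff hxz hN hx hint with h | h
    · exact h
    · rw [h] at hx; exact absurd hx hz
  apply hne
  apply H.odd N _ hN
  -- `z` acts fixed point freely on `N`
  have hzN : ∀ x ∈ N, z * x * z ∈ N := by
    intro x hx
    have h1 := (Subgroup.mem_normalizer_iff.1 (hN H.zQ) x).1 hx
    have h2 : z⁻¹ = z := inv_eq_of_mul_eq_one_left H.zz
    rwa [h2] at h1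
  haveI : Fintype N := Fintype.ofFinite N
  let f : Function.End N := fun x => ⟨z * x * z, hzN x x.2⟩
  have hf : f ^ 2 ^ 1 = 1 := by
    rw [pow_one, pow_two]
    funext x
    apply Subtype.ext
    show z * (z * x * z) * z = x
    calc z * (z * x * z) * z = (z * z) * x * (z * z) := by group
      _ = x := by rw [H.zz]; group
  have h1 := Equiv.Perm.card_fixedPoints_modEq (p := 2) hf
  have h2 : Fintype.card (Function.fixedPoints f) = 1 := by
    rw [Fintype.card_eq_one_iff]
    refine ⟨⟨1, ?_⟩, ?_⟩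
    · apply Subtype.ext
      show z * 1 * z = 1
      rw [mul_one, H.zz]
    · rintro ⟨x, hx⟩
      apply Subtype.ext
      apply Subtype.ext
      have h3 : z * (x : G) * z = x := congrArg Subtype.val hx
      apply hfix x x.2
      calc (x : G) * z = (z * x * z) * z := by rw [h3]
        _ = z * x * (z * z) := by group
        _ = z * x := by rw [H.zz, mul_one]
  rw [h2, ← Nat.card_eq_fintype_card] at h1
  exact Nat.odd_iff.2 h1

/-- a Sylow subgroup with centre `z` -/
theorem LPack.exists_sylow [Finite G] : ∃ S : Sylow 2 G, Q ≤ S ∧ (S : Subgroup G) ≤ Subgroup.centralizer {z} ∧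
    Subgroup.normalizer ((S : Subgroup G) : Set G) ≤ Subgroup.centralizer {z} := by
  obtain ⟨S, hS⟩ := H.p2.exists_le_sylow
  haveI : Nontrivial (S : Subgroup G) := ⟨⟨⟨z, hS H.zQ⟩, 1, fun h => H.z1 (congrArg Subtype.val h)⟩⟩
  haveI : Fact (Nat.Prime 2) := ⟨Nat.prime_two⟩
  haveI hct := S.isPGroup'.center_nontrivial
  obtain ⟨c, hc⟩ := exists_ne (1 : Subgroup.center (S : Subgroup G))
  have hcc : ∀ s ∈ (S : Subgroup G), s * ((c : (S : Subgroup G)) : G) = ((c : (S : Subgroup G)) : G) * s := by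
    intro s hs
    exact congrArg Subtype.val ((Subgroup.mem_center_iff.1 c.2) ⟨s, hs⟩)
  have hcz : ((c : (S : Subgroup G)) : G) = z := by
    rcases H.C _ (fun q hq => hcc q (hS hq)) with h | h
    · exfalso
      apply hc
      apply Subtype.ext; apply Subtype.ext
      exact h
    · exact h
  rw [hcz] at hcc
  refine ⟨S, hS, fun s hs => Subgroup.mem_centralizer_singleton_iff.2 (hcc s hs), ?_⟩
  intro g hg
  rw [Subgroup.mem_centralizer_singleton_iff]
  have h1 : ∀ s ∈ (S : Subgroup G), s * (g * z * g⁻¹) = (g * z * g⁻¹) * s := by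
    intro s hs
    have hs' : g⁻¹ * s * g ∈ (S : Subgroup G) := by
      have := (Subgroup.mem_normalizer_iff.1 ((Subgroup.normalizer _).inv_mem hg) s).1 hs
      rwa [inv_inv] at this
    have h2 := hcc _ hs'
    calc s * (g * z * g⁻¹) = g * ((g⁻¹ * s * g) * z) * g⁻¹ := by group
      _ = g * (z * (g⁻¹ * s * g)) * g⁻¹ := by rw [h2]
      _ = _ := by group
  rcases H.C _ (fun q hq => h1 q (hS hq)) with h | h
  · exfalso
    apply H.z1
    have h3 : g * z = g := by
      rw [mul_inv_eq_one] at h; exact h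
    exact mul_left_cancel (h3.trans (mul_one g).symm)
  · rw [mul_inv_eq_iff_eq_mul] at h
    exact h

/-- a normal subgroup containing the centralizer of `z` is the whole group -/
theorem LPack.eq_top [Finite G] {N : Subgroup G} [hn : N.Normal] (h : Subgroup.centralizer {z} ≤ N) : N = ⊤ := by
  obtain ⟨S, -, hS2, hS3⟩ := H.exists_sylow
  haveI : Fact (Nat.Prime 2) := ⟨Nat.prime_two⟩
  have hSN : (S : Subgroup G) ≤ N := hS2.trans h
  have h1 := Sylow.normalizer_sup_eq_top (S.subtype hSN)
  have h2 : ((S.subtype hSN : Sylow 2 N) : Subgroup N).map N.subtype = (S : Subgroup G) := by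
    rw [Sylow.coe_subtype, Subgroup.map_subgroupOf_eq_of_le hSN]
  rw [h2] at h1
  rw [eq_top_iff, ← h1]
  exact sup_le (hS3.trans h) le_rfl

end H91.LargeNormal
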