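import Cfsg.Agent.Lib.H91.LargePair
import Cfsg.Agent.Lib.H91.LargeExtra
import Cfsg.Agent.Lib.H91.XSExtra
import Cfsg.Agent.Lib.H26.GenFitting
import Cfsg.Agent.Lib.H1.Coprime
import Cfsg.Agent.Lib.H3.Extraspecial
import Cfsg.Agent.Lib.H56.Heis

/-!
Odd order subgroups acting on the extraspecial generalized Fitting subgroup of an involution centralizer.
-/

set_option autoImplicit false

namespace H91.LargeOdd

open Cfsg H91.LargePair H91.MonsterForm

variable {G : Type*} [Group G]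

/-- the generalized Fitting subgroup of the centralizer of `z` -/
theorem fstar_pack [Finite G] {z : G} (hz : orderOf z = 2) {Q : Subgroup G} (hQC : Q ≤ Subgroup.centralizer ({z} : Set G))
    (hF : (generalizedFittingSubgroup ↥(Subgroup.centralizer ({z} : Set G))).map
      (Subgroup.centralizer ({z} : Set G)).subtype = Q) (hQ : IsExtraspecial 2 ↥Q) :
    (∀ x, x ∈ (Subgroup.center ↥Q).map Q.subtype ↔ x = 1 ∨ x = z) ∧
    Subgroup.centralizer (Q : Set G) = ((Subgroup.center ↥Q).map Q.subtype) ∧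
    Subgroup.centralizer (((Subgroup.center ↥Q).map Q.subtype) : Set G) ≤ Subgroup.normalizer (Q : Set G) ∧
    Pack Q z := by
  have hz1 : z ≠ 1 := by rintro rfl; rw [orderOf_one] at hz; exact absurd hz (by norm_num)
  have hzz : z * z = 1 := by
    have := pow_orderOf_eq_one z
    rwa [hz, pow_two] at this
  obtain ⟨z0, hz0Q, -, -, -, hmem0, -, hcen0, -, -⟩ := H91.LargeExtra.exists_z hQ
  have hFC : ∀ x : Subgroup.centralizer ({z} : Set G), (x : G) ∈ Q ↔
      x ∈ generalizedFittingSubgroup (Subgroup.centralizer ({z} : Set G)) := by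
    intro x
    rw [← hF]
    constructor
    · rintro ⟨y, hy, hyx⟩
      have : y = x := Subtype.ext hyx
      rwa [← this]
    · intro h; exact ⟨x, h, rfl⟩
  have hcentF : ∀ x : G, (∀ q ∈ Q, q * x = x * q) → x * z = z * x → x ∈ Q := by
    intro x hx hxz
    have hxC : x ∈ Subgroup.centralizer ({z} : Set G) := Subgroup.mem_centralizer_singleton_iff.2 hxz
    apply (hFC ⟨x, hxC⟩).2
    apply H26.Components.centralizer_gFitting_le
    rw [Subgroup.mem_centralizer_iff]
    intro y hy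
    apply Subtype.ext
    exact hx y ((hFC y).2 hy)
  have hQz : ∀ q ∈ Q, q * z = z * q := fun q hq => Subgroup.mem_centralizer_singleton_iff.1 (hQC hq)
  have hzQ : z ∈ Q := hcentF z hQz rfl
  have hz0 : z = z0 := by
    rcases hcen0 z hzQ hQz with h | h
    · exact absurd h hz1
    · exact h
  have hmem : ∀ x, x ∈ (Subgroup.center ↥Q).map Q.subtype ↔ x = 1 ∨ x = z := by
    intro x; rw [hmem0, hz0]
  have hL2 : Subgroup.centralizer (Q : Set G) = ((Subgroup.center ↥Q).map Q.subtype) := by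
    apply le_antisymm
    · intro x hx
      rw [Subgroup.mem_centralizer_iff] at hx
      have hxQ : x ∈ Q := hcentF x hx (hx z hzQ).symm
      rw [hmem, hz0]
      exact hcen0 x hxQ hx
    · intro x hx
      rw [Subgroup.mem_centralizer_iff]
      intro q hq
      rcases (hmem x).1 hx with rfl | rfl
      · simp
      · exact hQz q hq
  have hL3 : Subgroup.centralizer (((Subgroup.center ↥Q).map Q.subtype) : Set G) ≤ Subgroup.normalizer (Q : Set G) := by
    intro x hx
    have hxz : x * z = z * x := (Subgroup.mem_centralizer_iff.1 hx z ((hmem z).2 (Or.inr rfl))).symm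
    have hxC : x ∈ Subgroup.centralizer ({z} : Set G) := Subgroup.mem_centralizer_singleton_iff.2 hxz
    have hn : (generalizedFittingSubgroup (Subgroup.centralizer ({z} : Set G))).Normal := H26.Components.gFitting_normal
    rw [Subgroup.mem_normalizer_iff]
    intro q
    constructor
    · intro hq
      have h1 := hn.conj_mem _ ((hFC ⟨q, hQC hq⟩).1 hq) ⟨x, hxC⟩
      exact (hFC _).2 h1
    · intro hq
      have h1 := hn.conj_mem _ ((hFC ⟨_, hQC hq⟩).1 hq) ⟨x, hxC⟩⁻¹
      have h2 := (hFC _).2 h1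
      have e : ((⟨x, hxC⟩⁻¹ * ⟨x * q * x⁻¹, hQC hq⟩ * ⟨x, hxC⟩⁻¹⁻¹ : Subgroup.centralizer ({z} : Set G)) : G) = q := by
        show x⁻¹ * (x * q * x⁻¹) * x⁻¹⁻¹ = q
        group
      rwa [e] at h2
  refine ⟨hmem, hL2, hL3, ?_⟩
  obtain ⟨z3, hP, -, hmem3⟩ := pack_of hQ hL2 hL3
  have : z3 = z := by
    rcases (hmem3 z).1 ((hmem z).2 (Or.inr rfl)) with h | h
    · exact absurd h hz1
    · exact h.symm
  rwa [this] at hP

/-- coprime action on an extraspecial group: the centralizer of `A` is extraspecial or the centre -/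
theorem fixed_pair [Finite G] {Q : Subgroup G} {z : G} (P : Pack Q z) (hp2 : IsPGroup 2 Q) {A : Subgroup G}
    (hodd : Odd (Nat.card A)) (hAz : ∀ a ∈ A, a * z = z * a) {y : G} (hy : y ∈ Q) (hyA : ∀ a ∈ A, a * y = y * a)
    (hy1 : y ≠ 1) (hyz : y ≠ z) : ∃ c ∈ Q, (∀ a ∈ A, a * c = c * a) ∧ c * y * c⁻¹ = z * y := by
  obtain ⟨k, hk, hky⟩ : ∃ k ∈ Q, k * y ≠ y * k := by
    by_contra h
    push Not at h
    rcases P.cen y hy h with h | h
    · exact hy1 h
    · exact hyz h
  have hkyz : k * y * k⁻¹ = z * y := by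
    rcases P.comm k hk y hy with h | h
    · exfalso
      rw [mul_inv_eq_one, mul_inv_eq_iff_eq_mul] at h
      exact hky h
    · rw [mul_inv_eq_iff_eq_mul] at h; exact h
  set N : Subgroup G := Q ⊓ Subgroup.centralizer ({y} : Set G) with hN
  have hAQ : A ≤ Subgroup.normalizer (Q : Set G) := by
    intro a ha
    rw [Subgroup.mem_normalizer_iff]
    intro q
    constructor
    · exact P.N a (hAz a ha) q
    · intro hq
      have := P.N a⁻¹ (hAz a⁻¹ (inv_mem ha)) _ hq
      have e : a⁻¹ * (a * q * a⁻¹) * a⁻¹⁻¹ = q := by group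
      rwa [e] at this
  have hyc : ∀ x, x ∈ Subgroup.centralizer ({y} : Set G) ↔ x * y = y * x := fun x =>
    Subgroup.mem_centralizer_singleton_iff
  have hcj : ∀ g x : G, g * y * g⁻¹ = y ∨ g * y * g⁻¹ = z * y → g * z = z * g → x * y = y * x →
      x * z = z * x → (g * x * g⁻¹) * y = y * (g * x * g⁻¹) := by
    intro g x h hgz hx hxz
    rcases h with h | h
    · have h1 : (g * x * g⁻¹) * (g * y * g⁻¹) = (g * y * g⁻¹) * (g * x * g⁻¹) := by
        calc (g * x * g⁻¹) * (g * y * g⁻¹) = g * (x * y) * g⁻¹ := by group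
          _ = g * (y * x) * g⁻¹ := by rw [hx]
          _ = _ := by group
      rwa [h] at h1
    · have h1 : (g * x * g⁻¹) * (g * y * g⁻¹) = (g * y * g⁻¹) * (g * x * g⁻¹) := by
        calc (g * x * g⁻¹) * (g * y * g⁻¹) = g * (x * y) * g⁻¹ := by group
          _ = g * (y * x) * g⁻¹ := by rw [hx]
          _ = _ := by group
      rw [h] at h1
      have h2 : (g * x * g⁻¹) * z = z * (g * x * g⁻¹) := by
        have hgz' : g⁻¹ * z = z * g⁻¹ := by
          calc g⁻¹ * z = g⁻¹ * (z * g) * g⁻¹ := by group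
            _ = g⁻¹ * (g * z) * g⁻¹ := by rw [hgz]
            _ = z * g⁻¹ := by group
        calc (g * x * g⁻¹) * z = g * x * (g⁻¹ * z) := by group
          _ = g * (x * z) * g⁻¹ := by rw [hgz']; group
          _ = (g * z) * x * g⁻¹ := by rw [hxz]; group
          _ = z * (g * x * g⁻¹) := by rw [hgz]; group
      have h3 : z * ((g * x * g⁻¹) * y) = z * (y * (g * x * g⁻¹)) := by
        calc z * ((g * x * g⁻¹) * y) = (z * (g * x * g⁻¹)) * y := by group
          _ = (g * x * g⁻¹) * (z * y) := by rw [← h2]; group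
          _ = z * y * (g * x * g⁻¹) := h1
          _ = _ := by group
      exact mul_left_cancel h3
  have hNm : ∀ x, x ∈ N ↔ x ∈ Q ∧ x * y = y * x := by
    intro x
    rw [hN, Subgroup.mem_inf, hyc]
  have hKN : Q ≤ Subgroup.normalizer (N : Set G) := by
    apply H1.Coprime.le_normalizer_of_conj_mem
    intro q hq x hx'
    rw [hNm] at hx' ⊢
    obtain ⟨hx, hxy⟩ := hx'
    refine ⟨mul_mem (mul_mem hq hx) (inv_mem hq), ?_⟩
    refine hcj q x ?_ (P.zc q hq) hxy (P.zc x hx)
    rcases P.comm q hq y hy with h | h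
    · left; rw [mul_inv_eq_one] at h; exact h
    · right; rw [mul_inv_eq_iff_eq_mul] at h; exact h
  have hNA : A ≤ Subgroup.normalizer (N : Set G) := by
    apply H1.Coprime.le_normalizer_of_conj_mem
    intro a ha x hx'
    rw [hNm] at hx' ⊢
    obtain ⟨hx, hxy⟩ := hx'
    refine ⟨P.N a (hAz a ha) x hx, ?_⟩
    refine hcj a x (Or.inl ?_) (hAz a ha) hxy (P.zc x hx)
    rw [hyA a ha, mul_inv_cancel_right]
  have hcop : (Nat.card A).Coprime (Nat.card Q) := by
    obtain ⟨n, hn⟩ := IsPGroup.iff_card.1 hp2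
    rw [hn]
    exact Nat.Coprime.pow_right _ ((Nat.coprime_two_right).2 hodd)
  have hsol : Group.IsSolvable Q := by
    haveI : Fact (Nat.Prime 2) := ⟨Nat.prime_two⟩
    haveI := hp2.isNilpotent
    infer_instance
  obtain ⟨c, ⟨hcQ, hcA⟩, hkc⟩ := H1.Coprime.exists_fixed_of_coset_fixed A Q hAQ hcop (Or.inr hsol) N inf_le_left hKN hNA k hk
    (by
      intro a ha
      have h1 := P.N a (hAz a ha) k hk
      rw [hNm]
      refine ⟨mul_mem h1 (inv_mem hk), ?_⟩
      have h2 : (a * k * a⁻¹) * y * (a * k * a⁻¹)⁻¹ = z * y := by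
        have hya : a⁻¹ * y = y * a⁻¹ := hyA a⁻¹ (inv_mem ha)
        have hza : a * z = z * a := hAz a ha
        calc (a * k * a⁻¹) * y * (a * k * a⁻¹)⁻¹ = a * k * (a⁻¹ * y) * a * k⁻¹ * a⁻¹ := by group
          _ = a * (k * y * k⁻¹) * a⁻¹ := by rw [hya]; group
          _ = (a * z) * y * a⁻¹ := by rw [hkyz]; group
          _ = z * (a * y) * a⁻¹ := by rw [hza]; group
          _ = z * y := by rw [hyA a ha]; group
      have hkz := P.zc k hk
      have h3 : k⁻¹ * y * k = z * y := by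
        have h4 : y = k⁻¹ * (z * y) * k := by rw [← hkyz]; group
        have hkz' : k⁻¹ * z = z * k⁻¹ := P.zc k⁻¹ (inv_mem hk)
        calc k⁻¹ * y * k = (z * z) * (k⁻¹ * y * k) := by rw [P.zz, one_mul]
          _ = z * ((z * k⁻¹) * y * k) := by group
          _ = z * (k⁻¹ * (z * y) * k) := by rw [← hkz']; group
          _ = z * y := by rw [← h4]
      have h5 : (a * k * a⁻¹ * k⁻¹) * y * (a * k * a⁻¹ * k⁻¹)⁻¹ = y := by
        have haz : (a * k * a⁻¹) * z = z * (a * k * a⁻¹) := P.zc _ h1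
        calc (a * k * a⁻¹ * k⁻¹) * y * (a * k * a⁻¹ * k⁻¹)⁻¹ = (a * k * a⁻¹) * (k⁻¹ * y * k) * (a * k * a⁻¹)⁻¹ := by group
          _ = ((a * k * a⁻¹) * z) * y * (a * k * a⁻¹)⁻¹ := by rw [h3]; group
          _ = z * ((a * k * a⁻¹) * y * (a * k * a⁻¹)⁻¹) := by rw [haz]; group
          _ = (z * z) * y := by rw [h2]; group
          _ = y := by rw [P.zz, one_mul]
      rw [mul_inv_eq_iff_eq_mul] at h5
      exact h5)
  refine ⟨c, hcQ, fun a ha => Subgroup.mem_centralizer_iff.1 hcA a ha, ?_⟩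
  have h1 : (k⁻¹ * c) * y = y * (k⁻¹ * c) := (hyc _).1 hkc.2
  calc c * y * c⁻¹ = k * ((k⁻¹ * c) * y) * c⁻¹ := by group
    _ = k * y * k⁻¹ := by rw [h1]; group
    _ = z * y := hkyz

end H91.LargeOdd
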