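import Cfsg.Agent.Lib.H91.BabyCore
import Cfsg.Agent.Lib.H91.LeechFacts
import Cfsg.Agent.Lib.H93.GolayMod

/-!
The Leech lattice modulo 2 is an irreducible module.
-/

set_option autoImplicit false

namespace H91.LeechIrr

open Cfsg H8.GolayCode H8.GolayBasic H8.M24Mem H8.M24Chain H91.Leech H91.InvForm H91.LeechTools H91.Co2Core H91.MonType

variable {U : AddSubgroup leechLattice}

theorem pl_mem' (h : ∀ v : leechLattice, sqNorm (v : GolayPt → ℤ) = 32 → v ∈ U) (i j : GolayPt) : pl i j ∈ U := by
  by_cases hij : i = j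
  · subst hij
    have h0 : ∃ k : GolayPt, k ≠ i := by
      by_cases hi : i = none
      · exact ⟨pt 0, by rw [hi]; decide⟩
      · exact ⟨none, fun h => hi h.symm⟩
    obtain ⟨k, hk⟩ := h0
    have : pl i i = pl i k + mi i k := by
      apply Subtype.ext
      funext l
      rw [AddSubgroup.coe_add, Pi.add_apply, coe_pl, coe_pl, coe_mi]
      ring
    rw [this]
    exact U.add_mem (h _ (norm_pl hk.symm)) (h _ (norm_mi hk.symm))
  · exact h _ (norm_pl hij)

theorem mi_mem' (h : ∀ v : leechLattice, sqNorm (v : GolayPt → ℤ) = 32 → v ∈ U) (i j : GolayPt) : mi i j ∈ U := by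
  by_cases hij : i = j
  · subst hij
    have : mi i i = 0 := by
      apply Subtype.ext
      funext l
      rw [coe_mi]; simp
    rw [this]; exact U.zero_mem
  · exact h _ (norm_mi hij)

theorem four_mem' (h : ∀ v : leechLattice, sqNorm (v : GolayPt → ℤ) = 32 → v ∈ U) (x : GolayPt → ℤ)
    (hx : (2 : ℤ) ∣ ∑ i, x i) : four x hx ∈ U := by
  obtain ⟨m, hm⟩ := hx
  have : four x ⟨m, hm⟩ = ∑ i, x i • mi i none + m • pl none none := by
    apply Subtype.ext
    funext k
    have e1 : ((∑ i, x i • mi i none : leechLattice) : GolayPt → ℤ) k =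
        ∑ i, x i * (4 * ((if k = i then 1 else 0) - (if k = none then 1 else 0))) := by
      rw [AddSubgroup.val_finsetSum, Finset.sum_apply]
      apply Finset.sum_congr rfl
      intro i _
      rw [AddSubgroup.coe_zsmul, Pi.smul_apply, coe_mi, smul_eq_mul]
    rw [AddSubgroup.coe_add, Pi.add_apply, e1, AddSubgroup.coe_zsmul, Pi.smul_apply, coe_pl, smul_eq_mul]
    show 4 * x k = _
    have e2 : ∑ i, x i * (4 * ((if k = i then (1 : ℤ) else 0) - (if k = none then 1 else 0))) =
        4 * x k - 4 * (if k = none then 1 else 0) * ∑ i, x i := by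
      have : ∀ i, x i * (4 * ((if k = i then (1 : ℤ) else 0) - (if k = none then 1 else 0))) =
          4 * (if k = i then x i else 0) - 4 * (if k = none then 1 else 0) * x i := by
        intro i; split_ifs <;> ring
      rw [Finset.sum_congr rfl (fun i _ => this i), Finset.sum_sub_distrib, ← Finset.mul_sum, ← Finset.mul_sum,
        Finset.sum_ite_eq]
      simp
    rw [e2, hm]
    split_ifs <;> ring
  rw [this]
  exact U.add_mem (U.sum_mem fun i _ => U.zsmul_mem (mi_mem' h i none) _) (U.zsmul_mem (pl_mem' h _ _) _)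

theorem norm_tw {c : Finset GolayPt} (hc : c ∈ GS) : sqNorm (tw hc : GolayPt → ℤ) = 4 * c.card := by
  unfold sqNorm
  have : ∀ k, (tw hc : GolayPt → ℤ) k ^ 2 = if k ∈ c then 4 else 0 := by
    intro k; rw [coe_tw]; split_ifs <;> norm_num
  rw [Finset.sum_congr rfl (fun k _ => this k), Finset.sum_ite_mem, Finset.univ_inter, Finset.sum_const, nsmul_eq_mul]
  ring

theorem symmDiff_GS {c d : Finset GolayPt} (hc : c ∈ GS) (hd : d ∈ GS) : symmDiff c d ∈ GS := symmDiff_mem hc hd

/-- the code words `c` with `2·1_c ∈ U` -/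
def WW (h : ∀ v : leechLattice, sqNorm (v : GolayPt → ℤ) = 32 → v ∈ U) : Submodule (ZMod 2) (GolayPt → ZMod 2) where
  carrier := {w | ∃ hc : support₂ w ∈ GS, tw hc ∈ U}
  zero_mem' := by
    have h0 : support₂ (0 : GolayPt → ZMod 2) = ∅ := by ext x; simp [support₂]
    refine ⟨by rw [h0]; exact empty_mem, ?_⟩
    have : tw (show support₂ (0 : GolayPt → ZMod 2) ∈ GS by rw [h0]; exact empty_mem) = 0 := by
      apply Subtype.ext
      funext k
      rw [coe_tw, h0]; simp
    rw [this]; exact U.zero_mem
  add_mem' := by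
    rintro v w ⟨hv, hv'⟩ ⟨hw, hw'⟩
    have hs : support₂ (v + w) = symmDiff (support₂ v) (support₂ w) := by
      ext x
      simp only [support₂, Finset.mem_filter, Finset.mem_univ, true_and, Finset.mem_symmDiff, Pi.add_apply]
      generalize v x = a
      generalize w x = b
      revert a b; decide
    have hm : support₂ (v + w) ∈ GS := by rw [hs]; exact symmDiff_mem hv hw
    refine ⟨hm, ?_⟩
    have hev : (2 : ℤ) ∣ ∑ i, (if i ∈ support₂ v ∩ support₂ w then (1 : ℤ) else 0) := by
      rw [Finset.sum_ite_mem, Finset.univ_inter, Finset.sum_const, nsmul_eq_mul, mul_one]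
      have := (inter_even hv hw).two_dvd
      exact_mod_cast this
    have he : tw hm = tw hv + tw hw - four _ hev := by
      apply Subtype.ext
      funext k
      rw [AddSubgroup.coe_sub, Pi.sub_apply, AddSubgroup.coe_add, Pi.add_apply, coe_tw, coe_tw, coe_tw]
      show _ = _ - 4 * (if k ∈ support₂ v ∩ support₂ w then (1 : ℤ) else 0)
      rw [hs]
      simp only [Finset.mem_symmDiff, Finset.mem_inter]
      by_cases h1 : k ∈ support₂ v <;> by_cases h2 : k ∈ support₂ w <;> simp [h1, h2]
    rw [he]
    exact U.sub_mem (U.add_mem hv' hw') (four_mem' h _ _)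
  smul_mem' := by
    rintro a w ⟨hw, hw'⟩
    have ha : a = 0 ∨ a = 1 := by revert a; decide
    rcases ha with rfl | rfl
    · have h0 : support₂ ((0 : ZMod 2) • w) = ∅ := by ext x; simp [support₂]
      refine ⟨by rw [h0]; exact empty_mem, ?_⟩
      have : tw (show support₂ ((0 : ZMod 2) • w) ∈ GS by rw [h0]; exact empty_mem) = 0 := by
        apply Subtype.ext
        funext k
        rw [coe_tw, h0]; simp
      rw [this]; exact U.zero_mem
    · have h0 : support₂ ((1 : ZMod 2) • w) = support₂ w := by rw [one_smul]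
      refine ⟨by rw [h0]; exact hw, ?_⟩
      have : tw (show support₂ ((1 : ZMod 2) • w) ∈ GS by rw [h0]; exact hw) = tw hw := by
        apply Subtype.ext
        funext k
        rw [coe_tw, coe_tw, h0]
      rw [this]; exact hw'

theorem tw_mem' (h : ∀ v : leechLattice, sqNorm (v : GolayPt → ℤ) = 32 → v ∈ U)
    (hinv : ∀ (g : Co0), ∀ w ∈ U, g • w ∈ U) {c : Finset GolayPt} (hc : c ∈ GS) : tw hc ∈ U := by
  have hperm : ∀ σ ∈ M24, ∀ w ∈ WW h, H93.GolayMod.sh σ w ∈ WW h := by
    rintro σ hσ w ⟨hw, hw'⟩
    have hs : support₂ (H93.GolayMod.sh σ w) = (support₂ w).image σ := by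
      rw [← H8.GolayCount.ofSupp_support w, H93.GolayMod.sh_ofSupp, H8.GolayCount.support_ofSupp,
        H8.GolayCount.support_ofSupp]
    have hm : support₂ (H93.GolayMod.sh σ w) ∈ GS := by rw [hs]; exact (mem_M24_iff σ).1 hσ _ hw
    refine ⟨hm, ?_⟩
    obtain ⟨g, hg⟩ := exists_perm (M24.inv_mem hσ)
    have : tw hm = g • tw hw := by
      apply Subtype.ext
      funext k
      rw [hg]
      show (if k ∈ support₂ (H93.GolayMod.sh σ w) then (2 : ℤ) else 0) = if σ⁻¹ k ∈ support₂ w then 2 else 0
      rw [hs]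
      congr 1
      rw [Finset.mem_image]
      apply propext
      constructor
      · rintro ⟨x, hx, rfl⟩; simpa using hx
      · intro hx; exact ⟨_, hx, by simp⟩
    rw [this]; exact hinv g _ hw'
  have hnot : ¬ WW h ≤ Submodule.span (ZMod 2) {fun _ => (1 : ZMod 2)} := by
    intro hle
    have hO : support₂ (wd 0x149f) ∈ GS := support_wd_mem_GS (by norm_num) (by decide +kernel)
    have h8 : (support₂ (wd 0x149f)).card = 8 := by
      rw [H8.GolayCount.card_support_wd (by norm_num)]; decide +kernel
    have h1 : wd 0x149f ∈ WW h := ⟨hO, h _ (by rw [norm_tw, h8]; norm_num)⟩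
    have h2 := hle h1
    rw [Submodule.mem_span_singleton] at h2
    obtain ⟨a, ha⟩ := h2
    have hcard : (support₂ (wd 0x149f)).card = 0 ∨ (support₂ (wd 0x149f)).card = 24 := by
      rw [← ha]
      have ha' : ∀ a : ZMod 2, a = 0 ∨ a = 1 := by decide
      rcases ha' a with rfl | rfl
      · left
        rw [Finset.card_eq_zero]; ext x; simp [support₂]
      · right
        rw [← card_pt, ← Finset.card_univ]
        congr 1
    omega
  have hle := H93.GolayMod.golay_le hperm hnot
  obtain ⟨w, hw, rfl⟩ := hc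
  obtain ⟨hm, hU⟩ := hle hw
  exact hU

theorem eq_top_of_min (h : ∀ v : leechLattice, sqNorm (v : GolayPt → ℤ) = 32 → v ∈ U)
    (hinv : ∀ (g : Co0), ∀ w ∈ U, g • w ∈ U) (x : leechLattice) : x ∈ U := by
  have heven : ∀ x : leechLattice, (∀ i, (x : GolayPt → ℤ) i % 2 = 0) → x ∈ U := by
    intro x hx
    obtain ⟨r, D, hr, hD, h1, h2⟩ := exists_nf x.2
    have hr0 : r = 0 := by
      rcases hr with h | h
      · exact h
      · exfalso
        have h3 := h1 none
        have h4 := hx none
        rw [h] at h3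
        unfold Int.ModEq at h3
        split_ifs at h3 <;> omega
    subst hr0
    have hy : ∀ i, ∃ y : ℤ, (x : GolayPt → ℤ) i = (if i ∈ D then 2 else 0) + 4 * y := by
      intro i
      have h3 := (h1 i).symm.dvd
      rw [zero_add] at h3
      obtain ⟨y, hy⟩ := h3
      exact ⟨y, by rw [← hy]; ring⟩
    choose y hy using hy
    have hsum : (2 : ℤ) ∣ ∑ i, y i := by
      have h3 : ∑ i, (x : GolayPt → ℤ) i = 2 * D.card + 4 * ∑ i, y i := by
        rw [Finset.sum_congr rfl (fun i _ => hy i), Finset.sum_add_distrib, ← Finset.mul_sum, Finset.sum_ite_mem,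
          Finset.univ_inter, Finset.sum_const, nsmul_eq_mul]
        ring
      obtain ⟨k, hk⟩ := H10.GolayBasic.four_dvd_card_supports hD
      rw [h3, hk] at h2
      unfold Int.ModEq at h2
      push_cast at h2
      omega
    have he : x = tw hD + four y hsum := by
      apply Subtype.ext
      funext i
      rw [hy i]; rfl
    rw [he]
    exact U.add_mem (tw_mem' h hinv hD) (four_mem' h _ _)
  obtain ⟨r, D, hr, hD, h1, h2⟩ := exists_nf x.2
  have hpar : ∀ i, (x : GolayPt → ℤ) i % 2 = r % 2 := by
    intro i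
    have h3 := h1 i
    unfold Int.ModEq at h3
    split_ifs at h3 <;> omega
  rcases hr with rfl | rfl
  · exact heven x (fun i => by rw [hpar i]; norm_num)
  · have h3 : x - oddv none ∈ U := by
      apply heven
      intro i
      rw [AddSubgroup.coe_sub, Pi.sub_apply, coe_oddv]
      have := hpar i
      split_ifs <;> omega
    have h4 := U.add_mem h3 (h _ (norm_oddv none))
    rwa [sub_add_cancel] at h4

/-- the vector `(5, 1^23)` -/
theorem five_mem (k : GolayPt) : (fun i => if i = k then (5 : ℤ) else 1) ∈ leechLattice := by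
  rw [mem_iff]
  refine ⟨1, ∅, empty_mem, fun i => ?_, ?_⟩
  · rw [if_neg (Finset.notMem_empty _)]
    show (if i = k then (5 : ℤ) else 1) ≡ 1 + 0 [ZMOD 4]
    split_ifs <;> decide
  · have h1 : ∑ i, (if i = k then (5 : ℤ) else 1) = 28 := by
      have : ∀ i, (if i = k then (5 : ℤ) else 1) = 1 + (if i = k then 4 else 0) := by
        intro i; split_ifs <;> norm_num
      simp only [this, Finset.sum_add_distrib, Finset.sum_ite_eq', Finset.mem_univ, if_true]
      rw [Finset.sum_const, Finset.card_univ, card_pt]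
      norm_num
    rw [h1]; decide

def fv (k : GolayPt) : leechLattice := ⟨_, five_mem k⟩

theorem coe_fv (k i : GolayPt) : (fv k : GolayPt → ℤ) i = if i = k then 5 else 1 := rfl

theorem norm_fv (k : GolayPt) : sqNorm (fv k : GolayPt → ℤ) = 48 := by
  unfold sqNorm
  have : ∀ i, (fv k : GolayPt → ℤ) i ^ 2 = 1 + (if i = k then 24 else 0) := by
    intro i; rw [coe_fv]; split_ifs <;> norm_num
  simp only [this, Finset.sum_add_distrib, Finset.sum_ite_eq', Finset.mem_univ, if_true]
  rw [Finset.sum_const, Finset.card_univ, card_pt]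
  norm_num

theorem sum4 (a b c d : GolayPt) : (2 : ℤ) ∣ ∑ k, (Pi.single a 1 + Pi.single b 1 + Pi.single c 1 + Pi.single d 1 : GolayPt → ℤ) k := by
  simp only [Pi.add_apply, Finset.sum_add_distrib, Finset.sum_pi_single', Finset.mem_univ, if_true]
  norm_num

/-- irreducibility -/
theorem irr (hinv : ∀ (g : Co0), ∀ w ∈ U, g • w ∈ U) (h2 : ∀ w : leechLattice, w + w ∈ U)
    (hne : ∃ v ∈ U, ¬ ∃ w, v = w + w) (x : leechLattice) : x ∈ U := by
  have L := H91.LeechFacts.lf
  have h0 : (none : GolayPt) ≠ pt 0 := by decide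
  apply eq_top_of_min _ hinv
  -- it suffices to find one minimal vector
  have hmin : ∀ m : leechLattice, m ∈ U → sqNorm (m : GolayPt → ℤ) = 32 →
      ∀ v : leechLattice, sqNorm (v : GolayPt → ℤ) = 32 → v ∈ U := by
    intro m hm hmn v hv
    obtain ⟨g, rfl⟩ := L.h32 m v hmn hv
    exact hinv g m hm
  obtain ⟨v, hv, hnd⟩ := hne
  obtain ⟨w, u, hw, hn⟩ := L.short v
  have hwU : w ∈ U := by
    have : w = v - (u + u) := by rw [hw]; abel
    rw [this]; exact U.sub_mem hv (h2 u)
  rcases norm_cases hn with h3 | h3 | h3 | h3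
  · exfalso; apply hnd; exact ⟨u, by rw [hw, h3, zero_add]⟩
  · exact hmin w hwU h3
  · have hall : ∀ y : leechLattice, sqNorm (y : GolayPt → ℤ) = 48 → y ∈ U := by
      intro y hy
      obtain ⟨g, rfl⟩ := L.h48 w y h3 hy
      exact hinv g w hwU
    refine hmin (mi none (pt 0)) ?_ (norm_mi h0)
    have : mi none (pt 0) = fv none - fv (pt 0) := by
      apply Subtype.ext
      funext i
      rw [AddSubgroup.coe_sub, Pi.sub_apply, coe_mi, coe_fv, coe_fv]
      split_ifs <;> norm_num
    rw [this]
    exact U.sub_mem (hall _ (norm_fv _)) (hall _ (norm_fv _))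
  · have hall : ∀ y : leechLattice, sqNorm (y : GolayPt → ℤ) = 64 → y ∈ U := by
      intro y hy
      obtain ⟨g, u', hg⟩ := L.h64 w y h3 hy
      have : y = g • w - (u' + u') := by rw [hg]; abel
      rw [this]
      exact U.sub_mem (hinv g w hwU) (h2 u')
    have hn4 : ∀ d : GolayPt, d ≠ none → d ≠ pt 0 → d ≠ pt 1 →
        sqNorm (four _ (sum4 none (pt 0) (pt 1) d) : GolayPt → ℤ) = 64 := by
      intro d hd1 hd2 hd3
      unfold sqNorm
      have : ∀ k, (four _ (sum4 none (pt 0) (pt 1) d) : GolayPt → ℤ) k ^ 2 =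
          (if k = none then 16 else 0) + (if k = pt 0 then 16 else 0) + (if k = pt 1 then 16 else 0) +
            (if k = d then 16 else 0) := by
        intro k
        show (4 * ((Pi.single none 1 + Pi.single (pt 0) 1 + Pi.single (pt 1) 1 + Pi.single d 1 : GolayPt → ℤ) k)) ^ 2 = _
        simp only [Pi.add_apply, Pi.single_apply]
        by_cases a1 : k = none
        · subst a1
          rw [if_pos rfl, if_neg (by decide), if_neg (by decide), if_neg hd1.symm]; norm_num
          rw [if_neg (by decide), if_neg (by decide), if_neg hd1.symm]; norm_num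
        by_cases a2 : k = pt 0
        · subst a2
          rw [if_neg (by decide), if_pos rfl, if_neg (by decide), if_neg hd2.symm]; norm_num
          rw [if_neg (by decide), if_neg (by decide), if_neg hd2.symm]; norm_num
        by_cases a3 : k = pt 1
        · subst a3
          rw [if_neg (by decide), if_neg (by decide), if_pos rfl, if_neg hd3.symm]; norm_num
          rw [if_neg (by decide), if_neg (by decide), if_neg hd3.symm]; norm_num
        rw [if_neg a1, if_neg a2, if_neg a3, if_neg a1, if_neg a2, if_neg a3]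
        split_ifs <;> norm_num
      simp only [this, Finset.sum_add_distrib, Finset.sum_ite_eq', Finset.mem_univ, if_true]
      norm_num
    refine hmin (mi (pt 2) (pt 3)) ?_ (norm_mi (by decide))
    have : mi (pt 2) (pt 3) = four _ (sum4 none (pt 0) (pt 1) (pt 2)) - four _ (sum4 none (pt 0) (pt 1) (pt 3)) := by
      apply Subtype.ext
      funext i
      rw [AddSubgroup.coe_sub, Pi.sub_apply, coe_mi]
      show _ = 4 * ((Pi.single none 1 + Pi.single (pt 0) 1 + Pi.single (pt 1) 1 + Pi.single (pt 2) 1 : GolayPt → ℤ) i) -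
        4 * ((Pi.single none 1 + Pi.single (pt 0) 1 + Pi.single (pt 1) 1 + Pi.single (pt 3) 1 : GolayPt → ℤ) i)
      simp only [Pi.add_apply, Pi.single_apply]
      ring
    rw [this]
    exact U.sub_mem (hall _ (hn4 _ (by decide) (by decide) (by decide))) (hall _ (hn4 _ (by decide) (by decide) (by decide)))

/-- an element acting trivially mod 2 is central -/
theorem central_of_trivial {g : Co0} (hg : ∀ v : leechLattice, ∃ w, g • v = v + (w + w)) : g = 1 ∨ g = neg := by
  have h0 : (none : GolayPt) ≠ pt 0 := by decide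
  have key : ∀ (g : Co0), (∀ v : leechLattice, ∃ w, g • v = v + (w + w)) → ∀ v : leechLattice,
      sqNorm (v : GolayPt → ℤ) = 32 → g • v = v ∨ g • v = -v := by
    intro g hg v hv
    obtain ⟨w, hw⟩ := hg v
    exact eq_of_congr32 (by rw [H91.LeechTools.norm_smul, hv]) hv hw
  rcases key g hg _ (norm_pl h0) with h | h
  · left
    exact eq_one_of_fix h (fun w hw _ => key g hg w hw)
  · right
    have hg' : ∀ v : leechLattice, ∃ w, (neg * g) • v = v + (w + w) := by
      intro v
      obtain ⟨w, hw⟩ := hg v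
      refine ⟨-v - w, ?_⟩
      rw [mul_smul, neg_smul, hw]; abel
    have h1 : neg * g = 1 := by
      apply eq_one_of_fix
      · rw [mul_smul, neg_smul, h, neg_neg]
      · exact fun w hw _ => key _ hg' w hw
    have h2 : neg * neg = (1 : Co0) := by
      apply ext_fr
      intro i
      rw [mul_smul, neg_smul, neg_smul, neg_neg, one_smul]
    calc g = (neg * neg) * g := by rw [h2, one_mul]
      _ = neg * (neg * g) := by group
      _ = neg := by rw [h1, mul_one]

end H91.LeechIrr
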