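import Cfsg.Agent.Lib.H91.Setting
import Cfsg.Agent.Lib.H91.LeechTools

/-!
Elementwise data of a group of Monster type: the relation `Lab v x` ("the lattice vector `v` labels the element `x`
of `Q`") and the relation `R c γ` ("`c ∈ C(z)` and `γ ∈ Co0` have the same image in `Co1`").
-/

set_option autoImplicit false

namespace H91.MonData

open Cfsg H91.MonsterForm H91.LargePair H91.Setting H91.InvForm H91.LeechTools

/-- elementwise data of a group of Monster type -/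
structure MonData {G : Type*} [Group G] (z : G) (Q : Subgroup G) (Lab : leechLattice → G → Prop)
    (R : G → Co0 → Prop) (q : leechLattice → ZMod 2) (b : leechLattice → leechLattice → ZMod 2) : Prop where
  pack : Pack Q z
  card : Nat.card Q = 2 ^ 25
  lab_mem : ∀ {v x}, Lab v x → x ∈ Q
  lab_surj : ∀ {x}, x ∈ Q → ∃ v, Lab v x
  lab_ex : ∀ v, ∃ x, Lab v x
  lab_mul : ∀ {v w x y}, Lab v x → Lab w y → Lab (v + w) (x * y)
  lab_zero : ∀ {x}, Lab 0 x ↔ x = 1 ∨ x = z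
  lab_one : ∀ {v}, Lab v 1 ↔ ∃ w, v = w + w
  R_comm : ∀ {c γ}, R c γ → c * z = z * c
  R_ex : ∀ γ, ∃ c, R c γ
  R_ex' : ∀ {c}, c * z = z * c → ∃ γ, R c γ
  R_mul : ∀ {c d γ δ}, R c γ → R d δ → R (c * d) (γ * δ)
  R_inv : ∀ {c γ}, R c γ → R c⁻¹ γ⁻¹
  R_Q : ∀ {c γ}, R c γ → (c ∈ Q ↔ γ = 1 ∨ γ = neg)
  R_one : ∀ {c}, c ∈ Q → R c 1
  R_neg : ∀ {c γ}, R c γ → R c (neg * γ)
  R_conj : ∀ {c γ v x}, R c γ → Lab v x → Lab (γ • v) (c * x * c⁻¹)
  form : InvForm q b
  q_lab : ∀ {v x}, Lab v x → (q v = 0 ↔ x * x = 1)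
  b_lab : ∀ {v w x y}, Lab v x → Lab w y → (b v w = 0 ↔ x * y = y * x)

theorem exists_monData {G : Type*} [Group G] [Finite G] {z : G}
    {Q : Subgroup (Subgroup.centralizer ({z} : Set G))} [hn : Q.Normal]
    (hS : IsExtraspecialCentralizerSetting z Q 12)
    {e : (Subgroup.centralizer ({z} : Set G)) ⧸ Q ≃* Spor.Co1}
    {ψ : leechLattice → Q ⧸ Subgroup.center Q} (hψ : IsLeechModTwoIso Q e ψ) :
    ∃ (Lab : leechLattice → G → Prop) (R : G → Co0 → Prop) (q : leechLattice → ZMod 2)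
      (b : leechLattice → leechLattice → ZMod 2),
      MonData z (Q.map (Subgroup.centralizer ({z} : Set G)).subtype) Lab R q b ∧
      (∀ v (x : Q), Lab v ((x : Subgroup.centralizer ({z} : Set G)) : G) ↔ ψ v = QuotientGroup.mk x) ∧
      (∀ (c : Subgroup.centralizer ({z} : Set G)) γ, R (c : G) γ ↔
        (QuotientGroup.mk γ : Spor.Co1) = e (QuotientGroup.mk c)) := by
  obtain ⟨q, b, F, hq, hb⟩ := exists_form hS.2.2.1 hψ
  obtain ⟨hP, hcenter⟩ := pack_of_setting hS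
  have hcard := hS.2.2.2.1
  obtain ⟨h1, h2, h3, h4⟩ := hψ
  let Lab : leechLattice → G → Prop := fun v x =>
    ∃ y : Q, ((y : Subgroup.centralizer ({z} : Set G)) : G) = x ∧ ψ v = QuotientGroup.mk y
  let R : G → Co0 → Prop := fun c γ => ∃ d : Subgroup.centralizer ({z} : Set G), (d : G) = c ∧
    (QuotientGroup.mk γ : Spor.Co1) = e (QuotientGroup.mk d)
  have hLab : ∀ v (x : Q), Lab v ((x : Subgroup.centralizer ({z} : Set G)) : G) ↔ ψ v = QuotientGroup.mk x := by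
    intro v x
    constructor
    · rintro ⟨y, hy, hyv⟩
      have : y = x := Subtype.ext (Subtype.ext hy)
      rw [← this]; exact hyv
    · intro h; exact ⟨x, rfl, h⟩
  have hR : ∀ (c : Subgroup.centralizer ({z} : Set G)) γ, R (c : G) γ ↔
        (QuotientGroup.mk γ : Spor.Co1) = e (QuotientGroup.mk c) := by
    intro c γ
    constructor
    · rintro ⟨d, hd, hdγ⟩
      have : d = c := Subtype.ext hd
      rw [← this]; exact hdγ
    · intro h; exact ⟨c, rfl, h⟩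
  have hψ0 : ψ 0 = 1 := (h3 0).2 ⟨0, by simp⟩
  refine ⟨Lab, R, q, b, ?_, hLab, hR⟩
  refine
    { pack := hP
      card := by rw [card_map, hcard]
      lab_mem := ?_
      lab_surj := ?_
      lab_ex := ?_
      lab_mul := ?_
      lab_zero := ?_
      lab_one := ?_
      R_comm := ?_
      R_ex := ?_
      R_ex' := ?_
      R_mul := ?_
      R_inv := ?_
      R_Q := ?_
      R_one := ?_
      R_neg := ?_
      R_conj := ?_
      form := F
      q_lab := ?_
      b_lab := ?_ }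
  · rintro v x ⟨y, rfl, -⟩
    exact ⟨y, y.2, rfl⟩
  · rintro _ ⟨y, hy, rfl⟩
    obtain ⟨v, hv⟩ := h2 (QuotientGroup.mk ⟨y, hy⟩)
    exact ⟨v, ⟨y, hy⟩, rfl, hv⟩
  · intro v
    obtain ⟨y, hy⟩ := QuotientGroup.mk_surjective (ψ v)
    exact ⟨_, y, rfl, hy.symm⟩
  · rintro v w _ _ ⟨x, rfl, hx⟩ ⟨y, rfl, hy⟩
    exact ⟨x * y, rfl, by rw [h1, hx, hy]; rfl⟩
  · intro x
    constructor
    · rintro ⟨y, rfl, hy⟩
      rw [hψ0] at hy
      exact (hcenter y).1 ((QuotientGroup.eq_one_iff y).1 hy.symm)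
    · intro hx
      have hxQ : ∃ y : Q, ((y : Subgroup.centralizer ({z} : Set G)) : G) = x := by
        rcases hx with rfl | rfl
        · exact ⟨1, rfl⟩
        · obtain ⟨y, hy, hyz⟩ := hP.zQ
          exact ⟨⟨y, hy⟩, hyz⟩
      obtain ⟨y, rfl⟩ := hxQ
      refine ⟨y, rfl, ?_⟩
      rw [hψ0]
      exact ((QuotientGroup.eq_one_iff y).2 ((hcenter y).2 hx)).symm
  · intro v
    rw [← h3]
    constructor
    · rintro ⟨y, hy, hyv⟩
      have : y = 1 := Subtype.ext (Subtype.ext hy)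
      rw [hyv, this]; rfl
    · intro h
      exact ⟨1, rfl, by rw [h]; rfl⟩
  · rintro c γ ⟨d, rfl, -⟩
    exact Subgroup.mem_centralizer_singleton_iff.1 d.2
  · intro γ
    obtain ⟨d, hd⟩ := QuotientGroup.mk_surjective (e.symm (QuotientGroup.mk γ))
    exact ⟨d, d, rfl, by rw [hd, MulEquiv.apply_symm_apply]⟩
  · intro c hc
    obtain ⟨γ, hγ⟩ := QuotientGroup.mk_surjective
      (e (QuotientGroup.mk ⟨c, Subgroup.mem_centralizer_singleton_iff.2 hc⟩))
    exact ⟨γ, ⟨c, _⟩, rfl, hγ⟩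
  · rintro _ _ γ δ ⟨c, rfl, hc⟩ ⟨d, rfl, hd⟩
    refine ⟨c * d, rfl, ?_⟩
    rw [QuotientGroup.mk_mul, hc, hd, ← map_mul]; rfl
  · rintro _ γ ⟨c, rfl, hc⟩
    refine ⟨c⁻¹, rfl, ?_⟩
    rw [QuotientGroup.mk_inv, hc, ← map_inv]; rfl
  · rintro _ γ ⟨c, rfl, hc⟩
    have e1 : (c : G) ∈ Q.map (Subgroup.centralizer ({z} : Set G)).subtype ↔ c ∈ Q := by
      constructor
      · rintro ⟨y, hy, hyc⟩
        have : y = c := Subtype.ext hyc
        rw [← this]; exact hy
      · intro h; exact ⟨c, h, rfl⟩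
    rw [e1, ← QuotientGroup.eq_one_iff, ← mem_center_iff, ← QuotientGroup.eq_one_iff (N := Subgroup.center Co0) γ, hc,
      map_eq_one_iff e e.injective]
  · rintro _ ⟨c, hc, rfl⟩
    refine ⟨c, rfl, ?_⟩
    have : (QuotientGroup.mk c : Subgroup.centralizer ({z} : Set G) ⧸ Q) = 1 := (QuotientGroup.eq_one_iff c).2 hc
    rw [this, map_one]; rfl
  · rintro _ γ ⟨c, rfl, hc⟩
    refine ⟨c, rfl, ?_⟩
    rw [QuotientGroup.mk_mul, (QuotientGroup.eq_one_iff neg).2 neg_mem_center, one_mul, hc]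
  · rintro _ γ v _ ⟨c, rfl, hc⟩ ⟨x, rfl, hx⟩
    exact ⟨_, rfl, h4 c γ hc v x hx⟩
  · rintro v _ ⟨x, rfl, hx⟩
    rw [hq v x hx, sqf_eq_zero]
    constructor
    · intro h
      exact congrArg (fun x : Q => ((x : Subgroup.centralizer ({z} : Set G)) : G)) h
    · intro h
      exact Subtype.ext (Subtype.ext h)
  · rintro v w _ _ ⟨x, rfl, hx⟩ ⟨y, rfl, hy⟩
    rw [hb v w x y hx hy, cmf_eq_zero]
    constructor
    · intro h
      exact congrArg (fun x : Q => ((x : Subgroup.centralizer ({z} : Set G)) : G)) h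
    · intro h
      exact Subtype.ext (Subtype.ext h)

end H91.MonData
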