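import Cfsg.Agent.Lib.H91.MonType

/-!
Groups of Monster type: a second conjugate `s` of `z` in `Q`.
-/

set_option autoImplicit false

namespace H91.MonPair

open Cfsg H8.GolayCode H91.MonsterForm H91.LargePair H91.Setting H91.InvForm H91.LeechTools H91.MonData H91.Co2Core
  H91.MonType

variable {G : Type*} [Group G] {z : G} {Q : Subgroup G} {Lab : leechLattice → G → Prop}
    {R : G → Co0 → Prop} {q : leechLattice → ZMod 2} {b : leechLattice → leechLattice → ZMod 2}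

/-- the elements of `Co0` induced by `Q1 ∩ C(z)` -/
def EE (M : MonData z Q Lab R q b) (Q1 : Subgroup G) : Subgroup Co0 where
  carrier := {γ | ∃ c ∈ Q1, R c γ}
  one_mem' := ⟨1, Q1.one_mem, M.R_one Q.one_mem⟩
  mul_mem' := by
    rintro γ δ ⟨c, hc, h1⟩ ⟨d, hd, h2⟩
    exact ⟨c * d, Q1.mul_mem hc hd, M.R_mul h1 h2⟩
  inv_mem' := by
    rintro γ ⟨c, hc, h1⟩
    exact ⟨c⁻¹, Q1.inv_mem hc, M.R_inv h1⟩

theorem mem_EE (M : MonData z Q Lab R q b) {Q1 : Subgroup G} {γ : Co0} :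
    γ ∈ EE M Q1 ↔ ∃ c ∈ Q1, R c γ := Iff.rfl

theorem neg_mem_EE (M : MonData z Q Lab R q b) {Q1 : Subgroup G} : neg ∈ EE M Q1 := by
  refine ⟨1, Q1.one_mem, ?_⟩
  have := M.R_neg (M.R_one Q.one_mem)
  rwa [mul_one] at this

theorem EE_isPGroup (M : MonData z Q Lab R q b) {Q1 : Subgroup G} (h1 : IsPGroup 2 Q1) : IsPGroup 2 (EE M Q1) := by
  rintro ⟨γ, c, hc, hR⟩
  obtain ⟨k, hk⟩ := h1 ⟨c, hc⟩
  have hk' : c ^ 2 ^ k = 1 := by
    have := congrArg Subtype.val hk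
    simpa using this
  have hpow : ∀ n : ℕ, R (c ^ n) (γ ^ n) := by
    intro n
    induction n with
    | zero => rw [pow_zero, pow_zero]; exact M.R_one Q.one_mem
    | succ n ih => rw [pow_succ, pow_succ]; exact M.R_mul ih hR
  have h2 := hpow (2 ^ k)
  rw [hk'] at h2
  have h3 := (M.R_Q h2).1 Q.one_mem
  refine ⟨k + 1, ?_⟩
  apply Subtype.ext
  show γ ^ 2 ^ (k + 1) = 1
  rw [pow_succ, pow_mul, pow_two]
  rcases h3 with h3 | h3
  · rw [h3, one_mul]
  · rw [h3, neg_mul_neg]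

/-- normality of `EE` in the stabiliser of the class of the label of `s` -/
theorem EE_normal (M : MonData z Q Lab R q b) {Q1 : Subgroup G} {s : G} (P1 : Pack Q1 s) {v : leechLattice}
    (hs : Lab v s) (hsz : s ≠ z) {h : Co0} {u : leechLattice} (hh : h • v = v + (u + u)) {γ : Co0}
    (hγ : γ ∈ EE M Q1) : h * γ * h⁻¹ ∈ EE M Q1 := by
  obtain ⟨c, hc, hR⟩ := hγ
  obtain ⟨d, hd, hds⟩ := exists_R_comm M hs P1.z1 hsz hh
  exact ⟨d * c * d⁻¹, P1.N d hds c hc, M.R_mul (M.R_mul hd hR) (M.R_inv hd)⟩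

/-- elements of `EE` fix the class of the label of `s` -/
theorem EE_fix (M : MonData z Q Lab R q b) {Q1 : Subgroup G} {s : G} (P1 : Pack Q1 s) {v : leechLattice}
    (hs : Lab v s) {γ : Co0} (hγ : γ ∈ EE M Q1) : ∃ u, γ • v = v + (u + u) := by
  obtain ⟨c, hc, hR⟩ := hγ
  have h1 := M.R_conj hR hs
  have h2 : c * s * c⁻¹ = s := by
    rw [P1.zc c hc]; group
  rw [h2] at h1
  exact lab_congr M h1 hs

/-- `EE` is not contained in the centre of `Co0` -/
theorem exists_EE [Finite G] (M : MonData z Q Lab R q b) {Q1 : Subgroup G} {s : G} (P1 : Pack Q1 s)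
    (hcard : 8 < Nat.card Q1) (hz1 : z ∈ Q1) (hsz : s ≠ z) : ∃ γ ∈ EE M Q1, γ ≠ 1 ∧ γ ≠ neg := by
  by_contra hcon
  push Not at hcon
  have hQ : ∀ c ∈ Q1, c * z = z * c → c ∈ Q := by
    intro c hc hcz
    obtain ⟨γ, hγ⟩ := M.R_ex' hcz
    rw [M.R_Q hγ]
    by_cases h1 : γ = 1
    · exact Or.inl h1
    · exact Or.inr (hcon γ ⟨c, hc, hγ⟩ h1)
  obtain ⟨a, ha, c, hc, haz, hcz, hac⟩ := P1.exists_noncomm hz1 M.pack.z1 (Ne.symm hsz) hcard
  have h1 := M.pack.comm a (hQ a ha haz) c (hQ c hc hcz)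
  have h2 : a * c * a⁻¹ * c⁻¹ = s := by
    rw [hac]; group
  rw [h2] at h1
  rcases h1 with h1 | h1
  · exact P1.z1 h1
  · exact hsz h1

/-- the label of a conjugate `s ≠ z` of `z` in `Q` has norm 64 -/
theorem norm_label [Finite G] (L : LF) (M : MonData z Q Lab R q b) {Q1 : Subgroup G} {s : G} (P1 : Pack Q1 s)
    (h2 : IsPGroup 2 Q1) (hcard : 8 < Nat.card Q1) (hz1 : z ∈ Q1) (hsz : s ≠ z) (hsQ : s ∈ Q) :
    ∃ v, Lab v s ∧ sqNorm (v : GolayPt → ℤ) = 64 := by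
  obtain ⟨v, hv, h3⟩ := exists_label L M hsQ P1.zz P1.z1 hsz
  rcases h3 with h3 | h3
  · exfalso
    -- the subgroup of `EE` fixing `v`
    let E : Subgroup Co0 := EE M Q1 ⊓ MulAction.stabilizer Co0 v
    have hE : E = ⊥ := by
      apply core L.h64 L.h32 h3
      · exact (EE_isPGroup M h2).to_le inf_le_left
      · intro g hg; exact hg.2
      · intro h hh g hg
        refine ⟨EE_normal M P1 hv hsz (u := 0) (by rw [hh]; simp) hg.1, ?_⟩
        have hg2 : g • v = v := hg.2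
        show (h * g * h⁻¹) • v = v
        have hh' : h⁻¹ • v = v := by rw [inv_smul_eq_iff, hh]
        rw [mul_smul, mul_smul, hh', hg2, hh]
    obtain ⟨γ, hγ, hγ1, hγn⟩ := exists_EE M P1 hcard hz1 hsz
    obtain ⟨u, hu⟩ := EE_fix M P1 hv hγ
    rcases eq_of_congr32 (by rw [H91.LeechTools.norm_smul, h3]) h3 hu with h4 | h4
    · have : γ ∈ E := ⟨hγ, h4⟩
      rw [hE, Subgroup.mem_bot] at this
      exact hγ1 this
    · have : neg * γ ∈ E := ⟨(EE M Q1).mul_mem (neg_mem_EE M) hγ, by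
        show (neg * γ) • v = v
        rw [mul_smul, h4, neg_smul, neg_neg]⟩
      rw [hE, Subgroup.mem_bot] at this
      apply hγn
      have h5 : γ = neg⁻¹ := (inv_eq_of_mul_eq_one_right this).symm
      rw [h5]
      exact inv_eq_of_mul_eq_one_left neg_mul_neg
  · exact ⟨v, hv, h3⟩

end H91.MonPair
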