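import Cfsg.Agent.Lib.H91.MonData
import Cfsg.Agent.Lib.H91.Co2Core

/-!
Groups of Monster type: the types of the elements of `Q`; the conjugates of `z` in `Q` have type 4.
-/

set_option autoImplicit false

namespace H91.MonType

open Cfsg H8.GolayCode H91.MonsterForm H91.LargePair H91.Setting H91.InvForm H91.LeechTools H91.MonData H91.Co2Core

/-- The facts on the Leech lattice that are used. -/
structure LF : Prop where
  h32 : H32
  h64 : H64
  h48 : ∀ v w : leechLattice, sqNorm (v : GolayPt → ℤ) = 48 → sqNorm (w : GolayPt → ℤ) = 48 → ∃ g : Co0, g • v = w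
  short : ∀ v : leechLattice, ∃ w u : leechLattice, v = w + (u + u) ∧ sqNorm (w : GolayPt → ℤ) ≤ 64

theorem norm_nonneg (v : leechLattice) : 0 ≤ sqNorm (v : GolayPt → ℤ) := H9.Leech.sqNorm_nonneg _

theorem norm_cases {w : leechLattice} (h : sqNorm (w : GolayPt → ℤ) ≤ 64) :
    w = 0 ∨ sqNorm (w : GolayPt → ℤ) = 32 ∨ sqNorm (w : GolayPt → ℤ) = 48 ∨ sqNorm (w : GolayPt → ℤ) = 64 := by
  by_cases h0 : w = 0
  · exact Or.inl h0
  · right
    have h1 := min_norm h0
    have h2 := sixteen_dvd w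
    omega

/-- short vectors are not doubles -/
theorem not_double {v w : leechLattice} (h0 : v ≠ 0) (h : sqNorm (v : GolayPt → ℤ) ≤ 64) (hw : v = w + w) : False := by
  have h1 : sqNorm (v : GolayPt → ℤ) = 4 * sqNorm (w : GolayPt → ℤ) := by
    rw [hw, norm_add, dot_self]; ring
  have hw0 : w ≠ 0 := by
    intro h2; apply h0; rw [hw, h2, add_zero]
  have := min_norm hw0
  omega

theorem ne_zero_of_norm {v : leechLattice} {n : ℤ} (hn : n ≠ 0) (h : sqNorm (v : GolayPt → ℤ) = n) : v ≠ 0 := by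
  intro h0
  apply hn
  rw [← h, h0]
  simp [sqNorm]

/-- congruent minimal vectors are equal up to sign -/
theorem eq_of_congr32 {v w u : leechLattice} (hv : sqNorm (v : GolayPt → ℤ) = 32) (hw : sqNorm (w : GolayPt → ℤ) = 32)
    (h : v = w + (u + u)) : v = w ∨ v = -w := by
  by_contra hcon
  push Not at hcon
  have h3 : (v : GolayPt → ℤ) - (w : GolayPt → ℤ) = 2 • (u : GolayPt → ℤ) := by
    rw [h]
    funext k
    simp only [AddSubgroup.coe_add, Pi.add_apply, Pi.sub_apply, Pi.smul_apply, nsmul_eq_mul]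
    push_cast
    ring
  obtain ⟨h4, -, -⟩ := H93.LeechCong.key w.2 (by rw [hv]; norm_num) (by rw [hw]; norm_num) ⟨_, u.2, h3⟩
    (fun h => hcon.1 (Subtype.ext h)) (fun h => hcon.2 (Subtype.ext (by rw [h]; rfl)))
  rw [hv] at h4
  norm_num at h4

section

variable {q : leechLattice → ZMod 2} {b : leechLattice → leechLattice → ZMod 2}

theorem q32 (L : LF) (F : InvForm q b) {v : leechLattice} (h : sqNorm (v : GolayPt → ℤ) = 32) : q v = 0 := by
  have h0 : (none : GolayPt) ≠ pt 0 := by decide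
  obtain ⟨g, hg⟩ := L.h32 v (pl none (pt 0)) h (norm_pl h0)
  rw [← F.inv g v, hg, F.q_pl_eq_zero h0]

theorem q_add_double (F : InvForm q b) (v u : leechLattice) : q (v + (u + u)) = q v := by
  rw [F.add, F.qdouble, F.bsymm, F.bdouble, add_zero, add_zero]

theorem q64 (L : LF) (F : InvForm q b) {v : leechLattice} (h : sqNorm (v : GolayPt → ℤ) = 64) : q v = 0 := by
  obtain ⟨g, u, hg⟩ := L.h64 v (fr none) h (norm_fr none)
  rw [← F.inv g v, hg, q_add_double F]
  exact F.q_four _ _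

theorem q48 (L : LF) (F : InvForm q b) (hne : ∃ v, q v ≠ 0) {v : leechLattice}
    (h : sqNorm (v : GolayPt → ℤ) = 48) : q v = 1 := by
  have key : ∀ a : ZMod 2, a ≠ 0 → a = 1 := by decide
  apply key
  intro h0
  obtain ⟨x, hx⟩ := hne
  obtain ⟨w, u, hw, hn⟩ := L.short x
  rw [hw, q_add_double F] at hx
  apply hx
  rcases norm_cases hn with h1 | h1 | h1 | h1
  · rw [h1]; exact F.qzero
  · exact q32 L F h1
  · obtain ⟨g, hg⟩ := L.h48 w v h1 h
    rw [← F.inv g w, hg, h0]
  · exact q64 L F h1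

end

variable {G : Type*} [Group G] {z : G} {Q : Subgroup G} {Lab : leechLattice → G → Prop}
    {R : G → Co0 → Prop} {q : leechLattice → ZMod 2} {b : leechLattice → leechLattice → ZMod 2}

theorem lab_add_double (M : MonData z Q Lab R q b) {v u : leechLattice} {x : G} (h : Lab v x) :
    Lab (v + (u + u)) x := by
  have h1 : Lab (u + u) 1 := M.lab_one.2 ⟨u, rfl⟩
  have := M.lab_mul h h1
  rwa [mul_one] at this

theorem lab_mul_z (M : MonData z Q Lab R q b) {v : leechLattice} {x : G} (h : Lab v x) : Lab v (x * z) := by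
  have := M.lab_mul h (M.lab_zero.2 (Or.inr rfl))
  rwa [add_zero] at this

theorem lab_inv (M : MonData z Q Lab R q b) {v : leechLattice} {x : G} (h : Lab v x) : Lab (-v) x⁻¹ := by
  obtain ⟨w, hw⟩ := M.lab_surj (Q.inv_mem (M.lab_mem h))
  have h1 := M.lab_mul h hw
  rw [mul_inv_cancel, M.lab_one] at h1
  obtain ⟨u, hu⟩ := h1
  have h2 : -v = w + (-u + -u) := by
    have : w = (u + u) - v := by rw [← hu]; abel
    rw [this]; abel
  rw [h2]
  exact lab_add_double M hw

/-- elements with the same label -/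
theorem lab_eq (M : MonData z Q Lab R q b) {v : leechLattice} {x y : G} (h1 : Lab v x) (h2 : Lab v y) :
    y = x ∨ y = x * z := by
  have h3 := M.lab_mul (lab_inv M h1) h2
  rw [neg_add_cancel, M.lab_zero] at h3
  rcases h3 with h3 | h3
  · left; rw [inv_mul_eq_one] at h3; exact h3.symm
  · right; rw [inv_mul_eq_iff_eq_mul] at h3; exact h3

/-- labels of the same element -/
theorem lab_congr (M : MonData z Q Lab R q b) {v w : leechLattice} {x : G} (h1 : Lab v x) (h2 : Lab w x) :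
    ∃ u, v = w + (u + u) := by
  have h3 := M.lab_mul h1 (lab_inv M h2)
  rw [mul_inv_cancel, M.lab_one] at h3
  obtain ⟨u, hu⟩ := h3
  exact ⟨u, by rw [← hu]; abel⟩

/-- elements with the same label are conjugate in `Q` -/
theorem lab_conj (M : MonData z Q Lab R q b) {v : leechLattice} {x y : G} (h1 : Lab v x) (h2 : Lab v y)
    (hx1 : x ≠ 1) (hxz : x ≠ z) : ∃ c ∈ Q, c * x * c⁻¹ = y := by
  rcases lab_eq M h1 h2 with h | h
  · exact ⟨1, Q.one_mem, by rw [h]; group⟩
  · obtain ⟨t, ht, hts⟩ := M.pack.exists_shift (M.lab_mem h1) hx1 hxz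
    exact ⟨t, ht, by rw [hts, h, M.pack.zc x (M.lab_mem h1)]⟩

theorem ne_of_short (M : MonData z Q Lab R q b) {v : leechLattice} {x : G} (h : Lab v x) (h0 : v ≠ 0)
    (hn : sqNorm (v : GolayPt → ℤ) ≤ 64) : x ≠ 1 ∧ x ≠ z := by
  constructor
  · rintro rfl
    obtain ⟨w, hw⟩ := M.lab_one.1 h
    exact not_double h0 hn hw
  · rintro rfl
    have h1 := lab_mul_z M h
    rw [M.pack.zz] at h1
    obtain ⟨w, hw⟩ := M.lab_one.1 h1
    exact not_double h0 hn hw

/-- every element of `Q` has a short label -/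
theorem exists_short (L : LF) (M : MonData z Q Lab R q b) {x : G} (hx : x ∈ Q) :
    ∃ v, Lab v x ∧ sqNorm (v : GolayPt → ℤ) ≤ 64 := by
  obtain ⟨v, hv⟩ := M.lab_surj hx
  obtain ⟨w, u, hw, hn⟩ := L.short v
  refine ⟨w, ?_, hn⟩
  have h1 := lab_add_double M (u := -u) hv
  have h2 : v + (-u + -u) = w := by rw [hw]; abel
  rwa [h2] at h1

/-- some vector is not singular -/
theorem exists_q_ne (M : MonData z Q Lab R q b) : ∃ v, q v ≠ 0 := by
  by_contra hcon
  push Not at hcon
  have hsq : ∀ x ∈ Q, x * x = 1 := by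
    intro x hx
    obtain ⟨v, hv⟩ := M.lab_surj hx
    exact (M.q_lab hv).1 (hcon v)
  have hab : ∀ x ∈ Q, ∀ y ∈ Q, y * x = x * y := by
    intro x hx y hy
    have e1 := hsq x hx
    have e2 := hsq y hy
    have e3 := hsq (x * y) (Q.mul_mem hx hy)
    have i1 : x⁻¹ = x := inv_eq_of_mul_eq_one_left e1
    have i2 : y⁻¹ = y := inv_eq_of_mul_eq_one_left e2
    have i3 : (x * y)⁻¹ = x * y := inv_eq_of_mul_eq_one_left e3
    rw [← i3, mul_inv_rev, i1, i2]
  have hsub : (Q : Set G) ⊆ {1, z} := by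
    intro x hx
    rcases M.pack.cen x hx (hab x hx) with h | h
    · exact Or.inl h
    · exact Or.inr h
  have h1 : Nat.card Q ≤ 2 := by
    have : Nat.card Q = (Q : Set G).ncard := rfl
    rw [this]
    refine (Set.ncard_le_ncard hsub (Set.toFinite _)).trans ?_
    exact Set.ncard_insert_le _ _ |>.trans (by simp)
  rw [M.card] at h1
  norm_num at h1

/-- labels of the non-central involutions of `Q` -/
theorem exists_label (L : LF) (M : MonData z Q Lab R q b) {x : G} (hx : x ∈ Q) (hxx : x * x = 1)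
    (hx1 : x ≠ 1) (hxz : x ≠ z) :
    ∃ v, Lab v x ∧ (sqNorm (v : GolayPt → ℤ) = 32 ∨ sqNorm (v : GolayPt → ℤ) = 64) := by
  obtain ⟨v, hv, hn⟩ := exists_short L M hx
  refine ⟨v, hv, ?_⟩
  rcases norm_cases hn with h1 | h1 | h1 | h1
  · rw [h1, M.lab_zero] at hv
    rcases hv with h | h
    · exact absurd h hx1
    · exact absurd h hxz
  · exact Or.inl h1
  · have h2 := q48 L M.form (exists_q_ne M) h1
    have h3 := (M.q_lab hv).2 hxx
    rw [h3] at h2
    exact absurd h2 (by decide)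
  · exact Or.inr h1

theorem trans32 (L : LF) (M : MonData z Q Lab R q b) {v w : leechLattice} {x y : G} (hv : Lab v x) (hw : Lab w y)
    (h1 : sqNorm (v : GolayPt → ℤ) = 32) (h2 : sqNorm (w : GolayPt → ℤ) = 32) :
    ∃ c, c * z = z * c ∧ c * x * c⁻¹ = y := by
  obtain ⟨γ, hγ⟩ := L.h32 v w h1 h2
  obtain ⟨c, hc⟩ := M.R_ex γ
  have h3 := M.R_conj hc hv
  rw [hγ] at h3
  obtain ⟨h4, h5⟩ := ne_of_short M h3 (ne_zero_of_norm (by norm_num) h2) (by rw [h2]; norm_num)
  obtain ⟨d, hd, hd'⟩ := lab_conj M h3 hw h4 h5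
  refine ⟨d * c, ?_, ?_⟩
  · rw [mul_assoc, M.R_comm hc, ← mul_assoc, M.pack.zc d hd, mul_assoc]
  · rw [← hd']; group

theorem trans64 (L : LF) (M : MonData z Q Lab R q b) {v w : leechLattice} {x y : G} (hv : Lab v x) (hw : Lab w y)
    (h1 : sqNorm (v : GolayPt → ℤ) = 64) (h2 : sqNorm (w : GolayPt → ℤ) = 64) :
    ∃ c, c * z = z * c ∧ c * x * c⁻¹ = y := by
  obtain ⟨γ, u, hγ⟩ := L.h64 v w h1 h2
  obtain ⟨c, hc⟩ := M.R_ex γ
  have h3 := M.R_conj hc hv
  have h3' := lab_add_double M (u := -u) h3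
  have e : γ • v + (-u + -u) = w := by rw [hγ]; abel
  rw [e] at h3'
  obtain ⟨h4, h5⟩ := ne_of_short M h3' (ne_zero_of_norm (by norm_num) h2) (by rw [h2])
  obtain ⟨d, hd, hd'⟩ := lab_conj M h3' hw h4 h5
  refine ⟨d * c, ?_, ?_⟩
  · rw [mul_assoc, M.R_comm hc, ← mul_assoc, M.pack.zc d hd, mul_assoc]
  · rw [← hd']; group

/-- an element of the stabiliser of the class of `v` is induced by an element centralising a given `s` with
label `v` -/
theorem exists_R_comm (M : MonData z Q Lab R q b) {v u : leechLattice} {s : G} (hs : Lab v s) (hs1 : s ≠ 1)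
    (hsz : s ≠ z) {γ : Co0} (hγ : γ • v = v + (u + u)) : ∃ c, R c γ ∧ c * s = s * c := by
  obtain ⟨c, hc⟩ := M.R_ex γ
  have h3 := M.R_conj hc hs
  rw [hγ] at h3
  have h4 := lab_add_double M (u := -u) h3
  have e : v + (u + u) + (-u + -u) = v := by abel
  rw [e] at h4
  have hne1 : c * s * c⁻¹ ≠ 1 := by
    intro h
    apply hs1
    calc s = c⁻¹ * (c * s * c⁻¹) * c := by group
      _ = 1 := by rw [h]; group
  have hnez : c * s * c⁻¹ ≠ z := by
    intro h
    apply hsz
    calc s = c⁻¹ * (c * s * c⁻¹) * c := by group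
      _ = c⁻¹ * (c * z) := by rw [h, M.R_comm hc]; group
      _ = z := by group
  obtain ⟨t, ht, hts⟩ := lab_conj M h4 hs hne1 hnez
  refine ⟨t * c, ?_, ?_⟩
  · have := M.R_mul (M.R_one ht) hc
    rwa [one_mul] at this
  · have : t * c * s * (t * c)⁻¹ = s := by
      calc t * c * s * (t * c)⁻¹ = t * (c * s * c⁻¹) * t⁻¹ := by group
        _ = s := hts
    exact mul_inv_eq_iff_eq_mul.1 this

end H91.MonType
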