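import Mathlib
import Cfsg.Prelude.Def_KGroupFacts
import Cfsg.Agent.Lib.H91.MulU43
import Cfsg.Agent.Lib.H91.MulFib
import Cfsg.Agent.Lib.H19.SUMult
import Cfsg.Agent.Lib.H40.StemFinish
import Cfsg.Agent.Lib.H64.U34C

set_option autoImplicit false
set_option linter.all false

/-! The Schur multiplier of PSU(4,3): order 4 · 3 · 3. -/

namespace H91.MulU43b
open H35.Stem H19.QC H19.AltMult H23.LiftPP

theorem iso_SU {F : Type} [Field F] [Fintype F] (hF : Fintype.card F = 3 ^ 2) (D : H6.SUGenC.Data 4 F 3) :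
    Nonempty (Cfsg.SU 4 F 3 ≃* H95.UBasic.SU D.h) :=
  ⟨(MonoidHom.ofInjective (H6.SUGenC.emb_injective 4 F 3)).trans (MulEquiv.subgroupCongr (H6.SUGenC.range_emb D))⟩

/-- stem extensions of `SU(4,3)` with kernel of order prime to 3 are trivial -/
theorem ker_bot {F : Type} [Field F] [Fintype F] (hF : Fintype.card F = 9) {Γ : Type} [Group Γ] [Finite Γ] {π : Γ →* Cfsg.SU 4 F 3}
    (hπ : Cfsg.IsStemExtension π) (hc : Nat.Coprime 3 (Nat.card π.ker)) : π.ker = ⊥ := by
  have hF' : Fintype.card F = 3 ^ 2 := by rw [hF]; norm_num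
  haveI h3 : Fact (Nat.Prime 3) := ⟨by norm_num⟩
  haveI : CharP F 3 := charP_of_card_eq_prime_pow (f := 2) (by rw [← hF'])
  obtain ⟨D⟩ := H6.SUGenC.exists_data 4 hF'
  obtain ⟨e⟩ := iso_SU hF' D
  have hk : (e.toMonoidHom.comp π).ker = π.ker := by
    ext x
    rw [MonoidHom.mem_ker, MonoidHom.mem_ker]
    change e (π x) = 1 ↔ _
    rw [map_eq_one_iff e e.injective]
  have hs : Function.Surjective (e.toMonoidHom.comp π) := e.surjective.comp hπ.1
  have hE : CExt (e.toMonoidHom.comp π) 3 := ⟨by rw [hk]; exact hπ.2.1, by rw [hk]; exact hc⟩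
  have hgG : Subgroup.closure {g : H95.UBasic.SU D.h | PP 3 g} = ⊤ :=
    SU_gen D.skew (H6.SUGenC.three_le (by norm_num)) (H6.SUGenC.cond hF' D (by norm_num) (by omega))
  rw [← hk]
  exact pprime_su D hF' (by norm_num) hE hs (gen_of_stem hE hs (by rw [hk]; exact hπ.2.2) hgG)

section field

variable {F : Type} [Field F] [Fintype F]

/-- the projection -/
def tau (F : Type) [Field F] : Cfsg.SU 4 F 3 →* Cfsg.PSU 4 F 3 := QuotientGroup.mk' (Subgroup.center (Cfsg.SU 4 F 3))

theorem tau_stem (hF : Fintype.card F = 9) : Cfsg.IsStemExtension (tau F) := by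
  refine ⟨QuotientGroup.mk'_surjective _, ?_, ?_⟩
  · rw [tau, QuotientGroup.ker_mk']
  · rw [H6.SUGenC.commutator_eq_top (F := F) (q := 3) (by rw [hF]; norm_num) 4 (by norm_num) (by omega)]
    exact le_top

theorem card_tau (hF : Fintype.card F = 9) : Nat.card (tau F).ker = 4 := by
  rw [tau, QuotientGroup.ker_mk']
  exact H86.U43SevenC.card_Z hF

theorem perf (hF : Fintype.card F = 9) : commutator (Cfsg.PSU 4 F 3) = ⊤ := by
  haveI h3 : Fact (Nat.Prime 3) := ⟨by norm_num⟩
  haveI : CharP F 3 := charP_of_card_eq_prime_pow (f := 2) (by rw [hF]; norm_num)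
  exact H91.MulU43.perf hF

theorem card_ker_two (hF : Fintype.card F = 9) {Γ : Type} [Group Γ] [Finite Γ] {σ : Γ →* Cfsg.PSU 4 F 3}
    (hσ : Cfsg.IsStemExtension σ) (hc : Nat.Coprime 3 (Nat.card σ.ker)) : Nat.card σ.ker ≤ 4 := by
  obtain ⟨D, _, _, ρ, s₁, s₂, hρ, hs₁, hs₂, c1, c2, hinj⟩ := H91.Mul.exists_fibre (perf hF) hσ (tau_stem hF)
  have hker : ∀ z ∈ s₂.ker, ρ z = 1 := by
    intro z hz
    rw [← c2, MonoidHom.mem_ker.1 hz, map_one]
  have hst : Cfsg.IsStemExtension s₂ := by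
    refine ⟨hs₂, fun z hz => hρ.2.1 (hker z hz), ?_⟩
    rw [H91.Mul.stem_perfect hρ (perf hF)]
    exact le_top
  let j : s₂.ker →* σ.ker := (s₁.comp s₂.ker.subtype).codRestrict σ.ker (fun z => by
    change σ (s₁ z.1) = 1
    rw [c1, hker z.1 z.2])
  have hj : Function.Injective j := by
    rw [injective_iff_map_eq_one]
    intro z hz
    apply Subtype.ext
    exact hinj z.1 (congrArg Subtype.val hz) z.2
  have hdvd : Nat.card s₂.ker ∣ Nat.card σ.ker := by
    exact Subgroup.card_dvd_of_injective j hj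
  have hbot := ker_bot hF hst (Nat.Coprime.coprime_dvd_right hdvd hc)
  have hb2 : Function.Bijective s₂ := ⟨(MonoidHom.ker_eq_bot_iff s₂).1 hbot, hs₂⟩
  have e1 : Nat.card D = Nat.card (Cfsg.SU 4 F 3) := Nat.card_congr (Equiv.ofBijective _ hb2)
  have e2 : Nat.card Γ ≤ Nat.card D := Nat.card_le_card_of_surjective _ hs₁
  have e3 : Nat.card σ.ker * Nat.card (Cfsg.PSU 4 F 3) = Nat.card Γ := by
    have h1 := Subgroup.card_mul_index σ.ker
    rw [Subgroup.index_ker, MonoidHom.range_eq_top.2 hσ.1, Nat.card_congr (Subgroup.topEquiv (G := Cfsg.PSU 4 F 3)).toEquiv] at h1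
    exact h1
  rw [H86.U43SevenC.card_PSU4 hF] at e3
  rw [H86.U43SevenC.card_SU4 hF] at e1
  omega

theorem noExt8 (hF : Fintype.card F = 9) : NoExt (Cfsg.PSU 4 F 3) 8 := by
  intro Γ _ _ σ hσ hc
  have h1 := card_ker_two hF hσ (by rw [hc]; norm_num)
  omega

theorem noExt27 (hF : Fintype.card F = 9) : NoExt (Cfsg.PSU 4 F 3) 27 := by
  haveI h3 : Fact (Nat.Prime 3) := ⟨by norm_num⟩
  haveI : CharP F 3 := charP_of_card_eq_prime_pow (f := 2) (by rw [hF]; norm_num)
  obtain ⟨i, hi⟩ : IsSquare (-1 : F) := by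
    rw [FiniteField.isSquare_neg_one_iff, hF]
    norm_num
  exact H91.MulU43.noExt27 hF hi.symm

theorem ex9 (hF : Fintype.card F = 9) : ∃ (Γ : Type) (_ : Group Γ) (_ : Finite Γ) (σ : Γ →* Cfsg.PSU 4 F 3),
    Cfsg.IsStemExtension σ ∧ Nonempty (σ.ker ≃* H91.MulU43.A) := by
  haveI h3 : Fact (Nat.Prime 3) := ⟨by norm_num⟩
  haveI : CharP F 3 := charP_of_card_eq_prime_pow (f := 2) (by rw [hF]; norm_num)
  obtain ⟨i, hi⟩ : IsSquare (-1 : F) := by
    rw [FiniteField.isSquare_neg_one_iff, hF]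
    norm_num
  exact H91.MulU43.ex9 hF hi.symm

theorem fac2 : Nat.factorization 36 2 = 2 := by
  rw [show (36 : ℕ) = 2 ^ 2 * 3 ^ 2 by norm_num, Nat.factorization_mul (by norm_num) (by norm_num), Nat.Prime.factorization_pow (by norm_num),
    Nat.Prime.factorization_pow (by norm_num)]
  simp

theorem fac3 : Nat.factorization 36 3 = 2 := by
  rw [show (36 : ℕ) = 2 ^ 2 * 3 ^ 2 by norm_num, Nat.factorization_mul (by norm_num) (by norm_num), Nat.Prime.factorization_pow (by norm_num),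
    Nat.Prime.factorization_pow (by norm_num)]
  simp

theorem card_ker (hF : Fintype.card F = 9) {Γ : Type} [Group Γ] [Finite Γ] {σ : Γ →* Cfsg.PSU 4 F 3}
    (hσ : Cfsg.IsStemExtension σ) : Nat.card σ.ker ≤ 36 := by
  refine H91.Mul.card_ker_le (m := 36) (by norm_num) ?_ hσ
  intro p hp
  by_cases h2 : p = 2
  · subst h2
    left
    rw [fac2]
    exact noExt8 hF
  · by_cases h3 : p = 3
    · subst h3
      left
      rw [fac3]
      exact noExt27 hF
    · right
      rw [H86.U43SevenC.card_PSU4 hF]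
      intro hd
      have c2 : Nat.Coprime (p ^ 2) (2 ^ 7) := Nat.Coprime.pow _ _ ((Nat.coprime_primes hp (by norm_num)).2 h2)
      have c3 : Nat.Coprime (p ^ 2) (3 ^ 6) := Nat.Coprime.pow _ _ ((Nat.coprime_primes hp (by norm_num)).2 h3)
      have h4 : p ^ 2 ∣ 35 := by
        have h5 : p ^ 2 ∣ (2 ^ 7) * (3 ^ 6 * 35) := by
          refine hd.trans ?_
          norm_num
        exact c3.dvd_of_dvd_mul_left (c2.dvd_of_dvd_mul_left h5)
      have h6 := Nat.le_of_dvd (by norm_num) h4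
      have h7 : p ≤ 5 := by nlinarith
      have h8 := hp.two_le
      interval_cases p
      · exact h2 rfl
      · exact h3 rfl
      · norm_num at hp
      · norm_num at h4

abbrev A36 : Type := Multiplicative (ZMod 4) × (Multiplicative (ZMod 3) × Multiplicative (ZMod 3))

theorem card_A36 : Nat.card A36 = 36 := by
  rw [Nat.card_prod, Nat.card_prod]
  simp [Nat.card_eq_fintype_card, ZMod.card]

theorem cyc (hF : Fintype.card F = 9) : Nonempty ((tau F).ker ≃* Multiplicative (ZMod 4)) := by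
  haveI : IsCyclic (tau F).ker := by
    rw [tau, QuotientGroup.ker_mk']
    choose c hc using fun z : Subgroup.center (Cfsg.SU 4 F 3) => H7.UnitSU.center_scalar (q := 3) (by rw [hF]; norm_num) (by norm_num : 2 ≤ 4) z.2
    have hi : ∀ a b : F, Matrix.diagonal (fun _ : Fin 4 => a) = Matrix.diagonal (fun _ : Fin 4 => b) → a = b := by
      intro a b hab
      have := congrArg (fun M : Matrix (Fin 4) (Fin 4) F => M 0 0) hab
      simpa using this
    let f : Subgroup.center (Cfsg.SU 4 F 3) →* F :=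
      { toFun := c
        map_one' := by
          apply hi
          rw [← hc]
          change (1 : Matrix (Fin 4) (Fin 4) F) = _
          exact (Matrix.diagonal_one).symm
        map_mul' := by
          intro a b
          apply hi
          rw [← hc]
          change (((a : Cfsg.SU 4 F 3) : Matrix.SpecialLinearGroup (Fin 4) F) : Matrix (Fin 4) (Fin 4) F) *
            (((b : Cfsg.SU 4 F 3) : Matrix.SpecialLinearGroup (Fin 4) F) : Matrix (Fin 4) (Fin 4) F) = _
          rw [hc, hc, Matrix.diagonal_mul_diagonal] }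
    have hf : Function.Injective f := by
      intro a b hab
      apply Subtype.ext
      apply Subtype.ext
      apply Subtype.ext
      have hab' : c a = c b := hab
      change (((a : Cfsg.SU 4 F 3) : Matrix.SpecialLinearGroup (Fin 4) F) : Matrix (Fin 4) (Fin 4) F) =
        (((b : Cfsg.SU 4 F 3) : Matrix.SpecialLinearGroup (Fin 4) F) : Matrix (Fin 4) (Fin 4) F)
      rw [hc, hc, hab']
    exact isCyclic_of_injective_ringHom f hf
  have aux : ∀ n : ℕ, Nat.card (tau F).ker = n → Nonempty ((tau F).ker ≃* Multiplicative (ZMod n)) := by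
    rintro n rfl
    exact ⟨(zmodCyclicMulEquiv inferInstance).symm⟩
  exact aux 4 (card_tau hF)

theorem ex36 (hF : Fintype.card F = 9) : ∃ (Γ : Type) (_ : Group Γ) (_ : Finite Γ) (σ : Γ →* Cfsg.PSU 4 F 3),
    Cfsg.IsStemExtension σ ∧ Nonempty (σ.ker ≃* A36) := by
  obtain ⟨Γ, _, _, σ, hσ, ⟨e9⟩⟩ := ex9 hF
  obtain ⟨e4⟩ := cyc hF
  obtain ⟨D, _, _, ρ, s₁, s₂, hρ, hs₁, hs₂, c1, c2, hinj⟩ := H91.Mul.exists_fibre (perf hF) (tau_stem hF) hσ
  refine ⟨D, inferInstance, inferInstance, ρ, hρ, ?_⟩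
  let j₁ : ρ.ker →* (tau F).ker := (s₁.comp ρ.ker.subtype).codRestrict (tau F).ker (fun z => by
    change tau F (s₁ z.1) = 1
    rw [c1]
    exact z.2)
  let j₂ : ρ.ker →* σ.ker := (s₂.comp ρ.ker.subtype).codRestrict σ.ker (fun z => by
    change σ (s₂ z.1) = 1
    rw [c2]
    exact z.2)
  have hj₁ : Function.Surjective j₁ := by
    rintro ⟨y, hy⟩
    obtain ⟨d, rfl⟩ := hs₁ y
    exact ⟨⟨d, by rw [MonoidHom.mem_ker, ← c1]; exact hy⟩, rfl⟩
  have hj₂ : Function.Surjective j₂ := by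
    rintro ⟨y, hy⟩
    obtain ⟨d, rfl⟩ := hs₂ y
    exact ⟨⟨d, by rw [MonoidHom.mem_ker, ← c2]; exact hy⟩, rfl⟩
  have d4 : 4 ∣ Nat.card ρ.ker := by
    have := Subgroup.card_dvd_of_surjective j₁ hj₁
    rwa [card_tau hF] at this
  have c9 : Nat.card σ.ker = 9 := by rw [Nat.card_congr e9.toEquiv, H91.MulU43.card_A]
  have d9 : 9 ∣ Nat.card ρ.ker := by
    have := Subgroup.card_dvd_of_surjective j₂ hj₂
    rwa [c9] at this
  have d36 : 36 ∣ Nat.card ρ.ker := (by norm_num : Nat.Coprime 4 9).mul_dvd_of_dvd_of_dvd d4 d9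
  have hJ : Function.Injective (j₁.prod j₂) := by
    rw [injective_iff_map_eq_one]
    intro z hz
    have h1 : j₁ z = 1 := congrArg Prod.fst hz
    have h2 : j₂ z = 1 := congrArg Prod.snd hz
    apply Subtype.ext
    exact hinj z.1 (congrArg Subtype.val h1) (congrArg Subtype.val h2)
  have cP : Nat.card ((tau F).ker × σ.ker) = 36 := by rw [Nat.card_prod, card_tau hF, c9]
  have hle := Nat.card_le_card_of_injective _ hJ
  rw [cP] at hle
  have hpos : 0 < Nat.card ρ.ker := Nat.card_pos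
  have heq : Nat.card ρ.ker = Nat.card ((tau F).ker × σ.ker) := by
    rw [cP]
    exact le_antisymm hle (Nat.le_of_dvd hpos d36)
  have hbij : Function.Bijective (j₁.prod j₂) := (Nat.bijective_iff_injective_and_card _).2 ⟨hJ, heq⟩
  exact ⟨(MulEquiv.ofBijective _ hbij).trans (MulEquiv.prodCongr e4 e9)⟩

theorem mult0 (hF : Fintype.card F = 9) : Cfsg.HasSchurMultiplier (Cfsg.PSU 4 F 3) A36 :=
  H91.Mul.hasMult_of (perf hF) (ex36 hF) (fun Γ _ _ σ hσ => by rw [card_A36]; exact card_ker hF hσ)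

end field

theorem isoA : Nonempty (A36 ≃* Multiplicative (ZMod 4 × ZMod 3 × ZMod 3)) :=
  ⟨{ toFun := fun a => Multiplicative.ofAdd (a.1.toAdd, a.2.1.toAdd, a.2.2.toAdd)
     invFun := fun a => (Multiplicative.ofAdd a.toAdd.1, Multiplicative.ofAdd a.toAdd.2.1, Multiplicative.ofAdd a.toAdd.2.2)
     left_inv := fun _ => rfl
     right_inv := fun _ => rfl
     map_mul' := fun _ _ => rfl }⟩

/-- **the Schur multiplier of PSU(4,3)** -/
theorem mult {F : Type*} [Field F] [Fintype F] (hF : Fintype.card F = 9) :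
    Cfsg.HasSchurMultiplier (Cfsg.PSU 4 F 3) (Multiplicative (ZMod 4 × ZMod 3 × ZMod 3)) := by
  obtain ⟨e⟩ := isoA
  haveI h3 : Fact (Nat.Prime 3) := ⟨by norm_num⟩
  letI : Fintype (GaloisField 3 2) := Fintype.ofFinite _
  have h9 : Fintype.card (GaloisField 3 2) = 9 := by
    rw [← Nat.card_eq_fintype_card, GaloisField.card 3 2 (by norm_num)]
    norm_num
  have h1 := H40.StemFinish.HasSchurMultiplier.congr_right e (mult0 (F := GaloisField 3 2) h9)
  have φ : GaloisField 3 2 ≃+* F := FiniteField.ringEquivOfCardEq (by rw [h9, hF])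
  have e1 : Cfsg.PSU 4 (GaloisField 3 2) 3 ≃* Cfsg.PSU 4 F 3 :=
    H6.Frame.quotCenterCongr (H64.U34.suCongr (by rw [h9]; norm_num) (by rw [hF]; norm_num) φ)
  exact H40.StemFinish.HasSchurMultiplier.congr e1 h1

end H91.MulU43b
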