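import Cfsg.Agent.Lib.H90.ThreeTrans
import Cfsg.Agent.Lib.H69.Spec23
import Cfsg.Agent.Lib.H26.SupCard
import Cfsg.Agent.Lib.H1.Hall

/-!
Blocks of a class of 3-transpositions: if there is a nontrivial invariant equivalence relation not containing all
commuting pairs, then there is a nontrivial solvable normal subgroup.
-/

set_option autoImplicit false

namespace H91.TTBlock

open Cfsg H90.ThreeTrans

variable {G : Type*} [Group G]

/-! ### solvability tools -/

/-- elements of order at most 3 modulo a central subgroup -/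
theorem isSolvable_of_central [Finite G] (Z : Subgroup G) (hZ : Z ≤ Subgroup.center G)
    (h : ∀ g : G, g ^ 2 ∈ Z ∨ g ^ 3 ∈ Z) : Group.IsSolvable G := by
  have hn : Z.Normal := ⟨fun z hz g => by
    have := (Subgroup.mem_center_iff.1 (hZ hz)) g
    rw [this, mul_inv_cancel_right]; exact hz⟩
  rw [Group.isSolvable_iff_subgroup_quotient Z]
  constructor
  · have hc : IsMulCommutative Z := ⟨⟨fun a b => Subtype.ext ((Subgroup.mem_center_iff.1 (hZ b.2)) a)⟩⟩
    let _ : CommGroup Z := { mul_comm := fun a b => mul_comm' a b }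
    infer_instance
  · apply H69.Spec23.S.isSolvable
    intro q
    obtain ⟨g, rfl⟩ := QuotientGroup.mk_surjective q
    rcases h g with h1 | h1
    · left
      have h2 : ((g : G ⧸ Z)) ^ 2 = 1 := by
        rw [← QuotientGroup.mk_pow]; exact (QuotientGroup.eq_one_iff _).2 h1
      rw [show (4 : ℕ) = 2 * 2 from rfl, pow_mul, h2, one_pow]
    · right
      rw [← QuotientGroup.mk_pow]; exact (QuotientGroup.eq_one_iff _).2 h1

/-- a subgroup commuting with its conjugate under a 3-transposition is solvable -/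
theorem isSolvable_of_conj [Finite G] {D : Set G} (tt : IsThreeTranspositionSet D)
    (hconj : ∀ g : G, ∀ d ∈ D, g * d * g⁻¹ ∈ D) {d : G} (hd : d ∈ D) (A B : Subgroup G)
    (h1 : ∀ r ∈ A, d * r * d⁻¹ ∈ B) (h2 : ∀ a ∈ A, ∀ b ∈ B, a * b = b * a) : Group.IsSolvable A := by
  apply isSolvable_of_central (B.subgroupOf A)
  · intro z hz
    rw [Subgroup.mem_center_iff]
    intro g
    exact Subtype.ext (h2 g g.2 z (Subgroup.mem_subgroupOf.1 hz))
  · rintro ⟨r, hr⟩
    have hd' := hconj r⁻¹ d hd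
    rw [inv_inv] at hd'
    have h3 := h1 r⁻¹ (inv_mem hr)
    have e : d * (r⁻¹ * d * r) = (d * r⁻¹ * d⁻¹) * r := by
      rw [inv_eq tt hd]; group
    have hc : Commute (d * r⁻¹ * d⁻¹) r := (h2 r hr _ h3).symm
    have key : ∀ n : ℕ, (d * (r⁻¹ * d * r)) ^ n = 1 → r ^ n ∈ B := by
      intro n hn
      rw [e, hc.mul_pow] at hn
      rw [← inv_eq_of_mul_eq_one_right hn]
      exact inv_mem (pow_mem h3 n)
    rcases tt.2 d hd _ hd' with h | h
    · exact Or.inl (Subgroup.mem_subgroupOf.2 (key 2 h))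
    · exact Or.inr (Subgroup.mem_subgroupOf.2 (key 3 h))

theorem commutator_sup_le {A B C E M : Subgroup G} [M.Normal] (h1 : ⁅A, C⁆ ≤ M) (h2 : ⁅A, E⁆ ≤ M) (h3 : ⁅B, C⁆ ≤ M)
    (h4 : ⁅B, E⁆ ≤ M) : ⁅A ⊔ B, C ⊔ E⁆ ≤ M := by
  have key : ∀ X Y : Subgroup G, ⁅X, Y⁆ ≤ M ↔ X.map (QuotientGroup.mk' M) ≤
      Subgroup.centralizer (Y.map (QuotientGroup.mk' M) : Set (G ⧸ M)) := by
    intro X Y
    rw [← Subgroup.commutator_eq_bot_iff_le_centralizer, ← Subgroup.map_commutator, Subgroup.map_eq_bot_iff,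
      QuotientGroup.ker_mk']
  rw [key, Subgroup.map_sup, sup_le_iff]
  constructor
  · rw [Subgroup.le_centralizer_iff, Subgroup.map_sup, sup_le_iff]
    exact ⟨Subgroup.le_centralizer_iff.1 ((key _ _).1 h1), Subgroup.le_centralizer_iff.1 ((key _ _).1 h2)⟩
  · rw [Subgroup.le_centralizer_iff, Subgroup.map_sup, sup_le_iff]
    exact ⟨Subgroup.le_centralizer_iff.1 ((key _ _).1 h3), Subgroup.le_centralizer_iff.1 ((key _ _).1 h4)⟩

/-- a subgroup with solvable commutator subgroup is solvable -/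
theorem isSolvable_of_commutator_le {R M : Subgroup G} (h : ⁅R, R⁆ ≤ M) (hM : Group.IsSolvable M) : Group.IsSolvable R := by
  have hs : Group.IsSolvable (commutator R) := by
    have hmem : ∀ x : commutator R, (x : R).1 ∈ M := by
      rintro ⟨x, hx⟩
      apply h
      have h1 : (commutator R).map R.subtype = ⁅R, R⁆ := by
        rw [commutator_def, Subgroup.map_commutator, ← MonoidHom.range_eq_map, Subgroup.range_subtype]
      rw [← h1]
      exact ⟨x, hx, rfl⟩
    let f : commutator R →* M := MonoidHom.mk' (fun x => ⟨(x : R).1, hmem x⟩) (fun x y => rfl)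
    have hf : Function.Injective f := by
      intro x y hxy
      apply Subtype.ext; apply Subtype.ext
      exact congrArg (fun z : M => (z : G)) hxy
    exact Group.isSolvable_of_isSolvable_injective hf
  rw [Group.isSolvable_iff_subgroup_quotient (commutator R)]
  exact ⟨hs, inferInstanceAs (Group.IsSolvable (Abelianization R))⟩

variable {D : Set G}

/-- an invariant equivalence relation on `D` -/
structure Eqv (D : Set G) (E : G → G → Prop) : Prop where
  mem : ∀ {x y}, E x y → x ∈ D ∧ y ∈ D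
  refl : ∀ {x}, x ∈ D → E x x
  symm : ∀ {x y}, E x y → E y x
  trans : ∀ {x y z}, E x y → E y z → E x z
  conj : ∀ {x y} (g : G), E x y → E (g * x * g⁻¹) (g * y * g⁻¹)

variable {E : G → G → Prop} (tt : IsThreeTranspositionSet D) (hconj : ∀ g : G, ∀ d ∈ D, g * d * g⁻¹ ∈ D) (hE : Eqv D E)
include tt hconj hE

omit hconj in
theorem L1 {d x b : G} (hx : x ∈ D) (hc : Commute d x) (hn : ¬ E d x) (hb : E d b) : Commute b x := by
  by_contra hnc
  apply hn
  have hbD := (hE.mem hb).2
  have br := braid tt hbD hx hnc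
  have bb := mul_self tt hbD
  have hbi := inv_eq tt hbD
  have hxi := inv_eq tt hx
  have e1 : x * d * x⁻¹ = d := by rw [← hc.eq, mul_inv_cancel_right]
  have h1 : E d (x * b * x⁻¹) := by
    have := hE.conj x hb
    rwa [e1] at this
  have e2 : b * (x * b * x⁻¹) * b⁻¹ = x := by
    rw [hbi, hxi, ← br]
    calc b * (b * x * b) * b = (b * b) * x * (b * b) := by group
      _ = x := by rw [bb]; group
  have h2 : E (b * d * b⁻¹) x := by
    have := hE.conj b h1
    rwa [e2] at this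
  have h3 : E (b * d * b⁻¹) b := by
    have := hE.conj b hb
    rwa [mul_inv_cancel_right] at this
  exact hE.trans hb (hE.trans (hE.symm h3) h2)

omit hconj in
theorem L1' {d x b y : G} (hc : Commute d x) (hn : ¬ E d x) (hb : E d b) (hy : E x y) : Commute b y := by
  have h1 := L1 tt hE (hE.mem hy).1 hc hn hb
  have h2 : ¬ E x b := fun h => hn (hE.trans hb (hE.symm h))
  exact (L1 tt hE (hE.mem hb).2 h1.symm h2 hy).symm

omit tt hconj hE in
/-- the subgroup generated by the products of pairs of a class -/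
def RE (E : G → G → Prop) (x : G) : Subgroup G := Subgroup.closure {g | ∃ b c, E x b ∧ E x c ∧ g = b * c}

omit tt hconj in
theorem RE_conj {x g : G} (h : G) (hg : g ∈ RE E x) : h * g * h⁻¹ ∈ RE E (h * x * h⁻¹) := by
  induction hg using Subgroup.closure_induction with
  | mem y hy =>
    obtain ⟨b, c, hb, hc, rfl⟩ := hy
    exact Subgroup.subset_closure ⟨_, _, hE.conj h hb, hE.conj h hc, by group⟩
  | one => simp
  | mul y z _ _ hy hz =>
    have : h * (y * z) * h⁻¹ = (h * y * h⁻¹) * (h * z * h⁻¹) := by group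
    rw [this]; exact mul_mem hy hz
  | inv y _ hy =>
    have : h * y⁻¹ * h⁻¹ = (h * y * h⁻¹)⁻¹ := by group
    rw [this]; exact inv_mem hy

omit tt hconj in
theorem RE_congr {x y : G} (h : E x y) : RE E x = RE E y := by
  apply congrArg Subgroup.closure
  ext g
  constructor
  · rintro ⟨b, c, hb, hc, rfl⟩
    exact ⟨b, c, hE.trans (hE.symm h) hb, hE.trans (hE.symm h) hc, rfl⟩
  · rintro ⟨b, c, hb, hc, rfl⟩
    exact ⟨b, c, hE.trans h hb, hE.trans h hc, rfl⟩

/-- the kernel of the action on the classes -/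
def NE : Subgroup G where
  carrier := {g | ∀ x ∈ D, E x (g * x * g⁻¹)}
  one_mem' := by
    intro x hx
    simpa using hE.refl hx
  mul_mem' := by
    intro g h hg hh x hx
    have h1 := hh x hx
    have h2 := hg _ (hE.mem h1).2
    have e : g * h * x * (g * h)⁻¹ = g * (h * x * h⁻¹) * g⁻¹ := by group
    rw [e]
    exact hE.trans h1 h2
  inv_mem' := by
    intro g hg x hx
    have h1 := hg _ (hconj g⁻¹ x hx)
    have e : g * (g⁻¹ * x * g⁻¹⁻¹) * g⁻¹ = x := by group
    rw [e] at h1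
    exact hE.symm h1

omit tt in
theorem NE_normal : (NE hconj hE).Normal := by
  constructor
  intro n hn g x hx
  have h1 := hE.conj g (hn _ (hconj g⁻¹ x hx))
  have e1 : g * (g⁻¹ * x * g⁻¹⁻¹) * g⁻¹ = x := by group
  have e2 : g * (n * (g⁻¹ * x * g⁻¹⁻¹) * n⁻¹) * g⁻¹ = g * n * g⁻¹ * x * (g * n * g⁻¹)⁻¹ := by group
  rwa [e1, e2] at h1

theorem RE_le_NE (x : G) : RE E x ≤ NE hconj hE := by
  unfold RE
  rw [Subgroup.closure_le]
  rintro _ ⟨b, c, hb, hc, rfl⟩ y hy
  have hbD := (hE.mem hb).2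
  have hcD := (hE.mem hc).2
  have hcb : E c b := hE.trans (hE.symm hc) hb
  have e : b * c * y * (b * c)⁻¹ = b * (c * y * c⁻¹) * b⁻¹ := by group
  rw [e]
  by_cases hcy : E c y
  · have h1 : E c (c * y * c⁻¹) := by
      have := hE.conj c hcy
      rwa [mul_inv_cancel_right] at this
    have h2 : E b (b * (c * y * c⁻¹) * b⁻¹) := by
      have := hE.conj b (hE.trans (hE.symm hcb) h1)
      rwa [mul_inv_cancel_right] at this
    exact hE.trans (hE.symm hcy) (hE.trans hcb h2)
  · by_cases hc' : Commute c y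
    · have h1 : c * y * c⁻¹ = y := by rw [hc'.eq, mul_inv_cancel_right]
      have h2 := L1 tt hE hy hc' hcy hcb
      have h3 : b * y * b⁻¹ = y := by rw [h2.eq, mul_inv_cancel_right]
      rw [h1, h3]
      exact hE.refl hy
    · have br := braid tt hcD hy hc'
      have e1 : c * y * c⁻¹ = y * c * y⁻¹ := by rw [inv_eq tt hcD, inv_eq tt hy, br]
      rw [e1]
      have h1 : ¬ Commute b y := by
        intro hby
        apply hc'
        exact L1 tt hE hy hby (fun h => hcy (hE.trans hcb h)) (hE.symm hcb)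
      have br2 := braid tt hbD hy h1
      have e2 : b * (y * b * y⁻¹) * b⁻¹ = y := by
        have bb := mul_self tt hbD
        rw [inv_eq tt hbD, inv_eq tt hy, ← br2]
        calc b * (b * y * b) * b = (b * b) * y * (b * b) := by group
          _ = y := by rw [bb]; group
      have h2 := hE.conj b (hE.conj y hcb)
      rw [e2] at h2
      exact hE.symm h2

omit tt in
theorem RE_norm {x n g : G} (hx : x ∈ D) (hn : n ∈ NE hconj hE) (hg : g ∈ RE E x) : n * g * n⁻¹ ∈ RE E x := by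
  have h1 := RE_conj hE n hg
  rwa [← RE_congr hE (hn x hx)] at h1

theorem RE_le_sup {x y : G} (hx : x ∈ D) : RE E y ≤ RE E x ⊔ RE E (x * y * x⁻¹) := by
  have hle := RE_le_NE tt hconj hE y
  unfold RE at hle ⊢
  rw [Subgroup.closure_le] at hle ⊢
  rintro _ ⟨b, c, hb, hc, rfl⟩
  have hbD := (hE.mem hb).2
  have hcD := (hE.mem hc).2
  have hN : b * c ∈ NE hconj hE := hle ⟨b, c, hb, hc, rfl⟩
  have hN' := inv_mem hN x hx
  have h1 : x * ((b * c)⁻¹ * x * (b * c)⁻¹⁻¹) ∈ Subgroup.closure {g | ∃ b c, E x b ∧ E x c ∧ g = b * c} :=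
    Subgroup.subset_closure ⟨_, _, hE.refl hx, hN', rfl⟩
  have h2 : (x * c * x⁻¹) * (x * b * x⁻¹) ∈ Subgroup.closure {g | ∃ b c, E (x * y * x⁻¹) b ∧ E (x * y * x⁻¹) c ∧ g = b * c} :=
    Subgroup.subset_closure ⟨_, _, hE.conj x hc, hE.conj x hb, rfl⟩
  have e : b * c = ((x * c * x⁻¹) * (x * b * x⁻¹))⁻¹ * (x * ((b * c)⁻¹ * x * (b * c)⁻¹⁻¹)) := by
    have xx := mul_self tt hx
    have bb := mul_self tt hbD
    have cc := mul_self tt hcD
    have e1 : ((x * c * x⁻¹) * (x * b * x⁻¹))⁻¹ * (x * ((b * c)⁻¹ * x * (b * c)⁻¹⁻¹)) =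
        x * (b⁻¹ * (c⁻¹ * c⁻¹) * b⁻¹) * x * (b * c) := by group
    rw [e1, inv_eq tt hbD, inv_eq tt hcD, cc, mul_one, bb, mul_one, xx, one_mul]
  rw [e]
  exact mul_mem (Subgroup.mem_sup_right (inv_mem h2)) (Subgroup.mem_sup_left h1)

omit hconj in
theorem RE_cent {x y r s : G} (hc : Commute x y) (hn : ¬ E x y) (hr : r ∈ RE E x) (hs : s ∈ RE E y) : r * s = s * r := by
  have h1 : RE E x ≤ Subgroup.centralizer {b | E y b} := by
    unfold RE
    rw [Subgroup.closure_le]
    rintro _ ⟨b, c, hb, hc', rfl⟩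
    rw [SetLike.mem_coe, Subgroup.mem_centralizer_iff]
    intro z hz
    exact ((L1' tt hE hc hn hb hz).mul_left (L1' tt hE hc hn hc' hz)).symm.eq
  have h2 : RE E y ≤ Subgroup.centralizer (RE E x : Set G) := by
    conv_lhs => unfold RE
    rw [Subgroup.closure_le]
    rintro _ ⟨b, c, hb, hc', rfl⟩
    rw [SetLike.mem_coe, Subgroup.mem_centralizer_iff]
    intro z hz
    have h3 := Subgroup.mem_centralizer_iff.1 (h1 hz)
    have c1 : Commute z b := (h3 b hb).symm
    have c2 : Commute z c := (h3 c hc').symm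
    exact (c1.mul_right c2).eq
  exact Subgroup.mem_centralizer_iff.1 (h2 hs) r hr

/-- the subgroup of a block is solvable -/
theorem isSolvable_RE [Finite G] {d x u : G} (hd : d ∈ D) (hx : x ∈ D) (hu : u ∈ D) (hdu : Commute d u)
    (hn : ¬ E d u) (h1 : ¬ Commute d x) (h2 : ¬ Commute x u) : Group.IsSolvable (RE E d) := by
  have hne : d ≠ u := by rintro rfl; exact hn (hE.refl hd)
  obtain ⟨φ, hφ, f01, f12, f23⟩ := exists_string_hom tt hd hx hu hne hdu h1 h2
  have hsub : ∀ i j : Fin 4, i ≠ j → φ (Equiv.swap i j) ∈ D := by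
    intro i j hij
    obtain ⟨g, hg⟩ := isConj_iff.1 (Equiv.Perm.isConj_swap (show (0 : Fin 4) ≠ 1 by decide) hij)
    rw [← hg, map_mul, map_mul, map_inv, f01]
    exact hconj _ d hd
  have hcj : ∀ i j k l k' l' : Fin 4, Equiv.swap i j * Equiv.swap k l * (Equiv.swap i j)⁻¹ = Equiv.swap k' l' →
      φ (Equiv.swap i j) * φ (Equiv.swap k l) * (φ (Equiv.swap i j))⁻¹ = φ (Equiv.swap k' l') := by
    intro i j k l k' l' h
    rw [← h, map_mul, map_mul, map_inv]
  have hcm : ∀ i j k l : Fin 4, Equiv.swap i j * Equiv.swap k l = Equiv.swap k l * Equiv.swap i j →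
      Commute (φ (Equiv.swap i j)) (φ (Equiv.swap k l)) := by
    intro i j k l h
    show _ * _ = _ * _
    rw [← map_mul, h, map_mul]
  -- inequivalence of the disjoint pairs
  have n01 : ¬ E (φ (Equiv.swap 0 1)) (φ (Equiv.swap 2 3)) := by rw [f01, f23]; exact hn
  have n02 : ¬ E (φ (Equiv.swap 0 2)) (φ (Equiv.swap 1 3)) := by
    intro h
    apply n01
    have := hE.conj (φ (Equiv.swap 1 2)) h
    rwa [hcj 1 2 0 2 0 1 (by decide), hcj 1 2 1 3 2 3 (by decide)] at this
  have n03 : ¬ E (φ (Equiv.swap 0 3)) (φ (Equiv.swap 1 2)) := by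
    intro h
    apply n01
    have := hE.conj (φ (Equiv.swap 1 3)) h
    rwa [hcj 1 3 0 3 0 1 (by decide), hcj 1 3 1 2 2 3 (by decide)] at this
  set N := NE hconj hE with hN
  let R : Fin 4 → Fin 4 → Subgroup N := fun i j => (RE E (φ (Equiv.swap i j))).subgroupOf N
  have hRn : ∀ i j : Fin 4, i ≠ j → (R i j).Normal := by
    intro i j hij
    constructor
    rintro ⟨r, hr⟩ hr' ⟨n, hn'⟩
    rw [Subgroup.mem_subgroupOf] at hr' ⊢
    exact RE_norm hconj hE (hsub i j hij) hn' hr'
  have hle : ∀ i j, RE E (φ (Equiv.swap i j)) ≤ N := fun i j => RE_le_NE tt hconj hE _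
  have hsup : ∀ i j k l k' l' : Fin 4, i ≠ j → Equiv.swap i j * Equiv.swap k l * (Equiv.swap i j)⁻¹ = Equiv.swap k' l' →
      R k l ≤ R i j ⊔ R k' l' := by
    intro i j k l k' l' hij h
    have h3 := RE_le_sup tt hconj hE (x := φ (Equiv.swap i j)) (y := φ (Equiv.swap k l)) (hsub i j hij)
    rw [hcj i j k l k' l' h] at h3
    show (RE E (φ (Equiv.swap k l))).subgroupOf N ≤ (RE E (φ (Equiv.swap i j))).subgroupOf N ⊔
      (RE E (φ (Equiv.swap k' l'))).subgroupOf N
    rw [← Subgroup.subgroupOf_sup (hle i j) (hle k' l')]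
    exact Subgroup.comap_mono h3
  have hcomm : ∀ i j k l : Fin 4, Equiv.swap i j * Equiv.swap k l = Equiv.swap k l * Equiv.swap i j →
      ¬ E (φ (Equiv.swap i j)) (φ (Equiv.swap k l)) → ∀ a ∈ R i j, ∀ b ∈ R k l, a * b = b * a := by
    intro i j k l h hn' a ha b hb
    exact Subtype.ext (RE_cent tt hE (hcm i j k l h) hn' (Subgroup.mem_subgroupOf.1 ha) (Subgroup.mem_subgroupOf.1 hb))
  have c0213 := hcomm 0 2 1 3 (by decide) n02
  have c0312 := hcomm 0 3 1 2 (by decide) n03
  haveI i02 := hRn 0 2 (by decide)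
  haveI i03 := hRn 0 3 (by decide)
  haveI i12 := hRn 1 2 (by decide)
  haveI i13 := hRn 1 3 (by decide)
  have hcl : ∀ a ∈ RE E (φ (Equiv.swap 0 2)) ⊓ RE E (φ (Equiv.swap 0 3)),
      ∀ b ∈ RE E (φ (Equiv.swap 1 2)) ⊓ RE E (φ (Equiv.swap 1 3)), a * b = b * a := fun a ha b hb =>
    RE_cent tt hE (hcm 0 2 1 3 (by decide)) n02 ha.1 hb.2
  have hsA : Group.IsSolvable ↥(RE E (φ (Equiv.swap 0 2)) ⊓ RE E (φ (Equiv.swap 0 3))) := by
    apply isSolvable_of_conj tt hconj (hsub 0 1 (by decide)) _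
      (RE E (φ (Equiv.swap 1 2)) ⊓ RE E (φ (Equiv.swap 1 3))) _ hcl
    intro r hr
    constructor
    · rw [← hcj 0 1 0 2 1 2 (by decide)]; exact RE_conj hE _ hr.1
    · rw [← hcj 0 1 0 3 1 3 (by decide)]; exact RE_conj hE _ hr.2
  have hsB : Group.IsSolvable ↥(RE E (φ (Equiv.swap 1 2)) ⊓ RE E (φ (Equiv.swap 1 3))) := by
    apply isSolvable_of_conj tt hconj (hsub 0 1 (by decide)) _
      (RE E (φ (Equiv.swap 0 2)) ⊓ RE E (φ (Equiv.swap 0 3))) _ (fun a ha b hb => (hcl b hb a ha).symm)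
    intro r hr
    constructor
    · rw [← hcj 0 1 1 2 0 2 (by decide)]; exact RE_conj hE _ hr.1
    · rw [← hcj 0 1 1 3 0 3 (by decide)]; exact RE_conj hE _ hr.2
  have htr : ∀ A : Subgroup G, A ≤ N → Group.IsSolvable A → Group.IsSolvable (A.subgroupOf N) := by
    intro A hA hs
    exact Group.isSolvable_of_isSolvable_injective (f := (Subgroup.subgroupOfEquivOfLe hA).toMonoidHom)
      (Subgroup.subgroupOfEquivOfLe hA).injective
  have hM : Group.IsSolvable ((R 0 2 ⊓ R 0 3) ⊔ (R 1 2 ⊓ R 1 3) : Subgroup N) := by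
    apply H26.SupCard.isSolvable_sup
    · rw [Subgroup.normalizer_eq_top]; exact le_top
    · exact htr _ (inf_le_left.trans (hle 0 2)) hsA
    · exact htr _ (inf_le_left.trans (hle 1 2)) hsB
  have hcle : ⁅R 0 1, R 0 1⁆ ≤ (R 0 2 ⊓ R 0 3) ⊔ (R 1 2 ⊓ R 1 3) := by
    have s1 : R 0 1 ≤ R 0 2 ⊔ R 1 2 := hsup 0 2 0 1 1 2 (by decide) (by decide)
    have s2 : R 0 1 ≤ R 0 3 ⊔ R 1 3 := hsup 0 3 0 1 1 3 (by decide) (by decide)
    refine (Subgroup.commutator_mono s1 s2).trans (commutator_sup_le ?_ ?_ ?_ ?_)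
    · exact (Subgroup.commutator_le_inf _ _).trans le_sup_left
    · rw [Subgroup.commutator_le]
      intro a ha b hb
      rw [commutatorElement_eq_one_iff_mul_comm.2 (c0213 a ha b hb)]
      exact one_mem _
    · rw [Subgroup.commutator_le]
      intro a ha b hb
      rw [commutatorElement_eq_one_iff_mul_comm.2 (c0312 b hb a ha).symm]
      exact one_mem _
    · exact (Subgroup.commutator_le_inf _ _).trans le_sup_right
  have hs := isSolvable_of_commutator_le hcle hM
  have e : RE E d = RE E (φ (Equiv.swap 0 1)) := by rw [f01]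
  rw [e]
  exact Group.isSolvable_of_isSolvable_injective (f := (Subgroup.subgroupOfEquivOfLe (hle 0 1)).symm.toMonoidHom)
    (Subgroup.subgroupOfEquivOfLe (hle 0 1)).symm.injective

end H91.TTBlock
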