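import Cfsg.Agent.Lib.H91.TTBlock

/-!
Primitivity of a class of 3-transpositions.
-/

set_option autoImplicit false

namespace H91.TTPrim

open Cfsg H90.ThreeTrans H91.TTBlock
open scoped commutatorElement

variable {G : Type*} [Group G] {D : Set G}

/-- the standing hypothesis -/
structure Cls (D : Set G) : Prop where
  tt : IsThreeTranspositionSet D
  conj : ∀ g : G, ∀ d ∈ D, g * d * g⁻¹ ∈ D
  trans : ∀ a ∈ D, ∀ b ∈ D, ∃ g : G, g * a * g⁻¹ = b
  gen : Subgroup.closure D = ⊤
  ne : D.Nonempty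
  cen : Subgroup.center G = ⊥

theorem Cls.mk' (hD : IsThreeTranspositionClass D) (hZ : Subgroup.center G = ⊥) : Cls D := by
  obtain ⟨tt, ⟨d, hd, hcl⟩, hg⟩ := hD
  have hc : ∀ g : G, ∀ d ∈ D, g * d * g⁻¹ ∈ D := by
    intro g x hx
    rw [hcl] at hx ⊢
    have hx' : IsConj d x := hx
    exact hx'.trans (isConj_iff.2 ⟨g, rfl⟩)
  refine ⟨tt, hc, ?_, hg, ⟨d, hd⟩, hZ⟩
  intro a ha b hb
  rw [hcl] at ha hb
  have ha' : IsConj d a := ha
  have hb' : IsConj d b := hb
  exact isConj_iff.1 (ha'.symm.trans hb')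

variable (H : Cls D)
include H

theorem Cls.eq_one {g : G} (h : ∀ d ∈ D, Commute g d) : g = 1 := by
  have h1 : g ∈ Subgroup.center G := by
    rw [Subgroup.mem_center_iff]
    intro x
    have h2 : Subgroup.closure D ≤ Subgroup.centralizer {g} := by
      rw [Subgroup.closure_le]
      intro d hd
      exact Subgroup.mem_centralizer_singleton_iff.2 (h d hd).symm.eq
    rw [H.gen] at h2
    exact Subgroup.mem_centralizer_singleton_iff.1 (h2 (Subgroup.mem_top x))
  rw [H.cen] at h1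
  exact h1

theorem Cls.mul_mem_comm {d e : G} (hd : d ∈ D) (he : e ∈ D) : d * e ∈ commutator G := by
  obtain ⟨g, rfl⟩ := H.trans d hd e he
  have e1 : d * (g * d * g⁻¹) = ⁅d, g⁆ := by
    rw [commutatorElement_def, inv_eq H.tt hd]; group
  rw [e1]
  exact Subgroup.commutator_mem_commutator (Subgroup.mem_top _) (Subgroup.mem_top _)

theorem Cls.dich {x : G} (hx : x ∈ D) (g : G) : g ∈ commutator G ∨ g * x ∈ commutator G := by
  have hg : g ∈ Subgroup.closure D := by rw [H.gen]; exact Subgroup.mem_top _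
  have xx := mul_self H.tt hx
  have xi := inv_eq H.tt hx
  have hcj : ∀ {y}, y ∈ commutator G → x * y * x ∈ commutator G := by
    intro y hy
    have := (inferInstance : (commutator G).Normal).conj_mem y hy x
    rwa [xi] at this
  induction hg using Subgroup.closure_induction with
  | mem y hy => exact Or.inr (H.mul_mem_comm hy hx)
  | one => exact Or.inl (one_mem _)
  | mul y z _ _ hy hz =>
    rcases hy with hy | hy <;> rcases hz with hz | hz
    · exact Or.inl (mul_mem hy hz)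
    · right
      rw [mul_assoc]; exact mul_mem hy hz
    · right
      have e : y * z * x = (y * x) * (x * z * x) := by
        calc y * z * x = y * (1 : G) * z * x := by rw [mul_one]
          _ = y * (x * x) * z * x := by rw [xx]
          _ = _ := by group
      rw [e]; exact mul_mem hy (hcj hz)
    · left
      have e : y * z = (y * x) * (x * (z * x) * x) := by
        calc y * z = y * (x * x) * z * (x * x) := by rw [xx]; group
          _ = _ := by group
      rw [e]; exact mul_mem hy (hcj hz)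
  | inv y _ hy =>
    rcases hy with hy | hy
    · exact Or.inl (inv_mem hy)
    · right
      have e : y⁻¹ * x = x * (y * x)⁻¹ * x := by
        rw [mul_inv_rev, xi, ← mul_assoc x x, xx, one_mul]
      rw [e]; exact hcj (inv_mem hy)

/-- no solvable subnormal subgroup -/
theorem Cls.noSol [Finite G] (h2 : pCore 2 G = ⊥) (h3 : pCore 3 G = ⊥) (N : Subgroup G) [N.Normal]
    (S : Subgroup N) [S.Normal] (hS : Group.IsSolvable S) : S = ⊥ := by
  by_contra hne
  haveI : Nontrivial S := (Subgroup.nontrivial_iff_ne_bot _).2 hne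
  obtain ⟨p, hp, hpS⟩ := H1.Hall.exists_pCore_ne_bot hS
  have e1 := H1.Cores.map_subtype_pCore p S
  have e2 := H1.Cores.map_subtype_pCore p N
  have hN : pCore p N ≠ ⊥ := by
    intro h
    rw [h, inf_bot_eq, Subgroup.map_eq_bot_iff_of_injective _ S.subtype_injective] at e1
    exact hpS e1
  have hG : pCore p G ≠ ⊥ := by
    intro h
    rw [h, inf_bot_eq, Subgroup.map_eq_bot_iff_of_injective _ N.subtype_injective] at e2
    exact hN e2
  by_cases hp2 : p = 2
  · rw [hp2] at hG; exact hG h2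
  by_cases hp3 : p = 3
  · rw [hp3] at hG; exact hG h3
  have hp5 : 3 < p := by
    have := hp.two_le
    omega
  apply hG
  rw [Subgroup.eq_bot_iff_forall]
  intro g hg
  apply H.eq_one
  intro d hd
  have hn := H1.Cores.pCore_normal (G := G) p
  have h1 : d * (g * d * g⁻¹) ∈ pCore p G := by
    have e : d * (g * d * g⁻¹) = (d * g * d⁻¹) * g⁻¹ := by rw [inv_eq H.tt hd]; group
    rw [e]
    exact mul_mem (hn.conj_mem g hg d) (inv_mem hg)
  obtain ⟨k, hk⟩ := H1.Cores.isPGroup_pCore (G := G) p ⟨_, h1⟩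
  have hk' : (d * (g * d * g⁻¹)) ^ (p ^ k) = 1 := congrArg Subtype.val hk
  have h4 := eq_of_mul_pow_prime_pow H.tt hd (H.conj g d hd) hp hp5 hk'
  show g * d = d * g
  conv_rhs => rw [h4]
  group

/-- every nontrivial normal subgroup contains the commutator subgroup -/
def Star (G : Type*) [Group G] : Prop := ∀ N : Subgroup G, N.Normal → N ≠ ⊥ → commutator G ≤ N

theorem Cls.star_of_simple (h : IsSimpleGroup (commutator G)) : Star G := by
  intro N hN hne
  rcases h.eq_bot_or_eq_top_of_normal (N.subgroupOf (commutator G)) inferInstance with h1 | h1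
  · exfalso
    apply hne
    rw [Subgroup.eq_bot_iff_forall]
    intro n hn
    have hc : n ∈ Subgroup.center G := by
      rw [Subgroup.mem_center_iff]
      intro g
      have h2 : ⁅n, g⁆ ∈ commutator G := Subgroup.commutator_mem_commutator (Subgroup.mem_top _) (Subgroup.mem_top _)
      have h3 : ⁅n, g⁆ ∈ N := by
        have e : ⁅n, g⁆ = n * (g * n⁻¹ * g⁻¹) := by rw [commutatorElement_def]; group
        rw [e]; exact mul_mem hn (hN.conj_mem _ (inv_mem hn) g)
      have h4 : (⟨⁅n, g⁆, h2⟩ : commutator G) ∈ N.subgroupOf (commutator G) := Subgroup.mem_subgroupOf.2 h3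
      rw [h1, Subgroup.mem_bot] at h4
      exact (commutatorElement_eq_one_iff_mul_comm.1 (congrArg Subtype.val h4)).symm
    rw [H.cen] at hc
    exact hc
  · exact Subgroup.subgroupOf_eq_top.1 h1

theorem Cls.comm_le {N : Subgroup G} (hN : N.Normal) (h : ∀ a ∈ D, ∀ b ∈ D, a * b ∈ N) : commutator G ≤ N := by
  let π := QuotientGroup.mk' N
  obtain ⟨d, hd⟩ := H.ne
  have heq : ∀ e ∈ D, π e = π d := by
    intro e he
    have h1 : π (d * e) = 1 := (QuotientGroup.eq_one_iff _).2 (h d hd e he)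
    rw [map_mul] at h1
    have h2 : π (d * d) = 1 := by rw [mul_self H.tt hd, map_one]
    rw [map_mul] at h2
    exact mul_left_cancel (h1.trans h2.symm)
  have hc1 : ∀ x : G, Commute (π x) (π d) := by
    intro x
    have h2 : Subgroup.closure D ≤ (Subgroup.centralizer {π d}).comap π := by
      rw [Subgroup.closure_le]
      intro e he
      show π e ∈ Subgroup.centralizer {π d}
      rw [heq e he]
      exact Subgroup.mem_centralizer_singleton_iff.2 rfl
    rw [H.gen] at h2
    exact Subgroup.mem_centralizer_singleton_iff.1 (h2 (Subgroup.mem_top x))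
  have hc2 : ∀ x y : G, Commute (π x) (π y) := by
    intro x y
    have h2 : Subgroup.closure D ≤ (Subgroup.centralizer {π x}).comap π := by
      rw [Subgroup.closure_le]
      intro e he
      show π e ∈ Subgroup.centralizer {π x}
      rw [heq e he]
      exact Subgroup.mem_centralizer_singleton_iff.2 (hc1 x).symm.eq
    rw [H.gen] at h2
    exact (Subgroup.mem_centralizer_singleton_iff.1 (h2 (Subgroup.mem_top y))).symm
  rw [commutator_def, Subgroup.commutator_le]
  intro x _ y _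
  rw [← QuotientGroup.eq_one_iff, ← QuotientGroup.mk'_apply, map_commutatorElement, commutatorElement_eq_one_iff_mul_comm]
  exact hc2 x y

theorem Cls.star_of_prim (h : IsPrimitiveUnderConj D) : Star G := by
  intro N hN hne
  apply H.comm_le hN
  obtain ⟨-, -, hbl⟩ := h
  have key : ∀ a ∈ D, ∀ b ∈ D, ∃ n ∈ N, n * a * n⁻¹ = b := by
    intro a ha
    set B : Set G := {x | ∃ n ∈ N, n * a * n⁻¹ = x} with hB
    have hBD : B ⊆ D := by
      rintro _ ⟨n, -, rfl⟩
      exact H.conj n a ha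
    have haB : a ∈ B := ⟨1, one_mem _, by group⟩
    rcases hbl B hBD (by
      intro g
      rw [or_iff_not_imp_right, Set.not_disjoint_iff]
      rintro ⟨x, ⟨y, ⟨n, hn, rfl⟩, rfl⟩, ⟨m, hm, hxm⟩⟩
      simp only at hxm
      ext z
      constructor
      · rintro ⟨_, ⟨k, hk, rfl⟩, rfl⟩
        -- `g k a k⁻¹ g⁻¹ = (g k n⁻¹ g⁻¹) (g n a n⁻¹ g⁻¹) (..)⁻¹`
        refine ⟨g * (k * n⁻¹) * g⁻¹ * m, mul_mem (hN.conj_mem _ (mul_mem hk (inv_mem hn)) g) hm, ?_⟩
        have e : g * (k * n⁻¹) * g⁻¹ * m * a * (g * (k * n⁻¹) * g⁻¹ * m)⁻¹ =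
            (g * (k * n⁻¹) * g⁻¹) * (m * a * m⁻¹) * (g * (k * n⁻¹) * g⁻¹)⁻¹ := by group
        rw [e, hxm]
        group
      · rintro ⟨k, hk, rfl⟩
        refine ⟨g⁻¹ * (k * m⁻¹) * g * n * a * (g⁻¹ * (k * m⁻¹) * g * n)⁻¹, ⟨_, ?_, rfl⟩, ?_⟩
        · refine mul_mem ?_ hn
          have := hN.conj_mem _ (mul_mem hk (inv_mem hm)) g⁻¹
          rwa [inv_inv] at this
        · show g * (g⁻¹ * (k * m⁻¹) * g * n * a * (g⁻¹ * (k * m⁻¹) * g * n)⁻¹) * g⁻¹ = k * a * k⁻¹
          calc g * (g⁻¹ * (k * m⁻¹) * g * n * a * (g⁻¹ * (k * m⁻¹) * g * n)⁻¹) * g⁻¹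
              = k * m⁻¹ * (g * (n * a * n⁻¹) * g⁻¹) * m * k⁻¹ := by group
            _ = k * m⁻¹ * (m * a * m⁻¹) * m * k⁻¹ := by rw [hxm]
            _ = k * a * k⁻¹ := by group) with h1 | h1
    · exfalso
      apply hne
      rw [Subgroup.eq_bot_iff_forall]
      intro n hn
      apply H.eq_one
      intro b hb
      obtain ⟨g, rfl⟩ := H.trans a ha b hb
      have h2 : (g⁻¹ * n * g) * a * (g⁻¹ * n * g)⁻¹ = a := by
        have hm : g⁻¹ * n * g ∈ N := by
          have := hN.conj_mem n hn g⁻¹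
          rwa [inv_inv] at this
        exact h1 ⟨_, hm, rfl⟩ haB
      show n * (g * a * g⁻¹) = g * a * g⁻¹ * n
      calc n * (g * a * g⁻¹) = g * ((g⁻¹ * n * g) * a * (g⁻¹ * n * g)⁻¹) * g⁻¹ * n := by group
        _ = g * a * g⁻¹ * n := by rw [h2]
    · intro b hb
      rw [← h1] at hb
      exact hb
  intro a ha b hb
  obtain ⟨n, hn, rfl⟩ := key a ha b hb
  have e : a * (n * a * n⁻¹) = (a * n * a⁻¹) * n⁻¹ := by rw [inv_eq H.tt ha]; group
  rw [e]
  exact mul_mem (hN.conj_mem n hn a) (inv_mem hn)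

theorem Cls.pcore_two (hs : Star G) : pCore 2 G = ⊥ := by
  by_contra hne
  have h1 := hs _ (H1.Cores.pCore_normal 2) hne
  obtain ⟨d, hd⟩ := H.ne
  apply ne_one H.tt hd
  apply H.eq_one
  intro e he
  obtain ⟨k, hk⟩ := H1.Cores.isPGroup_pCore (G := G) 2 ⟨_, h1 (H.mul_mem_comm hd he)⟩
  exact commute_of_mul_pow_two_pow H.tt hd he (congrArg Subtype.val hk)

theorem Cls.pcore_three (hs : Star G) (hw : ∃ a ∈ D, ∃ b ∈ D, a ≠ b ∧ Commute a b) : pCore 3 G = ⊥ := by
  by_contra hne
  have h1 := hs _ (H1.Cores.pCore_normal 3) hne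
  obtain ⟨a, ha, b, hb, hab, hc⟩ := hw
  obtain ⟨k, hk⟩ := H1.Cores.isPGroup_pCore (G := G) 3 ⟨_, h1 (H.mul_mem_comm ha hb)⟩
  have hk' : (a * b) ^ (3 ^ k) = 1 := congrArg Subtype.val hk
  have h2 : (a * b) ^ 2 = 1 := (commute_iff_sq H.tt ha hb).1 hc
  have h3 : orderOf (a * b) ∣ 1 := by
    have hcop : Nat.Coprime 2 (3 ^ k) := Nat.Coprime.pow_right _ (by norm_num)
    rw [← Nat.Coprime.gcd_eq_one hcop]
    exact Nat.dvd_gcd (orderOf_dvd_of_pow_eq_one h2) (orderOf_dvd_of_pow_eq_one hk')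
  have h4 : a * b = 1 := orderOf_eq_one_iff.mp (Nat.dvd_one.mp h3)
  apply hab
  rw [mul_eq_one_iff_eq_inv, inv_eq H.tt hb] at h4
  exact h4

/-! ### the commuting graph -/

omit H in
/-- being in the same component of the commuting graph -/
def E0 (D : Set G) (x y : G) : Prop := x ∈ D ∧ y ∈ D ∧ Relation.ReflTransGen (fun a b => a ∈ D ∧ b ∈ D ∧ Commute a b) x y

theorem Cls.eqv : Eqv D (E0 D) := by
  refine ⟨fun h => ⟨h.1, h.2.1⟩, fun hx => ⟨hx, hx, Relation.ReflTransGen.refl⟩, ?_, ?_, ?_⟩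
  · rintro x y ⟨hx, hy, h⟩
    refine ⟨hy, hx, ?_⟩
    have hsym : Std.Symm (fun a b : G => a ∈ D ∧ b ∈ D ∧ Commute a b) := ⟨fun a b hab => ⟨hab.2.1, hab.1, hab.2.2.symm⟩⟩
    exact (Relation.ReflTransGen.stdSymm (r := fun a b : G => a ∈ D ∧ b ∈ D ∧ Commute a b)).symm _ _ h
  · rintro x y z ⟨hx, hy, h⟩ ⟨-, hz, h'⟩
    exact ⟨hx, hz, h.trans h'⟩
  · rintro x y g ⟨hx, hy, h⟩
    refine ⟨H.conj g x hx, H.conj g y hy, ?_⟩
    refine Relation.ReflTransGen.lift (p := fun a b : G => a ∈ D ∧ b ∈ D ∧ Commute a b) (fun x => g * x * g⁻¹) ?_ _ _ h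
    rintro a b ⟨ha, hb, hab⟩
    refine ⟨H.conj g a ha, H.conj g b hb, ?_⟩
    show g * a * g⁻¹ * (g * b * g⁻¹) = g * b * g⁻¹ * (g * a * g⁻¹)
    calc g * a * g⁻¹ * (g * b * g⁻¹) = g * (a * b) * g⁻¹ := by group
      _ = g * (b * a) * g⁻¹ := by rw [hab.eq]
      _ = _ := by group

omit H in
theorem E0_of_commute {x y : G} (hx : x ∈ D) (hy : y ∈ D) (h : Commute x y) : E0 D x y :=
  ⟨hx, hy, Relation.ReflTransGen.single ⟨hx, hy, h⟩⟩

theorem Cls.conn_iff : (commutingGraph D).Connected ↔ ∀ x ∈ D, ∀ y ∈ D, E0 D x y := by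
  constructor
  · rintro ⟨hp, -⟩ x hx y hy
    obtain ⟨w⟩ := hp ⟨x, hx⟩ ⟨y, hy⟩
    have key : ∀ (a b : D), (commutingGraph D).Walk a b → E0 D a b := by
      intro a b w
      induction w with
      | nil => exact H.eqv.refl (Subtype.prop _)
      | @cons u v _ h _ ih =>
        have h1 := (SimpleGraph.fromRel_adj _ _ _).1 h
        have h2 : Commute (u : G) (v : G) := by
          rcases h1.2 with h | h
          · exact h
          · exact h.symm
        exact H.eqv.trans (E0_of_commute u.2 v.2 h2) ih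
    exact key _ _ w
  · intro h
    obtain ⟨d, hd⟩ := H.ne
    have key : ∀ x y : G, Relation.ReflTransGen (fun a b => a ∈ D ∧ b ∈ D ∧ Commute a b) x y → ∀ (hx : x ∈ D) (hy : y ∈ D),
        (commutingGraph D).Reachable ⟨x, hx⟩ ⟨y, hy⟩ := by
      intro x y hxy
      induction hxy with
      | refl => intro hx hy; exact SimpleGraph.Reachable.refl _
      | @tail b c _ hbc ih =>
        intro hx hc
        refine (ih hx hbc.1).trans ?_
        by_cases hne : b = c
        · subst hne; exact SimpleGraph.Reachable.refl _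
        · apply SimpleGraph.Adj.reachable
          exact (SimpleGraph.fromRel_adj _ _ _).2 ⟨fun he => hne (congrArg Subtype.val he), Or.inl hbc.2.2⟩
    exact { preconnected := fun x y => key _ _ (h x x.2 y y.2).2.2 x.2 y.2
            nonempty := ⟨⟨d, hd⟩⟩ }

theorem Cls.conn_of_star (hs : Star G) (hw : ∃ a ∈ D, ∃ b ∈ D, a ≠ b ∧ Commute a b) : ∀ x ∈ D, ∀ y ∈ D, E0 D x y := by
  obtain ⟨d, hd, a, ha, hda, hc⟩ := hw
  have hE := H.eqv
  have hN := NE_normal H.conj hE
  have hdi := inv_eq H.tt hd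
  have hai := inv_eq H.tt ha
  have dd := mul_self H.tt hd
  have aa := mul_self H.tt ha
  have hmem : d * a ∈ NE H.conj hE := by
    intro x hx
    have hdE : E0 D d (d * a * d * (d * a)⁻¹) := by
      have e : d * a * d * (d * a)⁻¹ = d := by
        rw [mul_inv_rev, hai, hdi]
        calc d * a * d * (a * d) = d * (a * d) * (a * d) := by group
          _ = d * (d * a) * (a * d) := by rw [hc.eq]
          _ = (d * d) * (a * a) * d := by group
          _ = d := by rw [dd, aa]; group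
      rw [e]; exact hE.refl hd
    by_cases h1 : E0 D x d
    · exact hE.trans h1 (hE.trans hdE (hE.symm (hE.conj (d * a) h1)))
    · have hxd : ¬ Commute x d := fun h => h1 (E0_of_commute hx hd h)
      have hxa : ¬ Commute x a := fun h => h1 (hE.trans (E0_of_commute hx ha h) (E0_of_commute ha hd hc.symm))
      apply E0_of_commute hx (H.conj _ x hx)
      have b1 := braid H.tt hx hd hxd
      have b2 := braid H.tt hx ha hxa
      have c1 := hc.eq
      rw [mul_inv_rev, hai, hdi]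
      show x * (d * a * x * (a * d)) = d * a * x * (a * d) * x
      calc x * (d * a * x * (a * d)) = x * d * (a * x * a) * d := by group
        _ = x * d * (x * a * x) * d := by rw [b2]
        _ = (x * d * x) * a * (x * d) := by group
        _ = (d * x * d) * a * (x * d) := by rw [b1]
        _ = d * x * (d * a) * x * d := by group
        _ = d * x * (a * d) * x * d := by rw [c1]
        _ = d * (x * a) * (d * x * d) := by group
        _ = d * (x * a) * (x * d * x) := by rw [b1]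
        _ = d * (x * a * x) * d * x := by group
        _ = d * (a * x * a) * d * x := by rw [b2]
        _ = d * a * x * (a * d) * x := by group
  have hne : NE H.conj hE ≠ ⊥ := by
    intro h
    rw [h, Subgroup.mem_bot] at hmem
    apply hda
    rw [mul_eq_one_iff_eq_inv, hai] at hmem
    exact hmem
  have hle := hs _ hN hne
  intro x hx y hy
  obtain ⟨g, rfl⟩ := H.trans x hx y hy
  rcases H.dich hx g with h | h
  · exact hle h x hx
  · have h1 := hle h x hx
    have e : g * x * x * (g * x)⁻¹ = g * x * g⁻¹ := by group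
    rwa [e] at h1

theorem Cls.simple_aux [Finite G] (K : Subgroup G) [hKn : K.Normal] (hs : ∀ N : Subgroup G, N.Normal → N ≠ ⊥ → K ≤ N)
    (h2 : pCore 2 G = ⊥) (h3 : pCore 3 G = ⊥) {d : G} (hd : d ∈ D) (hdich : ∀ g, g ∈ K ∨ g * d ∈ K)
    (S : Subgroup K) [hS : S.Normal] : S = ⊥ ∨ S = ⊤ := by
  obtain ⟨A, hA⟩ : ∃ A : Subgroup G, A = S.map K.subtype := ⟨_, rfl⟩
  obtain ⟨B, hB⟩ : ∃ B : Subgroup G, B = A.map (MulAut.conj d).toMonoidHom := ⟨_, rfl⟩
  have dd := mul_self H.tt hd
  have di := inv_eq H.tt hd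
  have e0 : ∀ x : G, d * (d * x * d) * d = x := by
    intro x
    calc d * (d * x * d) * d = (d * d) * x * (d * d) := by group
      _ = x := by rw [dd]; group
  have memB : ∀ {x}, x ∈ B ↔ d * x * d ∈ A := by
    intro x
    rw [hB]
    constructor
    · rintro ⟨y, hy, rfl⟩
      have e : d * ((MulAut.conj d).toMonoidHom y) * d = y := by
        show d * (d * y * d⁻¹) * d = y
        rw [di]; exact e0 y
      rw [e]; exact hy
    · intro h
      refine ⟨_, h, ?_⟩
      show d * (d * x * d) * d⁻¹ = x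
      rw [di]; exact e0 x
  have hAK : ∀ {k x}, k ∈ K → x ∈ A → k * x * k⁻¹ ∈ A := by
    intro k x hk hx
    rw [hA] at hx ⊢
    obtain ⟨y, hy, rfl⟩ := hx
    exact ⟨⟨k, hk⟩ * y * ⟨k, hk⟩⁻¹, hS.conj_mem y hy _, rfl⟩
  have hA_le : ∀ {x}, x ∈ A → x ∈ K := by
    intro x hx
    rw [hA] at hx
    obtain ⟨y, -, rfl⟩ := hx
    exact y.2
  have hBK : ∀ {k x}, k ∈ K → x ∈ B → k * x * k⁻¹ ∈ B := by
    intro k x hk hx
    rw [memB] at hx ⊢
    have hk' : d * k * d⁻¹ ∈ K := hKn.conj_mem k hk d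
    have h1 := hAK hk' hx
    rw [di] at h1
    have e : d * k * d * (d * x * d) * (d * k * d)⁻¹ = d * (k * x * k⁻¹) * d := by
      rw [mul_inv_rev, mul_inv_rev, di]
      calc d * k * d * (d * x * d) * (d * (k⁻¹ * d)) = d * k * (d * d) * x * (d * d) * k⁻¹ * d := by group
        _ = _ := by rw [dd]; group
    rwa [e] at h1
  have hAB : ∀ {x}, x ∈ A → d * x * d ∈ B := by
    intro x hx
    rw [memB, e0]; exact hx
  by_cases hint : A ⊓ B = ⊥
  · left
    have hcomm : ∀ a ∈ A, ∀ b ∈ B, a * b = b * a := by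
      intro a ha b hb
      have haK : a ∈ K := hA_le ha
      have hbK : b ∈ K := by
        have h2 := hA_le (memB.1 hb)
        have h3 := hKn.conj_mem _ h2 d
        rwa [di, e0] at h3
      rw [← commutatorElement_eq_one_iff_mul_comm]
      have h1 : ⁅a, b⁆ ∈ A ⊓ B := by
        constructor
        · have e : ⁅a, b⁆ = a * (b * a⁻¹ * b⁻¹) := by rw [commutatorElement_def]; group
          rw [e]; exact mul_mem ha (hAK hbK (inv_mem ha))
        · have e : ⁅a, b⁆ = (a * b * a⁻¹) * b⁻¹ := by rw [commutatorElement_def]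
          rw [e]
          exact B.mul_mem (hBK haK hb) (B.inv_mem hb)
      rw [hint] at h1
      exact h1
    have hsol : Group.IsSolvable A := isSolvable_of_conj H.tt H.conj hd A B (by
      intro r hr
      rw [di]; exact hAB hr) hcomm
    have hsolS : Group.IsSolvable S := by
      rw [hA] at hsol
      exact Group.isSolvable_of_isSolvable_injective
        (f := (S.equivMapOfInjective K.subtype K.subtype_injective).toMonoidHom)
        (S.equivMapOfInjective K.subtype K.subtype_injective).injective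
    exact H.noSol h2 h3 K S hsolS
  · right
    have hn : (A ⊓ B).Normal := by
      constructor
      intro x hx g
      rcases hdich g with h | h
      · exact ⟨hAK h hx.1, hBK h hx.2⟩
      · have e : g * x * g⁻¹ = (g * d) * (d * x * d) * (g * d)⁻¹ := by
          rw [mul_inv_rev, di]
          calc g * x * g⁻¹ = g * (1 * x * 1) * g⁻¹ := by group
            _ = g * ((d * d) * x * (d * d)) * g⁻¹ := by rw [dd]
            _ = _ := by group
        rw [e]
        exact ⟨hAK h (memB.1 hx.2), hBK h (hAB hx.1)⟩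
    have hle := (hs _ hn hint).trans inf_le_left
    rw [hA] at hle
    rw [eq_top_iff]
    rintro ⟨x, hx⟩ -
    obtain ⟨y, hy, hyx⟩ := hle hx
    have : y = ⟨x, hx⟩ := Subtype.ext hyx
    rw [← this]; exact hy

/-- the commutator subgroup is simple -/
theorem Cls.simple_of_star [Finite G] (hs : Star G) (hw : ∃ a ∈ D, ∃ b ∈ D, a ≠ b ∧ Commute a b) :
    IsSimpleGroup (commutator G) := by
  have h2 := H.pcore_two hs
  have h3 := H.pcore_three hs hw
  obtain ⟨d, hd⟩ := H.ne
  have hnt : Nontrivial (commutator G) := by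
    rw [Subgroup.nontrivial_iff_ne_bot]
    intro h
    rw [commutator_eq_bot_iff_center_eq_top, H.cen] at h
    apply ne_one H.tt hd
    have : d ∈ (⊥ : Subgroup G) := by rw [h]; exact Subgroup.mem_top _
    exact this
  exact { toNontrivial := hnt
          eq_bot_or_eq_top_of_normal := fun S hS => H.simple_aux (commutator G) hs h2 h3 hd (H.dich hd) S }

/-! ### from connectedness to primitivity -/

omit H in
theorem commute_conj_iff {x y : G} (g : G) : Commute (g * x * g⁻¹) (g * y * g⁻¹) ↔ Commute x y := by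
  constructor
  · intro h
    have h1 : g * (x * y) * g⁻¹ = g * (y * x) * g⁻¹ := by
      calc g * (x * y) * g⁻¹ = (g * x * g⁻¹) * (g * y * g⁻¹) := by group
        _ = (g * y * g⁻¹) * (g * x * g⁻¹) := h
        _ = _ := by group
    exact mul_left_cancel (mul_right_cancel h1)
  · intro h
    show (g * x * g⁻¹) * (g * y * g⁻¹) = (g * y * g⁻¹) * (g * x * g⁻¹)
    calc (g * x * g⁻¹) * (g * y * g⁻¹) = g * (x * y) * g⁻¹ := by group
      _ = g * (y * x) * g⁻¹ := by rw [h.eq]
      _ = _ := by group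

/-- two commuting elements have a common non-neighbour -/
theorem Cls.exists_common {d u : G} (hd : d ∈ D) (hu : u ∈ D) (hdu : Commute d u) (hne : d ≠ u) :
    ∃ x ∈ D, ¬ Commute d x ∧ ¬ Commute x u := by
  let Y : Set G := {y | y ∈ D ∧ (y = d ∨ ¬ Commute d y ∨ ∃ z ∈ D, ¬ Commute d z ∧ ¬ Commute z y)}
  have step : ∀ y ∈ Y, ∀ w ∈ D, ¬ Commute y w → w ∈ Y := by
    rintro y ⟨hyD, hy⟩ w hw hyw
    refine ⟨hw, ?_⟩
    rcases hy with rfl | hy | ⟨z, hz, hdz, hzy⟩
    · exact Or.inr (Or.inl hyw)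
    · exact Or.inr (Or.inr ⟨y, hyD, hy, hyw⟩)
    · by_cases h1 : Commute d w
      · by_cases h2 : Commute d y
        · by_cases h3 : Commute z w
          · refine Or.inr (Or.inr ⟨y * z * y⁻¹, H.conj y z hz, ?_, ?_⟩)
            · have e : d = y * d * y⁻¹ := by rw [← h2.eq, mul_inv_cancel_right]
              rw [e, commute_conj_iff]; exact hdz
            · have e1 : y * z * y⁻¹ = z * y * z⁻¹ := by
                rw [inv_eq H.tt hyD, inv_eq H.tt hz]
                exact (braid H.tt hz hyD hzy).symm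
              have e2 : w = z * w * z⁻¹ := by rw [h3.eq, mul_inv_cancel_right]
              rw [e1, e2, commute_conj_iff]; exact hyw
          · exact Or.inr (Or.inr ⟨z, hz, hdz, h3⟩)
        · exact Or.inr (Or.inr ⟨y, hyD, h2, hyw⟩)
      · exact Or.inr (Or.inl h1)
  have inv1 : ∀ g ∈ D, ∀ y ∈ Y, g * y * g⁻¹ ∈ Y := by
    intro g hg y hy
    by_cases hc : Commute g y
    · have e : g * y * g⁻¹ = y := by rw [hc.eq, mul_inv_cancel_right]
      rwa [e]
    · have e : g * y * g⁻¹ = y * g * y⁻¹ := by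
        rw [inv_eq H.tt hg, inv_eq H.tt hy.1]
        exact braid H.tt hg hy.1 hc
      rw [e]
      apply step y hy _ (H.conj y g hg)
      intro h
      apply hc
      have e2 : y = y * y * y⁻¹ := by group
      have h' : Commute (y * y * y⁻¹) (y * g * y⁻¹) := by rwa [← e2]
      exact ((commute_conj_iff y).1 h').symm
  have inv2 : ∀ g : G, (∀ y ∈ Y, g * y * g⁻¹ ∈ Y) ∧ (∀ y ∈ Y, g⁻¹ * y * g ∈ Y) := by
    intro g
    have hg : g ∈ Subgroup.closure D := by rw [H.gen]; exact Subgroup.mem_top _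
    induction hg using Subgroup.closure_induction with
    | mem x hx =>
      refine ⟨inv1 x hx, fun y hy => ?_⟩
      have := inv1 x hx y hy
      rwa [inv_eq H.tt hx] at this ⊢
    | one => simp
    | mul x z _ _ hx hz =>
      constructor
      · intro y hy
        have e : x * z * y * (x * z)⁻¹ = x * (z * y * z⁻¹) * x⁻¹ := by group
        rw [e]; exact hx.1 _ (hz.1 y hy)
      · intro y hy
        have e : (x * z)⁻¹ * y * (x * z) = z⁻¹ * (x⁻¹ * y * x) * z := by group
        rw [e]; exact hz.2 _ (hx.2 y hy)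
    | inv x _ hx =>
      refine ⟨fun y hy => ?_, fun y hy => ?_⟩
      · rw [inv_inv]; exact hx.2 y hy
      · rw [inv_inv]; exact hx.1 y hy
  obtain ⟨g, hg⟩ := H.trans d hd u hu
  have h1 : u ∈ Y := by rw [← hg]; exact (inv2 g).1 d ⟨hd, Or.inl rfl⟩
  rcases h1.2 with h | h | ⟨z, hz, h2, h3⟩
  · exact absurd h.symm hne
  · exact absurd hdu h
  · exact ⟨z, hz, h2, h3⟩

/-- connectedness and trivial cores imply primitivity -/
theorem Cls.prim_of_conn [Finite G] (h2 : pCore 2 G = ⊥) (h3 : pCore 3 G = ⊥) (hconn : ∀ x ∈ D, ∀ y ∈ D, E0 D x y)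
    (hw : ∃ a ∈ D, ∃ b ∈ D, a ≠ b ∧ Commute a b) : IsPrimitiveUnderConj D := by
  obtain ⟨a0, ha0, b0, hb0, hab0, -⟩ := hw
  refine ⟨H.trans, ⟨a0, ha0, b0, hb0, hab0⟩, ?_⟩
  intro B hBD hbl
  by_contra hcon
  push Not at hcon
  obtain ⟨hns, hBne⟩ := hcon
  obtain ⟨b1, hb1, b2, hb2, hb12⟩ := hns
  have hblk : ∀ g : G, ∀ x ∈ B, g * x * g⁻¹ ∈ B → ∀ y ∈ B, g * y * g⁻¹ ∈ B := by
    intro g x hx hgx y hy
    rcases hbl g with h | h
    · rw [← h]; exact ⟨y, hy, rfl⟩
    · exact absurd hgx (Set.disjoint_left.1 h ⟨x, hx, rfl⟩)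
  let E : G → G → Prop := fun x y => ∃ g : G, g⁻¹ * x * g ∈ B ∧ g⁻¹ * y * g ∈ B
  have hBc : ∀ {g x : G}, g⁻¹ * x * g ∈ B → x ∈ D := by
    intro g x hx
    have h1 := H.conj g _ (hBD hx)
    have e : g * (g⁻¹ * x * g) * g⁻¹ = x := by group
    rwa [e] at h1
  have hE : Eqv D E := by
    refine ⟨fun ⟨g, h1, h2⟩ => ⟨hBc h1, hBc h2⟩, ?_, fun ⟨g, h1, h2⟩ => ⟨g, h2, h1⟩, ?_, ?_⟩
    · intro x hx
      obtain ⟨g, hg⟩ := H.trans b1 (hBD hb1) x hx
      have e : g⁻¹ * x * g = b1 := by rw [← hg]; group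
      exact ⟨g, by rw [e]; exact hb1, by rw [e]; exact hb1⟩
    · rintro x y z ⟨g, h1, h2⟩ ⟨h, h3, h4⟩
      refine ⟨g, h1, ?_⟩
      have h5 := hblk (g⁻¹ * h) _ h3 (by
        have e : g⁻¹ * h * (h⁻¹ * y * h) * (g⁻¹ * h)⁻¹ = g⁻¹ * y * g := by group
        rw [e]; exact h2) _ h4
      have e : g⁻¹ * h * (h⁻¹ * z * h) * (g⁻¹ * h)⁻¹ = g⁻¹ * z * g := by group
      rwa [e] at h5
    · rintro x y h ⟨g, h1, h2⟩
      refine ⟨h * g, ?_, ?_⟩
      · have e : (h * g)⁻¹ * (h * x * h⁻¹) * (h * g) = g⁻¹ * x * g := by group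
        rw [e]; exact h1
      · have e : (h * g)⁻¹ * (h * y * h⁻¹) * (h * g) = g⁻¹ * y * g := by group
        rw [e]; exact h2
  -- two inequivalent elements
  obtain ⟨x0, hx0, hx0B⟩ : ∃ x ∈ D, x ∉ B := by
    by_contra h
    push Not at h
    exact hBne (Set.Subset.antisymm hBD h)
  have hn0 : ¬ E b1 x0 := by
    rintro ⟨g, h4, h5⟩
    apply hx0B
    have h6 := hblk g _ h4 (by
      have e : g * (g⁻¹ * b1 * g) * g⁻¹ = b1 := by group
      rw [e]; exact hb1) _ h5
    have e : g * (g⁻¹ * x0 * g) * g⁻¹ = x0 := by group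
    rwa [e] at h6
  -- a commuting pair of inequivalent elements
  obtain ⟨d, hd, u, hu, hdu, hndu⟩ : ∃ d ∈ D, ∃ u ∈ D, Commute d u ∧ ¬ E d u := by
    by_contra hcon
    push Not at hcon
    apply hn0
    have key : ∀ x y : G, Relation.ReflTransGen (fun a b => a ∈ D ∧ b ∈ D ∧ Commute a b) x y → x ∈ D → E x y := by
      intro x y hxy
      induction hxy with
      | refl => intro hx; exact hE.refl hx
      | tail _ hbc ih => intro hx; exact hE.trans (ih hx) (hcon _ hbc.1 _ hbc.2.1 hbc.2.2)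
    exact key _ _ (hconn b1 (hBD hb1) x0 hx0).2.2 (hBD hb1)
  obtain ⟨x, hx, hdx, hxu⟩ := H.exists_common hd hu hdu (by rintro rfl; exact hndu (hE.refl hd))
  have hsol := isSolvable_RE H.tt H.conj hE hd hx hu hdu hndu hdx hxu
  have hle := RE_le_NE H.tt H.conj hE d
  have hNn := NE_normal H.conj hE
  have hSn : ((RE E d).subgroupOf (NE H.conj hE)).Normal := by
    constructor
    rintro ⟨r, hr⟩ hr' ⟨n, hn'⟩
    rw [Subgroup.mem_subgroupOf] at hr' ⊢
    exact RE_norm H.conj hE hd hn' hr'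
  have hbot := H.noSol h2 h3 (NE H.conj hE) ((RE E d).subgroupOf (NE H.conj hE))
    (Group.isSolvable_of_isSolvable_injective (f := (Subgroup.subgroupOfEquivOfLe hle).toMonoidHom)
      (Subgroup.subgroupOfEquivOfLe hle).injective)
  -- the class of `d` is nontrivial
  obtain ⟨g, hg⟩ := H.trans b1 (hBD hb1) d hd
  have hE2 : E d (g * b2 * g⁻¹) := by
    rw [← hg]
    refine hE.conj g ⟨1, ?_, ?_⟩
    · simpa using hb1
    · simpa using hb2
  have hmem : d * (g * b2 * g⁻¹) ∈ RE E d := Subgroup.subset_closure ⟨d, _, hE.refl hd, hE2, rfl⟩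
  have h4 : (⟨_, hle hmem⟩ : NE H.conj hE) ∈ (RE E d).subgroupOf (NE H.conj hE) := Subgroup.mem_subgroupOf.2 hmem
  rw [hbot, Subgroup.mem_bot] at h4
  have h5 : d * (g * b2 * g⁻¹) = 1 := congrArg Subtype.val h4
  apply hb12
  rw [mul_eq_one_iff_eq_inv, inv_eq H.tt (H.conj g b2 (hBD hb2)), ← hg] at h5
  exact mul_left_cancel (mul_right_cancel h5)

end H91.TTPrim
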