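import Cfsg.Agent.Lib.H91.TransvCent

/-!
`O_2(C(z))` for a transvection `z` of `SL_{n+2}(2)` is large extraspecial.
-/

set_option autoImplicit false

namespace H91.TransvLarge

open Cfsg Matrix H91.MonsterForm H91.ExtModel H91.TransvCent H91.LargeAbs

variable {m : ℕ}

theorem T_eq_el (f : Fin (m + 1 + 2) → ZMod 2) (h : f ⬝ᵥ (Pi.single 0 1) = 0) :
    H50.Tv.T (Pi.single 0 1) f h = el (f 1) (fun j : Fin (m + 1) => f j.succ.succ) 0 1 := by
  have h0 : f 0 = 0 := by simpa using h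
  apply Subtype.ext
  show H50.Tv.tv (Pi.single 0 1) f = blk (f 1) (fun j : Fin (m + 1) => f j.succ.succ) 0 ((1 : SL (m + 1)) : Mt (m + 1))
  have e1 : ((1 : SL (m + 1)) : Mt (m + 1)) = 1 := rfl
  rw [e1]
  have h1 : ∀ i j : Fin (m + 1 + 2), H50.Tv.tv (Pi.single 0 1) f i j =
      (if i = j then 1 else 0) + (if i = 0 then f j else 0) := by
    intro i j
    rw [H50.Tv.tv, Matrix.add_apply, Matrix.one_apply, Matrix.vecMulVec_apply, Pi.single_apply]
    congr 1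
    split_ifs <;> simp
  have n1 : ∀ j : Fin (m + 1), (0 : Fin (m + 1 + 2)) ≠ j.succ.succ := fun j => (Fin.succ_ne_zero _).symm
  have n2 : ∀ j : Fin (m + 1), (1 : Fin (m + 1 + 2)) ≠ j.succ.succ := by
    intro j h; exact absurd (congrArg Fin.val h) (by simp)
  have n3 : (1 : Fin (m + 1 + 2)) ≠ 0 := by
    intro h; exact absurd (congrArg Fin.val h) (by simp)
  apply ext_blk
  · rw [h1]; simp [h0]
  · rw [h1]; simp [n3.symm]
  · intro j; rw [h1, if_neg (n1 j)]; simp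
  · rw [h1, if_neg n3, if_neg n3]; simp
  · rw [h1, if_neg n3]; simp
  · intro j; rw [h1, if_neg (n2 j), if_neg n3]; simp
  · intro j; rw [h1, if_neg (n1 j).symm, if_neg (n1 j).symm]; simp
  · intro j; rw [h1, if_neg (n2 j).symm, if_neg (n1 j).symm]; simp
  · intro i j; rw [h1, if_neg (n1 i).symm, blk_ss, Matrix.one_apply]; simp

theorem odd_trivial {z : SL (m + 1 + 2)} (hz : (z : Mt (m + 1 + 2)) = Matrix.transvection 0 1 1)
    {C : Subgroup (SL (m + 1 + 2))} (hC : ∀ g, g ∈ C ↔ g * z = z * g) (Q : Subgroup (SL (m + 1 + 2)))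
    (hQ : Q = (C.subtype.comp (kap hz hC)).range) (K : Subgroup (SL (m + 1 + 2))) (hK : Odd (Nat.card K))
    (hn : Q ≤ Subgroup.normalizer (K : Set (SL (m + 1 + 2)))) : K = ⊥ := by
  set e : Fin (m + 1 + 2) → ZMod 2 := Pi.single 0 1 with he
  have he0 : e ≠ 0 := by
    intro h
    have := congrFun h 0
    simp [he] at this
  have hT : ∀ f (h : f ⬝ᵥ e = 0), H50.Tv.T e f h ∈ Q := by
    intro f h
    rw [hQ]
    refine ⟨⟨fun j => f j.succ.succ, 0, f 1⟩, ?_⟩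
    show el (f 1) (fun j => f j.succ.succ) 0 1 = _
    exact (T_eq_el f h).symm
  have hnn : ∀ f (h : f ⬝ᵥ e = 0), ∀ k ∈ K, H50.Tv.T e f h * k * (H50.Tv.T e f h)⁻¹ ∈ K := by
    intro f h k hk
    exact (Subgroup.mem_normalizer_iff.1 (hn (hT f h)) k).1 hk
  obtain ⟨p, r, f1, f2, ne1, ne2, ne3⟩ : ∃ p r : Fin (m + 1 + 2) → ZMod 2, p ⬝ᵥ e = 0 ∧ r ⬝ᵥ e = 0 ∧ p ≠ 0 ∧ r ≠ 0 ∧
      p + r ≠ 0 := by
    let j2 : Fin (m + 1 + 2) := Fin.succ (Fin.succ (0 : Fin (m + 1)))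
    have n1 : j2 ≠ 0 := Fin.succ_ne_zero _
    have n2 : j2 ≠ 1 := by
      intro h
      have h2 : (2 : ℕ) = 1 := congrArg Fin.val h
      exact absurd h2 (by norm_num)
    have n3 : (1 : Fin (m + 1 + 2)) ≠ 0 := by
      intro h; exact absurd (congrArg Fin.val h) (by simp)
    refine ⟨Pi.single 1 1, Pi.single j2 1, ?_, ?_, ?_, ?_, ?_⟩
    · rw [he, dotProduct_single, Pi.single_eq_of_ne n3.symm, zero_mul]
    · rw [he, dotProduct_single, Pi.single_eq_of_ne n1.symm, zero_mul]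
    · intro h; have := congrFun h 1; simp at this
    · intro h; have := congrFun h j2; simp at this
    · intro h
      have := congrFun h 1
      rw [Pi.add_apply, Pi.single_eq_same, Pi.single_eq_of_ne n2.symm, add_zero] at this
      exact one_ne_zero this
  have f3 : (p + r) ⬝ᵥ e = 0 := by
    rw [add_dotProduct, f1, f2, add_zero]
  have hmul : ∀ a b (ha : a ⬝ᵥ e = 0) (hb : b ⬝ᵥ e = 0) (hab : (a + b) ⬝ᵥ e = 0), H50.Tv.T e a ha * H50.Tv.T e b hb =
      H50.Tv.T e (a + b) hab := by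
    intro a b ha hb hab
    apply Subtype.ext
    exact H50.Tv.tv_mul_tv_left e a b ha
  have hfree := odd_fixed K hK e he0 hnn
  haveI : Finite K := inferInstance
  apply eq_bot_of_four hK (s := H50.Tv.T e _ f1) (t := H50.Tv.T e _ f2) (sq_T _ _ _) (sq_T _ _ _)
  · rw [hmul _ _ f1 f2 f3, hmul _ _ f2 f1 (by rw [add_comm r p]; exact f3)]
    apply Subtype.ext
    show H50.Tv.tv e _ = H50.Tv.tv e _
    rw [add_comm p r]
  · exact hnn _ f1
  · exact hnn _ f2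
  · intro k hk h; exact hfree _ f1 ne1 k hk h
  · intro k hk h; exact hfree _ f2 ne2 k hk h
  · intro k hk h
    rw [hmul _ _ f1 f2 f3] at h
    exact hfree _ f3 ne3 k hk h

theorem final {z : SL (m + 1 + 2)} (hz : (z : Mt (m + 1 + 2)) = Matrix.transvection 0 1 1)
    {C : Subgroup (SL (m + 1 + 2))} (hC : ∀ g, g ∈ C ↔ g * z = z * g) (Q : Subgroup (SL (m + 1 + 2)))
    (hQ : Q = (pCore 2 C).map C.subtype) :
    IsExtraspecial 2 Q ∧ Nat.card Q = 2 ^ (2 * (m + 1) + 1) ∧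
      (∃ E : Subgroup (SL (m + 1 + 2)), E ≤ Q ∧ IsElementaryAbelian 2 E ∧ Nat.card E = 2 ^ (m + 1 + 1)) ∧
      IsLargeExtraspecial Q ∧
      ∃ K : Subgroup (SL (m + 1 + 2)), K ≤ C ∧ Q ⊓ K = ⊥ ∧ Q ⊔ K = C ∧ Nonempty (K ≃* SL (m + 1)) := by
  have hs : Function.Surjective (piC hz hC) := fun x => ⟨sigC hz hC x, pi_sig hz hC x⟩
  have hQr := Q_eq_range (piC hz hC) hs (pCore_SL _) (kap hz hC) (kap_range hz hC) Q hQ
  obtain ⟨⟨h1, h2, h3⟩, ⟨h4, h5⟩, h6⟩ := main hC (piC hz hC) (sigC hz hC) (pi_sig hz hC) (pCore_SL _) (kap hz hC)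
    (kap_inj hz hC) (kap_range hz hC) (kap_zet hz hC) (faithful hz hC) Q hQ
  exact ⟨h1, h2, h3, ⟨h1, h4, h5, fun K hK hn => odd_trivial hz hC Q hQr K hK hn⟩, h6⟩

end H91.TransvLarge
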